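import Mathlib
import Cfsg.Agent.S7.Defs
import Cfsg.Agent.GT.FrobeniusComplement

set_option autoImplicit false
set_option linter.unusedSectionVars false

namespace Cfsg.Agent.S7

open Matrix Cfsg.Geo Cfsg.Agent.Cl.D5 Module
open scoped MatrixGroups ComplexConjugate commutatorElement

variable {F : Type*} [Field F] [Fintype F]

namespace NXH

open Subgroup

variable {Γ : Type*} [Group Γ] {U : Type*} [AddCommGroup U] [Module F U] [Finite U] {l c : ℕ}
  [Fact l.Prime]

theorem dvd_inv (σ : Representation F Γ U) (hΓ : IsPGroup l Γ)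
    (ho : orderOf (Fintype.card F : ZMod l) = c) (h0 : 0 < c) :
    c ∣ finrank F U - finrank F σ.invariants := by
  let : DistribMulAction Γ U := DistribMulAction.compHom U (σ : Γ →* Module.End F U)
  have h1 := hΓ.card_modEq_card_fixedPoints U
  have h2 : Nat.card (MulAction.fixedPoints Γ U) = Nat.card σ.invariants := rfl
  rw [h2, Module.natCard_eq_pow_finrank (K := F) (V := U),
    Module.natCard_eq_pow_finrank (K := F) (V := σ.invariants),
    Nat.card_eq_fintype_card, ← ZMod.natCast_eq_natCast_iff, Nat.cast_pow, Nat.cast_pow,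
    (orderOf_pos_iff.1 (ho ▸ h0)).pow_eq_pow_iff_modEq, ho] at h1
  exact (Nat.modEq_iff_dvd' (Submodule.finrank_le _)).1 h1.symm

theorem l_ne_two (ho : orderOf (Fintype.card F : ZMod l) = c) (h3 : 3 ≤ c) : l ≠ 2 := by
  rintro rfl
  have := orderOf_le_card_univ (x := (Fintype.card F : ZMod 2))
  rw [ZMod.card] at this
  omega

theorem l_ne_zero (ho : orderOf (Fintype.card F : ZMod l) = c) (h3 : 3 ≤ c) : (l : F) ≠ 0 := fun e => by
  have := (CharP.charP_iff_prime_eq_zero (R := F) (p := l) Fact.out).2 e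
  obtain ⟨n, -, hn⟩ := FiniteField.card F l
  have h1 := (orderOf_pos_iff.1 (show 0 < orderOf (Fintype.card F : ZMod l) by omega)).isUnit
  rw [hn, Nat.cast_pow, ZMod.natCast_self, zero_pow n.ne_zero] at h1
  exact not_isUnit_zero h1

/-- The standing hypotheses. -/
structure Hy (ρ : Representation F Γ U) (X : Subgroup Γ) (l c : ℕ) : Prop where
  pg : IsPGroup l X
  ho : orderOf (Fintype.card F : ZMod l) = c
  h3 : 3 ≤ c
  dim : finrank F U = c
  fx : ∀ v, (∀ x ∈ X, ρ x v = v) → v = 0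

variable {ρ : Representation F Γ U} {X : Subgroup Γ}

theorem Hy.nt (h : Hy ρ X l c) : Nontrivial U :=
  Module.nontrivial_of_finrank_pos (R := F) (by have := h.dim; have := h.h3; omega)

theorem Hy.irr (h : Hy ρ X l c) {A : Submodule F U} (hA : ∀ x ∈ X, ∀ v ∈ A, ρ x v ∈ A) :
    A = ⊥ ∨ A = ⊤ := by
  let σ := Representation.subrepresentation (ρ.comp X.subtype) A fun x v hv => hA x x.2 v hv
  have h1 := dvd_inv σ h.pg h.ho (by have := h.h3; omega)
  have h2 : σ.invariants = ⊥ := eq_bot_iff.2 fun v hv =>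
    Subtype.ext (h.fx v fun x hx => congrArg Subtype.val (hv ⟨x, hx⟩))
  rw [h2, finrank_bot, Nat.sub_zero] at h1
  by_cases e : finrank F A = 0
  · exact .inl (Submodule.finrank_eq_zero.1 e)
  · exact .inr (Submodule.eq_top_of_finrank_eq ((Submodule.finrank_le A).antisymm
      (h.dim ▸ Nat.le_of_dvd (Nat.pos_of_ne_zero e) h1)))

theorem Hy.one_or (h : Hy ρ X l c) {x : Γ} (hx : x ∈ X) : ρ x = 1 ∨ ∀ v, ρ x v = v → v = 0 := by
  let σ : Representation F (zpowers x) U := ρ.comp (zpowers x).subtype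
  have h1 := dvd_inv σ (h.pg.to_le (zpowers_le.2 hx)) h.ho (by have := h.h3; omega)
  have h2 := Submodule.finrank_le σ.invariants
  by_cases e : finrank F σ.invariants = finrank F U
  · exact .inl (LinearMap.ext fun v =>
      (Submodule.eq_top_of_finrank_eq e).ge (Submodule.mem_top (x := v)) ⟨x, mem_zpowers x⟩)
  · have h4 := Nat.le_of_dvd (by omega) h1
    have h5 : σ.invariants = ⊥ := Submodule.finrank_eq_zero.1 (by have := h.dim; omega)
    refine .inr fun v hv => h5.le fun g => ?_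
    let : DistribMulAction Γ U := DistribMulAction.compHom U (ρ : Γ →* Module.End F U)
    exact (zpowers_le.2 (show x ∈ MulAction.stabilizer Γ v from hv) : zpowers x ≤ MulAction.stabilizer Γ v) g.2

theorem Hy.schur (h : Hy ρ X l c) {φ : Module.End F U} (hφ : ∀ x ∈ X, ρ x * φ = φ * ρ x) :
    φ = 0 ∨ Function.Injective φ :=
  (h.irr (A := LinearMap.ker φ) fun x hx v hv => by
    rw [LinearMap.mem_ker, ← Module.End.mul_apply, ← hφ x hx, Module.End.mul_apply, LinearMap.mem_ker.1 hv,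
      map_zero]).symm.imp LinearMap.ker_eq_top.1 LinearMap.ker_eq_bot.1

theorem Hy.comm (h : Hy ρ X l c) {φ ψ : Module.End F U} (hφ : ∀ x ∈ X, ρ x * φ = φ * ρ x)
    (hψ : ∀ x ∈ X, ρ x * ψ = ψ * ρ x) : φ * ψ = ψ * φ := by
  have := h.nt
  let E := Subring.centralizer (ρ '' (X : Set Γ))
  have hE : ∀ {a}, a ∈ E ↔ ∀ x ∈ X, ρ x * a = a * ρ x := fun {a} =>
    Subring.mem_centralizer_iff.trans ⟨fun k x hx => k _ ⟨x, hx, rfl⟩, by rintro k _ ⟨x, hx, rfl⟩; exact k x hx⟩
  have : Finite (Module.End F U) := Finite.of_injective _ DFunLike.coe_injective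
  have : NoZeroDivisors E := ⟨fun {a b} e => (h.schur (hE.1 a.2)).imp Subtype.ext fun k =>
    Subtype.ext (LinearMap.ext fun v => k ((LinearMap.congr_fun (congrArg Subtype.val e) v).trans
      (map_zero (a : Module.End F U)).symm))⟩
  have : IsDomain E := NoZeroDivisors.to_isDomain E
  exact congrArg Subtype.val ((Finite.isDomain_to_isField E).mul_comm ⟨φ, hE.2 hφ⟩ ⟨ψ, hE.2 hψ⟩)

theorem Hy.charP (h : Hy ρ X l c) {p : ℕ} [Fact p.Prime] (hp : Fintype.card F = p) :
    CharP (Module.End F U) p := by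
  have := h.nt
  refine (CharP.charP_iff_prime_eq_zero Fact.out).2 ?_
  rw [← map_natCast (algebraMap F (Module.End F U)), ← hp, FiniteField.cast_card_eq_zero, map_zero]

theorem Hy.unip (h : Hy ρ X l c) {p k : ℕ} [Fact p.Prime] (hp : Fintype.card F = p) {φ : Module.End F U}
    (hφ : ∀ x ∈ X, ρ x * φ = φ * ρ x) (hk : φ ^ p ^ k = 1) : φ = 1 := by
  have := h.nt
  have := h.charP hp
  have h1 : (φ - 1) ^ p ^ k = 0 := by
    rw [sub_pow_char_pow_of_commute _ _ (Commute.one_right φ), hk, one_pow, sub_self]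
  refine sub_eq_zero.1 ((h.schur (φ := φ - 1) fun x hx => by
    rw [mul_sub, sub_mul, hφ x hx, mul_one, one_mul]).resolve_right fun i => ?_)
  have h2 : Function.Injective ((φ - 1) ^ p ^ k : Module.End F U) := by
    rw [Module.End.coe_pow]
    exact i.iterate _
  rw [h1] at h2
  obtain ⟨v, hv⟩ := exists_ne (0 : U)
  exact hv (h2 rfl)

variable [Finite Γ]

theorem Hy.theta (h : Hy ρ X l c) [X.Normal] : ∃ (K : Subgroup Γ) (m : ℕ),
    _root_.commutator Γ ≤ K ∧ (∀ g, g ^ Nat.totient (l ^ m) ∈ K) ∧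
    ∀ g ∈ K, ∀ x ∈ X, ρ x * ρ g = ρ g * ρ x := by
  have := h.nt
  let π := ρ.asGroupHom.rangeRestrict
  have hπ : Function.Surjective π := MonoidHom.rangeRestrict_surjective _
  let Y := X.map π
  have : Y.Normal := Normal.map inferInstance π hπ
  have : Finite ρ.asGroupHom.range := Finite.of_surjective _ hπ
  let : DistribMulAction Y U := DistribMulAction.compHom U
    ((Units.coeHom (Module.End F U)).comp (ρ.asGroupHom.range.subtype.comp Y.subtype))
  have h1 : GT.Frob.HasFpfAction Y := GT.Frob.hasFpfAction_of_distribMulAction U (by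
    rintro ⟨_, y, hy, rfl⟩ h2 v h3
    rcases h.one_or hy with e | e
    · exact absurd (Subtype.ext (Subtype.ext (Units.ext e))) h2
    · exact e v h3)
  have h2 : IsCyclic (⊤ : Subgroup Y) :=
    h1.isCyclic_of_isPGroup (l_ne_two h.ho h.h3) ((h.pg.map π).to_subgroup ⊤)
  have h3 : IsCyclic Y := isCyclic_of_surjective _ topEquiv.surjective
  obtain ⟨m, hm⟩ := IsPGroup.iff_card.1 (h.pg.map π)
  refine ⟨((MulAut.conjNormal (H := Y)).comp π).ker, m, commutator_le.mpr fun a _ b _ => ?_, fun g => ?_,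
    fun g hg x hx => ?_⟩
  · rw [MonoidHom.mem_ker, map_commutatorElement, commutatorElement_eq_one_iff_mul_comm]
    exact (IsCyclic.mulAutMulEquiv Y).injective (by rw [map_mul, map_mul, mul_comm])
  · rw [MonoidHom.mem_ker, map_pow, ← hm, ← IsCyclic.card_mulAut, pow_card_eq_one']
  have h5 := congrArg (fun t : Y => ((t : ρ.asGroupHom.range) : (Module.End F U)ˣ))
    (DFunLike.congr_fun hg ⟨π x, x, hx, rfl⟩)
  have h6 : ρ.asGroupHom g * ρ.asGroupHom x * (ρ.asGroupHom g)⁻¹ = ρ.asGroupHom x := h5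
  exact (congrArg Units.val (mul_inv_eq_iff_eq_mul.mp h6)).symm

theorem Hy.two (h : Hy ρ X l c) [X.Normal] : ⁅_root_.commutator Γ, _root_.commutator Γ⁆ ≤ ρ.asGroupHom.ker := by
  obtain ⟨K, m, h4, -, h2⟩ := h.theta
  refine commutator_le.mpr fun a ha b hb => ?_
  rw [MonoidHom.mem_ker, map_commutatorElement, commutatorElement_eq_one_iff_mul_comm]
  exact Units.ext (h.comm (h2 a (h4 ha)) (h2 b (h4 hb)))

theorem Hy.three (h : Hy ρ X l 5) [X.Normal] (hq : Fintype.card F = 3) {g : Γ} {k : ℕ}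
    (hk : g ^ 3 ^ k = 1) : ρ g = 1 := by
  have := Fact.mk Nat.prime_three
  obtain ⟨K, m, -, h1, h2⟩ := h.theta
  have h3 : l ∣ 2 * 11 ^ 2 := by
    have := pow_orderOf_eq_one (Fintype.card F : ZMod l)
    rw [h.ho, hq, ← Nat.cast_pow, ← sub_eq_zero, ← Nat.cast_one, ← Nat.cast_sub (by norm_num),
      ZMod.natCast_eq_zero_iff] at this
    exact this
  have hl : l.Prime := Fact.out
  obtain rfl : l = 11 := (Nat.prime_dvd_prime_iff_eq hl (by norm_num)).1 (hl.dvd_of_dvd_pow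
    ((hl.dvd_mul.1 h3).resolve_left fun e =>
      l_ne_two h.ho h.h3 ((Nat.prime_dvd_prime_iff_eq hl Nat.prime_two).1 e)))
  have h4 : Nat.Coprime (3 ^ k) (Nat.totient (11 ^ m)) := by
    refine Nat.Coprime.pow_left _ ?_
    cases m with
    | zero => simp
    | succ m =>
      rw [Nat.totient_prime_pow_succ hl]
      exact Nat.Coprime.mul_right (Nat.Coprime.pow_right _ (by norm_num)) (by norm_num)
  refine h.unip hq (h2 g ?_) (k := k) (by rw [← map_pow, hk, map_one])
  exact zpowers_le.2 (h1 g) (mem_zpowers_pow_iff.2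
    (h4.coprime_dvd_left (orderOf_dvd_of_pow_eq_one hk)).symm)

theorem half {φ : Module.End F U} (h : φ * φ = 0) : finrank F U ≤ 2 * finrank F (LinearMap.ker φ) := by
  have h1 := LinearMap.finrank_range_add_finrank_ker φ
  have := Submodule.finrank_mono (LinearMap.range_le_ker_iff.2 h : LinearMap.range φ ≤ LinearMap.ker φ)
  omega

theorem Hy.four (h : Hy ρ X l 5) [hn : X.Normal] (hq : Fintype.card F = 2) (k : ℕ) :
    ∀ g : Γ, ρ g ^ 2 ^ k = 1 → ρ g = 1 := by
  have := Fact.mk Nat.prime_two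
  have := h.charP hq
  induction k with
  | zero => exact fun g h => by rwa [pow_zero, pow_one] at h
  | succ k ih =>
  intro t ht
  have h1 : ρ t * ρ t = 1 := by
    rw [← map_mul]
    exact ih _ (by rwa [map_mul, ← sq, ← pow_mul, ← pow_succ'])
  refine h.unip hq (fun x hx => ?_) ht
  have h2 : t * x * t⁻¹ * x⁻¹ ∈ X := mul_mem (hn.conj_mem x hx t) (inv_mem hx)
  rcases h.one_or h2 with e | e
  · rw [← map_mul ρ t, show t * x = t * x * t⁻¹ * x⁻¹ * (x * t) by group, map_mul, e, one_mul, map_mul]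
  have h3 : ρ (x * t * x⁻¹) * ρ (x * t * x⁻¹) = 1 := by
    rw [← map_mul, show x * t * x⁻¹ * (x * t * x⁻¹) = x * (t * t) * x⁻¹ by group, map_mul, map_mul,
      map_mul ρ t, h1, mul_one, ← map_mul, mul_inv_cancel, map_one]
  have sq0 : ∀ φ : Module.End F U, φ * φ = 1 → (φ - 1) * (φ - 1) = 0 := fun φ k => by
    rw [← sq, sub_pow_char_of_commute _ (Commute.one_right φ), sq, k, one_pow, sub_self]
  have h4 := half (sq0 _ h1)
  have h5 := half (sq0 _ h3)
  have h6 := Submodule.finrank_sup_add_finrank_inf_eq (LinearMap.ker (ρ t - 1))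
    (LinearMap.ker (ρ (x * t * x⁻¹) - 1))
  have h7 : LinearMap.ker (ρ t - 1) ⊓ LinearMap.ker (ρ (x * t * x⁻¹) - 1) = ⊥ := by
    refine eq_bot_iff.mpr fun v hv => e v ?_
    have k1 : ρ t v = v := sub_eq_zero.1 hv.1
    have k2 : ρ (x * t * x⁻¹) v = v := sub_eq_zero.1 hv.2
    conv_lhs => rw [← k2, ← Module.End.mul_apply, ← map_mul]
    rw [show t * x * t⁻¹ * x⁻¹ * (x * t * x⁻¹) = t by group, k1]
  have h8 := Submodule.finrank_le (LinearMap.ker (ρ t - 1) ⊔ LinearMap.ker (ρ (x * t * x⁻¹) - 1))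
  rw [h7, finrank_bot] at h6
  have := h.dim
  omega

end NXH

local notation "M7" => Matrix (Fin 7) (Fin 7) F
local notation "SL7" => specialLinear (Fin 7) F
local notation "Z7" => scalars (Fin 7) F
local notation "GL7" => GL (Fin 7) F

theorem nx_compl {X : Subgroup GL7} (hX : (Nat.card X : F) ≠ 0) :
    ∃ R : Submodule F (Fin 7 → F), Fx X ⊔ R = ⊤ ∧ Fx X ⊓ R = ⊥ ∧
      ∀ g ∈ Subgroup.normalizer (X : Set GL7), ∀ v ∈ R, (g : M7) *ᵥ v ∈ R := by
  have := Fintype.ofFinite X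
  let e : (Fin 7 → F) →ₗ[F] Fin 7 → F := ∑ x : X, Matrix.toLin' ((x : GL7) : M7)
  have he : ∀ v, e v = ∑ x : X, ((x : GL7) : M7) *ᵥ v := fun v => LinearMap.sum_apply _ _ _
  have h1 : ∀ v, e v ∈ Fx X := fun v y hy => by
    rw [he, mulVec_sum, ← Equiv.sum_comp (Equiv.mulLeft (⟨y, hy⟩ : X)) fun x : X => ((x : GL7) : M7) *ᵥ v]
    exact Finset.sum_congr rfl fun x _ => mulVec_mulVec _ _ _
  have h2 : ∀ v ∈ Fx X, e v = (Nat.card X : F) • v := fun v hv => by
    rw [he, Finset.sum_congr rfl fun (x : X) _ => hv x x.2, Finset.sum_const, Finset.card_univ,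
      ← Nat.card_eq_fintype_card, Nat.cast_smul_eq_nsmul]
  refine ⟨LinearMap.ker e, eq_top_iff.mpr fun v _ => Submodule.mem_sup.mpr
    ⟨_, Submodule.smul_mem _ (Nat.card X : F)⁻¹ (h1 v), v - (Nat.card X : F)⁻¹ • e v, ?_, add_sub_cancel _ _⟩,
    eq_bot_iff.mpr fun v hv => (smul_eq_zero.1 ((h2 v hv.1).symm.trans hv.2)).resolve_left hX,
    fun g hg v hv => ?_⟩
  · rw [LinearMap.mem_ker, map_sub, map_smul, h2 _ (h1 v), inv_smul_smul₀ hX, sub_self]
  rw [LinearMap.mem_ker, he, ← mulVec_zero (g : M7), ← show e v = 0 from hv, he, mulVec_sum,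
    ← Equiv.sum_comp (X.normalizerMonoidHom ⟨g, hg⟩).toEquiv]
  exact Finset.sum_congr rfl fun x _ => by
    change ((g * x * g⁻¹ : GL7) : M7) *ᵥ (g : M7) *ᵥ v = _
    rw [mulVec_mulVec, mulVec_mulVec, ← Units.val_mul, ← Units.val_mul, inv_mul_cancel_right]

theorem exists_compl {X : Subgroup GL7} {l c : ℕ} (hl : l.Prime) (hX : IsPGroup l X)
    (ho : orderOf (Fintype.card F : ZMod l) = c) (h3 : 3 ≤ c) (hc : finrank F (Fx X) + c = 7) :
    ∃ R : Submodule F (Fin 7 → F), Fx X ⊔ R = ⊤ ∧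
      (∀ g ∈ ⁅⁅Subgroup.normalizer (X : Set GL7), Subgroup.normalizer (X : Set GL7)⁆,
        ⁅Subgroup.normalizer (X : Set GL7), Subgroup.normalizer (X : Set GL7)⁆⁆,
        ∀ v ∈ R, (g : M7) *ᵥ v = v) ∧
      (c = 5 → Fintype.card F ≤ 3 → ∀ g ∈ Subgroup.normalizer (X : Set GL7), ∀ k : ℕ,
        g ^ Fintype.card F ^ k = 1 → ∀ v ∈ R, (g : M7) *ᵥ v = v) := by
  have := Fact.mk hl
  obtain ⟨m, hm⟩ := IsPGroup.iff_card.1 hX
  obtain ⟨R, r1, r2, r3⟩ := nx_compl (X := X) (by
    rw [hm, Nat.cast_pow]; exact pow_ne_zero _ (NXH.l_ne_zero ho h3))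
  let N := Subgroup.normalizer (X : Set GL7)
  let τ : Representation F GL7 (Fin 7 → F) :=
    (Matrix.toLinAlgEquiv' (R := F) (n := Fin 7)).toMonoidHom.comp (Units.coeHom _)
  let ρ := Representation.subrepresentation (τ.comp N.subtype) R fun g v hv => r3 g g.2 v hv
  have h4 := Submodule.finrank_sup_add_finrank_inf_eq (Fx X) R
  rw [r1, r2, finrank_top, finrank_bot, Module.finrank_fin_fun] at h4
  have h : NXH.Hy ρ (X.subgroupOf N) l c := ⟨hX.comap_subtype, ho, h3, by omega, fun v hv =>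
    Subtype.ext (r2.le ⟨fun x hx => congrArg Subtype.val (hv ⟨x, Subgroup.le_normalizer hx⟩ hx), v.2⟩)⟩
  have key : ∀ g : N, ρ g = 1 → ∀ v ∈ R, ((g : GL7) : M7) *ᵥ v = v := fun g e v hv =>
    congrArg Subtype.val (LinearMap.congr_fun e ⟨v, hv⟩)
  refine ⟨R, r1, fun g hg => ?_, fun c5 q3 g hg k hk => key ⟨g, hg⟩ ?_⟩
  · rw [← Subgroup.map_subtype_commutator N, ← Subgroup.map_commutator] at hg
    obtain ⟨g, hg, rfl⟩ := hg
    exact key g (congrArg Units.val (h.two hg))
  subst c5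
  have hk' : (⟨g, hg⟩ : N) ^ Fintype.card F ^ k = 1 := Subtype.ext hk
  have q1 : 1 < Fintype.card F := Fintype.one_lt_card
  obtain q | q : Fintype.card F = 2 ∨ Fintype.card F = 3 := by omega
  · exact h.four q k _ (by rw [← map_pow, ← q, hk', map_one])
  · exact h.three q (k := k) (by rw [← q, hk'])

end Cfsg.Agent.S7
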