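/-
Overgroups of the `7^(1+2)` normaliser in `SL₇(q)`: more vocabulary.
-/
import Mathlib
import Cfsg.Agent.S7.Defs

set_option autoImplicit false

namespace Cfsg.Agent.S7

open Matrix Cfsg.Geo
open scoped MatrixGroups

variable {F : Type*} [Field F]

/-- An absolutely irreducible non-real representation of `SL₂(7)`. -/
structure Rep {n : ℕ} (φ : SL(2, ZMod 7) →* GL (Fin n) F) : Prop where
  nr : NR φ
  spans : Cl.Max.Spans φ.range
  ker : ∀ A, φ A ∈ scalars (Fin n) F ↔ A = 1 ∨ A = -1

/-- The lower unitriangular generator of `SL₂(7)`. -/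
def ul : SL(2, ZMod 7) := ww * uu * ww⁻¹

variable (F) in
/-- The first exceptional involution in characteristic two. -/
def y1M : Matrix (Fin 7) (Fin 7) F := qM 0 1 !![0, 0, 1; 1, 0, 0; 0, 1, 0]

variable (F) in
/-- The second exceptional involution in characteristic two. -/
def y2M : Matrix (Fin 7) (Fin 7) F := qM 1 0 !![0, 1, 0; 0, 0, 1; 1, 0, 0]

/-- `L` modulo scalars is the alternating group of degree seven. -/
def IsA7 (L : Subgroup (GL (Fin 4) F)) : Prop :=
  Nonempty ((L ⧸ (scalars (Fin 4) F).subgroupOf L) ≃* alternatingGroup (Fin 7))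

end Cfsg.Agent.S7
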