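import Mathlib
import Cfsg.Agent.S7.D6
import Cfsg.Agent.Cl.LinearBasic

set_option autoImplicit false

namespace Cfsg.Agent.S7

open Matrix Cfsg.Geo Cfsg.Agent.Cl.D5 Module
open scoped MatrixGroups ComplexConjugate commutatorElement

namespace S27Aux

/-- Entries of a two by two matrix. -/
abbrev Q4 := ZMod 7 × ZMod 7 × ZMod 7 × ZMod 7

/-- Product. -/
def qm (x y : Q4) : Q4 :=
  (x.1 * y.1 + x.2.1 * y.2.2.1, x.1 * y.2.1 + x.2.1 * y.2.2.2,
    x.2.2.1 * y.1 + x.2.2.2 * y.2.2.1, x.2.2.1 * y.2.1 + x.2.2.2 * y.2.2.2)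

/-- Adjugate. -/
def qi (x : Q4) : Q4 := (x.2.2.2, -x.2.1, -x.2.2.1, x.1)

/-- Power. -/
def qp (x : Q4) : ℕ → Q4
  | 0 => (1, 0, 0, 1)
  | n + 1 => qm (qp x n) x

/-- The entries of an element. -/
def en (A : SL(2, ZMod 7)) : Q4 := (A 0 0, A 0 1, A 1 0, A 1 1)

theorem en_inj {A B : SL(2, ZMod 7)} : A = B ↔ en A = en B := by
  refine ⟨fun h => h ▸ rfl, fun h => ?_⟩
  simp only [en, Prod.mk.injEq] at h
  ext i j
  fin_cases i <;> fin_cases j
  exacts [h.1, h.2.1, h.2.2.1, h.2.2.2]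

theorem en_mul (A B : SL(2, ZMod 7)) : en (A * B) = qm (en A) (en B) := by
  simp [en, qm, Matrix.mul_apply, Fin.sum_univ_two]

theorem en_one : en 1 = (1, 0, 0, 1) := by simp [en]

theorem en_neg : en (-1) = (-1, 0, 0, -1) := by simp [en]

theorem en_inv (A : SL(2, ZMod 7)) : en A⁻¹ = qi (en A) := by
  simp [en, qi, SpecialLinearGroup.coe_inv, adjugate_fin_two]

theorem en_pow (A : SL(2, ZMod 7)) (n : ℕ) : en (A ^ n) = qp (en A) n := by
  induction n with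
  | zero => rw [pow_zero, en_one]; rfl
  | succ n ih => rw [pow_succ, en_mul, ih]; rfl

theorem en_uu : en uu = (1, 1, 0, 1) := rfl

theorem en_ww : en ww = (0, 1, -1, 0) := rfl

theorem en_ul : en ul = (1, 0, -1, 1) := by
  rw [ul, en_mul, en_mul, en_inv, en_uu, en_ww]; decide

theorem en_ex (A : SL(2, ZMod 7)) : ∃ a b c d, a * d - b * c = 1 ∧ en A = (a, b, c, d) :=
  ⟨_, _, _, _, (det_fin_two A.1).symm.trans A.2, rfl⟩

theorem ex_en {a b c d : ZMod 7} (h : a * d - b * c = 1) : ∃ A, en A = (a, b, c, d) :=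
  ⟨⟨!![a, b; c, d], by rw [det_fin_two_of, h]⟩, rfl⟩

theorem k_root : ∀ a b c d : ZMod 7, a * d - b * c = 1 → qp (a, b, c, d) 4 = (1, 0, 0, 1) →
    ∃ a' b' c' d' : ZMod 7, a' * d' - b' * c' = 1 ∧
      qm (a', b', c', d') (a, b, c, d) = qm (a, b, c, d) (a', b', c', d') ∧
      qp (a', b', c', d') 4 = (-1, 0, 0, -1) := by decide +kernel

set_option synthInstance.maxSize 2000 in
theorem k_sq : ∀ a b c d : ZMod 7, a * d - b * c = 1 → qp (a, b, c, d) 2 = (1, 0, 0, 1) →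
    (a, b, c, d) = ((1, 0, 0, 1) : Q4) ∨ (a, b, c, d) = ((-1, 0, 0, -1) : Q4) := by decide +kernel

theorem k_eight : ∀ a b c d : ZMod 7, a * d - b * c = 1 →
    qp (a, b, c, d) 8 = (1, 0, 0, 1) ∨ qp (a, b, c, d) 8 = (-1, 0, 0, -1) →
    qp (a, b, c, d) 4 = (1, 0, 0, 1) ∨ qp (a, b, c, d) 4 = (-1, 0, 0, -1) := by decide +kernel

theorem k_seven : ∀ a b c d : ZMod 7, a * d - b * c = 1 → qp (a, b, c, d) 7 = (1, 0, 0, 1) →
    (a, b, c, d) ≠ ((1, 0, 0, 1) : Q4) → ∃ a' b' c' d' : ZMod 7, a' * d' - b' * c' = 1 ∧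
      (qm (qm (a', b', c', d') (1, 1, 0, 1)) (qi (a', b', c', d')) = (a, b, c, d) ∨
      qm (qm (a', b', c', d') (qi (1, 1, 0, 1))) (qi (a', b', c', d')) = (a, b, c, d)) := by
  decide +kernel

theorem k_pos : ∀ a b c d : ZMod 7, a * d - b * c = 1 → ∀ x : Q4,
    x = qm (qm (a, b, c, d) (1, 1, 0, 1)) (qi (a, b, c, d)) →
    qm x (1, 1, 0, 1) ≠ qm (1, 1, 0, 1) x →
    qp (qm (1, 1, 0, 1) x) 3 = (1, 0, 0, 1) ∨ qp (qm (1, 1, 0, 1) x) 3 = (-1, 0, 0, -1) →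
    ∃ k : Fin 7, x = qm (qm (qp (1, 1, 0, 1) k) (1, 0, -1, 1)) (qi (qp (1, 1, 0, 1) k)) := by
  simp only [forall_eq]
  decide +kernel

theorem k_pow : ∀ c : ZMod 7, ((1, c, 0, 1) : Q4) = qp (1, 1, 0, 1) c.val ∧
    ((1, 0, c, 1) : Q4) = qp (1, 0, -1, 1) (-c).val := by decide +kernel

set_option synthInstance.maxSize 2000 in
theorem k_cen : ∀ a b c d : ZMod 7, a * d - b * c = 1 →
    qm (1, 1, 0, 1) (a, b, c, d) = qm (a, b, c, d) (1, 1, 0, 1) →
    qm (0, 1, -1, 0) (a, b, c, d) = qm (a, b, c, d) (0, 1, -1, 0) →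
    (a, b, c, d) = ((1, 0, 0, 1) : Q4) ∨ (a, b, c, d) = ((-1, 0, 0, -1) : Q4) := by decide +kernel

theorem three : 3 ≤ Fintype.card (Fin 2) ∨ ∃ a : ZMod 7, a ≠ 0 ∧ a ^ 2 ≠ 1 :=
  Or.inr ⟨2, by decide, by decide⟩

theorem one_add_pow {R : Type*} [Ring R] {n : R} (h : n * n = 0) (k : ℕ) :
    (1 + n) ^ k = 1 + k • n := by
  induction k with
  | zero => simp
  | succ k ih =>
    rw [pow_succ, ih, add_mul, mul_add, mul_add, smul_mul_assoc, smul_mul_assoc, h, succ_nsmul]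
    simp only [mul_one, one_mul, smul_zero, add_zero]
    abel

theorem eq_one {K : Type*} [Field K] (h7 : (7 : K) ≠ 0) (m : Matrix (Fin 2) (Fin 2) K)
    (hd : m.det = 1) (ht : (m ^ 2).trace = m.trace) (h : m ^ 7 = 1) : m = 1 := by
  have ch : m * m = m.trace • m - 1 := by
    rw [det_fin_two] at hd
    ext i j
    fin_cases i <;> fin_cases j <;> simp [Matrix.mul_apply, Fin.sum_univ_two, trace_fin_two] <;>
      first | ring1 | linear_combination -hd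
  rw [sq, ch, trace_sub, trace_smul, trace_one, smul_eq_mul] at ht
  have h1 : (m.trace - 2) * (m.trace + 1) = 0 := by
    simp only [Fintype.card_fin, Nat.cast_ofNat] at ht
    linear_combination ht
  rcases mul_eq_zero.mp h1 with h2 | h2
  · rw [sub_eq_zero.mp h2, two_smul] at ch
    have h3 : (m - 1) * (m - 1) = 0 := by
      rw [sub_mul, mul_sub, ch, mul_one, one_mul]; abel
    have h4 := one_add_pow h3 7
    rw [add_sub_cancel, h, left_eq_add, ← Nat.cast_smul_eq_nsmul K, smul_eq_zero] at h4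
    exact sub_eq_zero.mp (h4.resolve_left (by exact_mod_cast h7))
  · rw [eq_neg_of_add_eq_zero_left h2, neg_one_smul] at ch
    have h3 : m ^ 3 = 1 := by
      rw [pow_succ, sq, ch, sub_mul, neg_mul, ch]; simp
    rwa [show 7 = 3 * 2 + 1 from rfl, pow_succ, pow_mul, h3, one_pow, one_mul] at h

end S27Aux

open S27Aux

theorem s27_card : Nat.card SL(2, ZMod 7) = 336 := by
  have : Fact (Nat.Prime 7) := ⟨by norm_num⟩
  rw [Cl.card_sl_two, Nat.card_zmod]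
  norm_num

theorem s27_gen : Subgroup.closure {uu, ww} = ⊤ ∧ Subgroup.closure {uu, ul} = ⊤ := by
  have : Fact (Nat.Prime 7) := ⟨by norm_num⟩
  have h : Subgroup.closure {uu, ul} = ⊤ := by
    refine Cl.sl_eq_top_of_transvection_mem _ fun i j hij c => ?_
    fin_cases i <;> fin_cases j
    · exact absurd rfl hij
    · have e : SpecialLinearGroup.transvection hij c = uu ^ c.val := by
        rw [en_inj, en_pow, en_uu, ← (k_pow c).1]
        simp [en, SpecialLinearGroup.transvection_coe]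
      exact e ▸ pow_mem (Subgroup.subset_closure (by simp)) _
    · have e : SpecialLinearGroup.transvection hij c = ul ^ (-c).val := by
        rw [en_inj, en_pow, en_ul, ← (k_pow c).2]
        simp [en, SpecialLinearGroup.transvection_coe]
      exact e ▸ pow_mem (Subgroup.subset_closure (by simp)) _
    · exact absurd rfl hij
  refine ⟨top_le_iff.mp (h ▸ (Subgroup.closure_le _).mpr ?_), h⟩
  have h1 : uu ∈ Subgroup.closure {uu, ww} := Subgroup.subset_closure (by simp)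
  have h2 : ww ∈ Subgroup.closure {uu, ww} := Subgroup.subset_closure (by simp)
  rintro _ (rfl | rfl)
  exacts [h1, mul_mem (mul_mem h2 h1) (inv_mem h2)]

theorem s27_normal (N : Subgroup SL(2, ZMod 7)) [N.Normal] {A : SL(2, ZMod 7)} (h : A ∈ N)
    (h1 : A ≠ 1) (h2 : A ≠ -1) : N = ⊤ := by
  have : Fact (Nat.Prime 7) := ⟨by norm_num⟩
  refine (Cl.sl_normal_le_center_or_eq_top three N).resolve_left fun hN => ?_
  have h3 := Subgroup.mem_center_iff.mp (hN h) uu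
  have h4 := Subgroup.mem_center_iff.mp (hN h) ww
  obtain ⟨a, b, c, d, hd, e⟩ := en_ex A
  simp only [Ne, en_inj, en_mul, en_uu, en_ww, en_one, en_neg, e] at h1 h2 h3 h4
  exact (k_cen a b c d hd h3 h4).elim h1 h2

theorem s27_perfect : commutator SL(2, ZMod 7) = ⊤ := by
  have : Fact (Nat.Prime 7) := ⟨by norm_num⟩
  exact Cl.sl_commutator_eq_top three

theorem s27_root (A : SL(2, ZMod 7)) (h : A ^ 4 = 1) : ∃ B, B * A = A * B ∧ B ^ 4 = -1 := by
  obtain ⟨a, b, c, d, hd, e⟩ := en_ex A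
  rw [en_inj, en_pow, en_one, e] at h
  obtain ⟨a', b', c', d', h1, h2, h3⟩ := k_root a b c d hd h
  obtain ⟨B, hB⟩ := ex_en h1
  exact ⟨B, by rw [en_inj, en_mul, en_mul, e, hB, h2], by rw [en_inj, en_pow, hB, h3, en_neg]⟩

theorem s27_sq (A : SL(2, ZMod 7)) (h : A ^ 2 = 1) : A = 1 ∨ A = -1 := by
  obtain ⟨a, b, c, d, hd, e⟩ := en_ex A
  simp only [en_inj, en_pow, en_one, en_neg, e] at h ⊢
  exact k_sq a b c d hd h

theorem s27_eight (A : SL(2, ZMod 7)) (h : A ^ 8 = 1 ∨ A ^ 8 = -1) : A ^ 4 = 1 ∨ A ^ 4 = -1 := by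
  obtain ⟨a, b, c, d, hd, e⟩ := en_ex A
  simp only [en_inj, en_pow, en_one, en_neg, e] at h ⊢
  exact k_eight a b c d hd h

theorem s27_syl : ∃ Q : Subgroup SL(2, ZMod 7), Nat.card Q = 16 ∧ -1 ∈ Q ∧
    ∀ A ∈ Q, A ^ 4 = 1 ∨ A ^ 4 = -1 := by
  obtain ⟨Q, hQ⟩ := Sylow.exists_subgroup_card_pow_prime (G := SL(2, ZMod 7)) 2 (n := 4)
    (by rw [s27_card]; decide)
  refine ⟨Q, hQ, ?_, fun A hA => s27_eight A (s27_sq _ ?_)⟩
  · obtain ⟨x, hx⟩ := exists_prime_orderOf_dvd_card' (G := Q) 2 (by rw [hQ]; decide)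
    have h1 : (x : SL(2, ZMod 7)) ^ 2 = 1 := by
      have h := pow_orderOf_eq_one x
      rw [hx] at h
      exact congrArg Subtype.val h
    rcases s27_sq _ h1 with h | h
    · rw [show x = 1 from Subtype.ext h, orderOf_one] at hx
      exact absurd hx (by decide)
    · exact h ▸ x.2
  · have h := congrArg Subtype.val (pow_card_eq_one' (x := (⟨A, hA⟩ : Q)))
    rw [hQ] at h
    rw [← pow_mul]
    exact h

theorem s27_seven (A : SL(2, ZMod 7)) (h : A ^ 7 = 1) (h1 : A ≠ 1) : IsConj uu A ∨ IsConj uu⁻¹ A := by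
  obtain ⟨a, b, c, d, hd, e⟩ := en_ex A
  simp only [Ne, en_inj, en_pow, en_one, e] at h h1
  obtain ⟨a', b', c', d', h2, h3⟩ := k_seven a b c d hd h h1
  obtain ⟨B, hB⟩ := ex_en h2
  refine h3.imp (fun h4 => isConj_iff.mpr ⟨B, ?_⟩) fun h4 => isConj_iff.mpr ⟨B, ?_⟩ <;>
    simp only [en_inj, en_mul, en_inv, en_uu, hB, e, h4]

theorem s27_uu : uu ^ 7 = 1 ∧ uu ≠ 1 ∧ uu ≠ -1 ∧ IsConj uu (uu ^ 2) ∧ ww ^ 2 = -1 ∧
    (uu * ul) ^ 3 = -1 ∧ (-1 : SL(2, ZMod 7)) ≠ 1 := by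
  obtain ⟨B, hB⟩ := ex_en (a := 3) (b := 0) (c := 0) (d := 5) (by decide)
  have h : IsConj uu (uu ^ 2) := isConj_iff.mpr ⟨B, by
    simp only [en_inj, en_mul, en_inv, en_pow, en_uu, hB]; decide⟩
  simp only [h, true_and, Ne, en_inj, en_mul, en_pow, en_uu, en_ww, en_ul, en_one, en_neg]
  decide

theorem s27_pos (A : SL(2, ZMod 7)) (h : IsConj uu A) (h1 : A * uu ≠ uu * A)
    (h3 : (uu * A) ^ 3 = 1 ∨ (uu * A) ^ 3 = -1) : ∃ k : ℕ, A = uu ^ k * ul * (uu ^ k)⁻¹ := by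
  obtain ⟨g, hg⟩ := isConj_iff.mp h
  obtain ⟨a, b, c, d, hd, e⟩ := en_ex g
  simp only [Ne, en_inj, en_mul, en_inv, en_pow, en_uu, en_ul, en_one, en_neg, e] at hg h1 h3 ⊢
  obtain ⟨k, hk⟩ := k_pos a b c d hd _ hg.symm h1 h3
  exact ⟨k, hk⟩

theorem two_triv {K : Type*} [Field K] (h7 : (7 : K) ≠ 0) (ψ : SL(2, ZMod 7) →* GL (Fin 2) K)
    (A : SL(2, ZMod 7)) : ψ A = 1 := by
  obtain ⟨u7, u1, u2, uc, -⟩ := s27_uu
  obtain ⟨g, hg⟩ := isConj_iff.mp uc
  have hd : uu ∈ (GeneralLinearGroup.det.comp ψ).ker :=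
    Abelianization.commutator_subset_ker _ (s27_perfect.ge trivial)
  have h1 : ψ uu = 1 := Units.ext (eq_one h7 _ (congrArg Units.val hd) (by
    rw [← Units.val_pow_eq_pow_val, ← map_pow, ← hg, map_mul, map_mul, map_inv, Units.val_mul,
      Units.val_mul, trace_units_conj]) (by
    rw [← Units.val_pow_eq_pow_val, ← map_pow, u7, map_one, Units.val_one]))
  exact (s27_normal ψ.ker h1 u1 u2).ge trivial

end Cfsg.Agent.S7
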