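import Mathlib
import Cfsg.Agent.S7.D6
import Cfsg.Agent.S7.S27
import Cfsg.Agent.Cl.MxQS

set_option autoImplicit false

namespace Cfsg.Agent.S7

open Matrix Cfsg.Geo Cfsg.Agent.Cl.D5 Module
open scoped MatrixGroups ComplexConjugate commutatorElement

variable {F : Type*} [Field F] [Fintype F]

local notation "M7" => Matrix (Fin 7) (Fin 7) F
local notation "SL7" => specialLinear (Fin 7) F
local notation "Z7" => scalars (Fin 7) F
local notation "GL7" => GL (Fin 7) F

section Gen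

variable {K : Type*} [Field K] {n : ℕ}

theorem Irr_small (h7 : (7 : K) ≠ 0) {V : Type*} [AddCommGroup V] [Module K V] [Module.Finite K V]
    (h : finrank K V ≤ 2) (ρ : Representation K SL(2, ZMod 7) V) (A : SL(2, ZMod 7)) (v : V) : ρ A v = v := by
  let b := Module.finBasisOfFinrankEq K (V × (Fin (2 - finrank K V) → K)) (n := 2) (by
    rw [finrank_prod, Module.finrank_fin_fun]; omega)
  let ρ' := ρ.prod (Representation.trivial K SL(2, ZMod 7) (Fin (2 - finrank K V) → K))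
  have e := congrArg Units.val (two_triv h7
    (((LinearMap.toMatrixAlgEquiv b).toRingEquiv.toRingHom.toMonoidHom.comp ρ').toHomUnits) A)
  have e1 : ρ' A = 1 := (LinearMap.toMatrixAlgEquiv b).injective (e.trans (map_one _).symm)
  exact congrArg Prod.fst (LinearMap.congr_fun e1 (v, 0))

theorem Irr_sub (h7 : (7 : K) ≠ 0) {φ : SL(2, ZMod 7) →* GL (Fin n) K} {W : Submodule K (Fin n → K)}
    (hW : Cl.Max.Inv φ.range W) :
    (finrank K W ≤ 2 → ∀ A, ∀ w ∈ W, (φ A : Matrix (Fin n) (Fin n) K) *ᵥ w = w) ∧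
      (n ≤ finrank K W + 2 → ∀ A v, (φ A : Matrix (Fin n) (Fin n) K) *ᵥ v - v ∈ W) := by
  let ρ : Representation K SL(2, ZMod 7) (Fin n → K) :=
    (Matrix.toLinAlgEquiv' (R := K) (n := Fin n)).toRingEquiv.toRingHom.toMonoidHom.comp ((Units.coeHom _).comp φ)
  have hρ : ∀ g, W ≤ W.comap (ρ g) := fun g w hw => hW _ ⟨g, rfl⟩ w hw
  refine ⟨fun h A w hw => congrArg Subtype.val (Irr_small h7 h (ρ.subrepresentation W hρ) A ⟨w, hw⟩),
    fun h A v => (Submodule.Quotient.eq W).1 (Irr_small h7 ?_ (ρ.quotient W hρ) A (Submodule.Quotient.mk v))⟩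
  have := W.finrank_quotient_add_finrank
  rw [Module.finrank_fin_fun] at this
  omega

theorem Irr_dim {W : Submodule K (Fin n → K)} (h0 : W ≠ ⊥) (h1 : W ≠ ⊤) : 1 ≤ finrank K W ∧ finrank K W < n :=
  ⟨Nat.pos_of_ne_zero fun e => h0 (Submodule.finrank_eq_zero.1 e),
    (Submodule.finrank_lt h1).trans_eq (Module.finrank_fin_fun K)⟩

theorem Irr_ne {φ : SL(2, ZMod 7) →* GL (Fin n) K} (h : NR φ) : φ uu ≠ 1 := fun e => h (by rw [map_inv, e, inv_one])

theorem Irr_three (h7 : (7 : K) ≠ 0) {φ : SL(2, ZMod 7) →* GL (Fin 3) K} (h : NR φ) : Cl.Max.Irr φ.range := by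
  intro W hW
  by_contra! k
  obtain ⟨d1, d2⟩ := Irr_dim k.1 k.2
  obtain ⟨a, b⟩ := Irr_sub h7 hW
  refine Irr_ne h (Cl.Max.gl_ext fun v => ?_)
  have e : ∀ m : ℕ, ((φ (uu ^ m) : GL (Fin 3) K) : Matrix (Fin 3) (Fin 3) K) *ᵥ v =
      v + (m : K) • ((φ uu : Matrix (Fin 3) (Fin 3) K) *ᵥ v - v) := fun m => by
    induction m with
    | zero => simp
    | succ m ih =>
      rw [pow_succ', map_mul, Cl.Max.mul_mulVec, ih, mulVec_add, mulVec_smul, a (by omega) _ _ (b (by omega) _ _),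
        Nat.cast_succ]
      module
  have e7 := e 7
  rw [s27_uu.1, map_one, Units.val_one, one_mulVec, left_eq_add, smul_eq_zero, sub_eq_zero] at e7
  rw [Units.val_one, one_mulVec]
  exact e7.resolve_left (by exact_mod_cast h7)

theorem Irr_four (h2 : (2 : K) ≠ 0) (h7 : (7 : K) ≠ 0) {φ : SL(2, ZMod 7) →* GL (Fin 4) K} (h1 : φ (-1) = -1) :
    Cl.Max.Irr φ.range := by
  intro W hW
  by_contra! k
  obtain ⟨d1, d2⟩ := Irr_dim k.1 k.2
  obtain ⟨a, b⟩ := Irr_sub h7 hW
  have e : ∀ v : Fin 4 → K, ((φ (-1) : GL (Fin 4) K) : Matrix (Fin 4) (Fin 4) K) *ᵥ v - v = (-2 : K) • v := fun v => by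
    rw [h1, Units.val_neg, Units.val_one, neg_mulVec, one_mulVec]
    module
  by_cases c : finrank K W ≤ 2
  · refine k.1 (eq_bot_iff.2 fun w hw => ?_)
    have := e w
    rw [a c _ w hw, sub_self, eq_comm, smul_eq_zero] at this
    exact this.resolve_left (neg_ne_zero.2 h2)
  · exact k.2 (eq_top_iff.2 fun v _ => (W.smul_mem_iff (neg_ne_zero.2 h2)).1 (e v ▸ b (by omega) _ v))

theorem Irr_nr {L : Type*} [Field L] (f : K →+* L) {φ : SL(2, ZMod 7) →* GL (Fin n) K} (h : NR φ) :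
    NR ((GeneralLinearGroup.map f).comp φ) := fun e =>
  h (f.injective ((AddMonoidHom.map_trace f _).trans (e.trans (AddMonoidHom.map_trace f _).symm)))

theorem Irr_ker {φ : SL(2, ZMod 7) →* GL (Fin n) K} (h : NR φ) (h1 : φ (-1) ∈ scalars (Fin n) K) (A : SL(2, ZMod 7)) :
    φ A ∈ scalars (Fin n) K ↔ A = 1 ∨ A = -1 := by
  refine ⟨fun k => ?_, by rintro (rfl | rfl); exacts [map_one φ ▸ one_mem _, h1]⟩
  by_contra! c
  have e := s27_normal ((scalars (Fin n) K).comap φ) k c.1 c.2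
  refine Irr_ne h ((show commutator SL(2, ZMod 7) ≤ φ.ker from Subgroup.commutator_le.2 fun a _ b _ => ?_)
    (s27_perfect.ge trivial))
  rw [MonoidHom.mem_ker, map_commutatorElement, commutatorElement_eq_one_iff_mul_comm]
  exact Cl.Max.mul_comm_of_mem_scalars (e.ge trivial) _

end Gen

theorem Irr_spans {n : ℕ} {φ : SL(2, ZMod 7) →* GL (Fin (n + 1)) F} (h1 : Cl.Max.Irr φ.range)
    (h2 : Cl.Max.Irr ((GeneralLinearGroup.map (algebraMap F (AlgebraicClosure F))).comp φ).range) :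
    Cl.Max.Spans φ.range := by
  refine Cl.Mx.spans_of_absIrr h1 fun M hM => ⟨M 0 0, ?_⟩
  set f := algebraMap F (AlgebraicClosure F)
  obtain ⟨c, hc⟩ := Module.End.exists_eigenvalue (Matrix.toLin' (M.map f))
  obtain ⟨v, hv⟩ := hc.exists_hasEigenvector
  have e : M.map f = c • 1 := by
    by_contra hne
    obtain ⟨U, hU⟩ := h2.isUnit_of_commute (x := M.map f - c • 1) (by
      rintro _ ⟨A, rfl⟩
      rw [sub_mul, mul_sub, smul_mul_assoc, mul_smul_comm, one_mul, mul_one]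
      congr 1
      exact (Matrix.map_mul.symm.trans (congrArg (·.map f) (hM _ ⟨A, rfl⟩))).trans Matrix.map_mul) (sub_ne_zero.2 hne)
    refine Cl.Max.mulVec_ne_zero U hv.2 ?_
    rw [hU, sub_mulVec, smul_mulVec, one_mulVec, ← toLin'_apply, hv.apply_eq_smul, sub_self]
  ext i j
  have e1 := congrFun (congrFun e i) j
  have e2 := congrFun (congrFun e 0) 0
  simp only [map_apply, Matrix.smul_apply, one_apply, smul_eq_mul, if_true, mul_one] at e1 e2 ⊢
  refine f.injective ?_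
  rw [e1, map_mul, e2]
  split_ifs <;> simp

theorem rep3 (h7 : (7 : F) ≠ 0) {φ : SL(2, ZMod 7) →* GL (Fin 3) F} (h1 : φ (-1) = 1) (h : NR φ) :
    Rep φ := by
  exact ⟨h, Irr_spans (Irr_three h7 h) (Irr_three (by
    simpa only [map_ofNat] using (map_ne_zero (algebraMap F (AlgebraicClosure F))).2 h7) (Irr_nr _ h)), Irr_ker h (h1 ▸ one_mem _)⟩

theorem rep4 (h2 : (2 : F) ≠ 0) (h7 : (7 : F) ≠ 0) {φ : SL(2, ZMod 7) →* GL (Fin 4) F}
    (h1 : φ (-1) = -1) (h : NR φ) : Rep φ := by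
  refine ⟨h, Irr_spans (Irr_four h2 h7 h1) (Irr_four
    (by simpa only [map_ofNat] using (map_ne_zero (algebraMap F (AlgebraicClosure F))).2 h2)
    (by simpa only [map_ofNat] using (map_ne_zero (algebraMap F (AlgebraicClosure F))).2 h7) ?_),
    Irr_ker h (h1 ▸ Cl.Max.mem_scalars_of_eq_smul (c := -1) (by simp))⟩
  rw [MonoidHom.comp_apply, h1]
  refine Units.ext ?_
  change (algebraMap F (AlgebraicClosure F)).mapMatrix (-1 : Matrix (Fin 4) (Fin 4) F) = -1
  rw [map_neg, map_one]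

omit [Fintype F] in
theorem range_perfect {n : ℕ} (φ : SL(2, ZMod 7) →* GL (Fin n) F) :
    ⁅φ.range, φ.range⁆ = φ.range ∧ φ.range ≤ specialLinear (Fin n) F := by
  refine ⟨by rw [MonoidHom.range_eq_map, ← Subgroup.map_commutator, ← commutator_def, s27_perfect], ?_⟩
  rintro _ ⟨A, rfl⟩
  exact Abelianization.commutator_subset_ker (GeneralLinearGroup.det.comp φ) (s27_perfect.ge trivial)

omit [Fintype F] in
theorem Rep.relIndex {n : ℕ} {φ : SL(2, ZMod 7) →* GL (Fin n) F} (h : Rep φ) :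
    (scalars (Fin n) F).relIndex φ.range = 168 ∧
      (scalars (Fin n) F).relIndex (φ.range ⊔ scalars (Fin n) F) = 168 := by
  have e : (scalars (Fin n) F).comap φ = Subgroup.zpowers (-1) := by
    refine le_antisymm (fun A k => ?_) (Subgroup.zpowers_le.2 ((h.ker _).2 (.inr rfl)))
    rcases (h.ker A).1 k with rfl | rfl
    exacts [one_mem _, Subgroup.mem_zpowers _]
  have e1 := (Subgroup.zpowers (-1 : SL(2, ZMod 7))).card_mul_index
  rw [Nat.card_zpowers, orderOf_eq_prime (p := 2) (by simp) s27_uu.2.2.2.2.2.2, s27_card, ← e,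
    Subgroup.index_comap] at e1
  rw [Subgroup.relIndex_sup_right]
  omega

end Cfsg.Agent.S7
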