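import Mathlib
import Cfsg.Agent.S7.D6
import Cfsg.Agent.S7.S27
import Cfsg.Agent.S7.Irr
import Cfsg.Agent.Sym.Aut

set_option autoImplicit false

namespace Cfsg.Agent.S7

open Matrix Cfsg.Geo Cfsg.Agent.Cl.D5 Module
open scoped MatrixGroups ComplexConjugate commutatorElement

/-- An element that centralises a perfect group modulo a central subgroup centralises it. -/
theorem A4n_cent {G : Type*} [Group G] {Z L : Subgroup G} (hZ : ∀ z ∈ Z, ∀ g : G, z * g = g * z)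
    (h3 : ⁅L, L⁆ = L) {k : G} (hk : ∀ l ∈ L, k * l * k⁻¹ * l⁻¹ ∈ Z) : ∀ l ∈ L, k * l = l * k := by
  have : ⁅L, L⁆ ≤ Subgroup.centralizer {k} := by
    rw [Subgroup.commutator_le]
    intro l hl m hm
    rw [Subgroup.mem_centralizer_singleton_iff, commutatorElement_def]
    obtain ⟨z, hz⟩ : ∃ z, z = k * l * k⁻¹ * l⁻¹ := ⟨_, rfl⟩
    obtain ⟨w, hw⟩ : ∃ w, w = k * m * k⁻¹ * m⁻¹ := ⟨_, rfl⟩
    have z0 := hZ z (hz ▸ hk l hl)
    have w0 := hZ w (hw ▸ hk m hm)
    have e1 : k * l * k⁻¹ = z * l := by rw [hz]; group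
    have e2 : k * m * k⁻¹ = w * m := by rw [hw]; group
    have e3 : k * (l * m * l⁻¹ * m⁻¹) * k⁻¹ = l * m * l⁻¹ * m⁻¹ := by
      calc k * (l * m * l⁻¹ * m⁻¹) * k⁻¹
          = (k * l * k⁻¹) * (k * m * k⁻¹) * (k * l * k⁻¹)⁻¹ * (k * m * k⁻¹)⁻¹ := by group
        _ = z * (l * (w * m) * l⁻¹) * z⁻¹ * (w * m)⁻¹ := by rw [e1, e2]; group
        _ = l * (w * m) * l⁻¹ * (w * m)⁻¹ := by rw [z0]; group
        _ = (l * w) * (m * l⁻¹ * m⁻¹) * w⁻¹ := by group
        _ = w * (l * (m * l⁻¹ * m⁻¹)) * w⁻¹ := by rw [← w0 l]; group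
        _ = l * m * l⁻¹ * m⁻¹ := by rw [w0]; group
    calc l * m * l⁻¹ * m⁻¹ * k = k * (l * m * l⁻¹ * m⁻¹) * k⁻¹ * k := by rw [e3]
      _ = k * (l * m * l⁻¹ * m⁻¹) := by group
  intro l hl
  exact (Subgroup.mem_centralizer_singleton_iff.1 (this (h3.ge hl))).symm

/-- A group normalising a central extension of `A₇` induces inner automorphisms, or inverts any
given element modulo the centre. -/
theorem A4n_abs {G : Type*} [Group G] {Z H L : Subgroup G} (hZ : ∀ z ∈ Z, ∀ g : G, z * g = g * z)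
    (h2 : L ≤ H) (h3 : ⁅L, L⁆ = L) (h4 : ∀ h ∈ H, ∀ x ∈ L, h * x * h⁻¹ ∈ L)
    (π : L →* alternatingGroup (Fin 7)) (hs : Function.Surjective π)
    (hk : ∀ l : L, π l = 1 ↔ (l : G) ∈ Z) (hc : ∀ g : G, (∀ l ∈ L, g * l = l * g) → g ∈ Z) (d : L) :
    (∀ g ∈ H, ∃ l ∈ L, l⁻¹ * g ∈ Z) ∨ ∃ h ∈ H, h * d * h⁻¹ * d ∈ Z := by
  by_cases hall : ∀ g ∈ H, ∃ l ∈ L, l⁻¹ * g ∈ Z
  · exact Or.inl hall
  right
  push Not at hall
  obtain ⟨g, hg, hn⟩ := hall
  let cg : L →* L :=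
    { toFun := fun l => ⟨g * l * g⁻¹, h4 g hg l l.2⟩
      map_one' := Subtype.ext (by simp)
      map_mul' := fun a b => Subtype.ext (by simp only [Subgroup.coe_mul]; group) }
  have cgv : ∀ l : L, (cg l : G) = g * l * g⁻¹ := fun l => rfl
  have cgs : Function.Surjective cg := fun l =>
    ⟨⟨g⁻¹ * l * g⁻¹⁻¹, h4 g⁻¹ (H.inv_mem hg) l l.2⟩, Subtype.ext (by rw [cgv]; group)⟩
  have hker : π.ker ≤ (π.comp cg).ker := fun l hl => by
    rw [MonoidHom.mem_ker] at hl ⊢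
    rw [MonoidHom.comp_apply, hk, cgv, ← hZ _ ((hk l).1 hl) g, mul_inv_cancel_right]
    exact (hk l).1 hl
  let α0 := π.liftOfSurjective hs ⟨π.comp cg, hker⟩
  have hα0 : ∀ l, α0 (π l) = π (cg l) := fun l =>
    π.liftOfRightInverse_comp_apply _ _ ⟨π.comp cg, hker⟩ l
  have hsα : Function.Surjective α0 := fun a => by
    obtain ⟨l, rfl⟩ := hs a
    obtain ⟨m, rfl⟩ := cgs l
    exact ⟨π m, hα0 m⟩
  obtain ⟨σ, hσ⟩ := Sym.exists_conj_of_aut_alternating (α := Fin 7) (by simp) (by simp)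
    (MulEquiv.ofBijective α0 ⟨Finite.injective_iff_surjective.2 hsα, hsα⟩)
  have hσ' : ∀ l : L, (π (cg l) : Equiv.Perm (Fin 7)) = σ * π l * σ⁻¹ := fun l => by
    rw [← hα0]; exact hσ (π l)
  have hodd : σ ∉ alternatingGroup (Fin 7) := fun h => by
    obtain ⟨l0, hl0⟩ := hs ⟨σ, h⟩
    have e0 : (π l0 : Equiv.Perm (Fin 7)) = σ := congrArg Subtype.val hl0
    refine hn l0 l0.2 (hc _ (A4n_cent hZ h3 fun l hl => ?_))
    have : π (l0⁻¹ * cg ⟨l, hl⟩ * l0 * (⟨l, hl⟩ : L)⁻¹) = 1 := by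
      apply Subtype.ext
      simp only [map_mul, map_inv, Subgroup.coe_mul, Subgroup.coe_inv, hσ', e0, OneMemClass.coe_one]
      group
    have h' := (hk _).1 this
    simp only [Subgroup.coe_mul, Subgroup.coe_inv, cgv] at h'
    convert h' using 1
    group
  obtain ⟨τ, hτ⟩ := isConj_iff.1 (Equiv.Perm.isConj_iff_cycleType_eq.2
    (Equiv.Perm.cycleType_inv (π d : Equiv.Perm (Fin 7))).symm)
  by_cases h : τ ∈ alternatingGroup (Fin 7)
  · obtain ⟨l, hl⟩ := hs ⟨τ, h⟩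
    have e0 : (π l : Equiv.Perm (Fin 7)) = τ := congrArg Subtype.val hl
    have : π (l * d * l⁻¹ * d) = 1 := by
      apply Subtype.ext
      simp only [map_mul, map_inv, Subgroup.coe_mul, Subgroup.coe_inv, e0, OneMemClass.coe_one, hτ]
      group
    exact ⟨l, h2 l.2, (hk _).1 this⟩
  · have h' : σ⁻¹ * τ ∈ alternatingGroup (Fin 7) := by
      rw [Equiv.Perm.mem_alternatingGroup] at h hodd ⊢
      rw [map_mul, map_inv, (Int.units_eq_one_or _).resolve_left h,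
        (Int.units_eq_one_or _).resolve_left hodd]
      rfl
    obtain ⟨l, hl⟩ := hs ⟨_, h'⟩
    have e0 : (π l : Equiv.Perm (Fin 7)) = σ⁻¹ * τ := congrArg Subtype.val hl
    have : π (cg (l * d * l⁻¹) * d) = 1 := by
      apply Subtype.ext
      rw [map_mul, Subgroup.coe_mul, hσ']
      simp only [map_mul, map_inv, Subgroup.coe_mul, Subgroup.coe_inv, e0, OneMemClass.coe_one]
      calc σ * (σ⁻¹ * τ * (π d : Equiv.Perm (Fin 7)) * (σ⁻¹ * τ)⁻¹) * σ⁻¹ * (π d : Equiv.Perm (Fin 7))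
          = (τ * (π d : Equiv.Perm (Fin 7)) * τ⁻¹) * (π d : Equiv.Perm (Fin 7)) := by group
        _ = 1 := by rw [hτ, inv_mul_cancel]
    have h'' := (hk _).1 this
    simp only [Subgroup.coe_mul, Subgroup.coe_inv, cgv] at h''
    refine ⟨g * l, H.mul_mem hg (h2 l.2), ?_⟩
    convert h'' using 1
    group

variable {F : Type*} [Field F] [Fintype F]

local notation "M7" => Matrix (Fin 7) (Fin 7) F
local notation "SL7" => specialLinear (Fin 7) F
local notation "Z7" => scalars (Fin 7) F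
local notation "GL7" => GL (Fin 7) F

theorem a4_nrm {φ : SL(2, ZMod 7) →* GL (Fin 4) F} (h : Rep φ) {H L : Subgroup (GL (Fin 4) F)}
    (h1 : φ.range ≤ L) (h2 : L ≤ H) (h3 : ⁅L, L⁆ = L) (h4 : Cl.Max.NormsG H L) (h5 : IsA7 L) :
    (scalars (Fin 4) F).relIndex H ∣ 2520 := by
  obtain ⟨e⟩ := h5
  let π : L →* alternatingGroup (Fin 7) := e.toMonoidHom.comp (QuotientGroup.mk' _)
  have hs : Function.Surjective π := e.surjective.comp (QuotientGroup.mk'_surjective _)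
  have hk : ∀ l : L, π l = 1 ↔ (l : GL (Fin 4) F) ∈ scalars (Fin 4) F := fun l => by
    change e (QuotientGroup.mk l) = 1 ↔ _
    rw [e.map_eq_one_iff, QuotientGroup.eq_one_iff, Subgroup.mem_subgroupOf]
  rcases A4n_abs (fun z hz g => Cl.Max.mul_comm_of_mem_scalars hz g) h2 h3 h4 π hs hk
    (fun g hg => (h.spans.mono h1).mem_scalars hg) ⟨φ uu, h1 ⟨uu, rfl⟩⟩ with hall | ⟨g, -, hg⟩
  · have e1 : ∀ K : Subgroup (GL (Fin 4) F), (scalars (Fin 4) F).relIndex K =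
        Nat.card (K.map (QuotientGroup.mk' (scalars (Fin 4) F))) := fun K => by
      rw [← Subgroup.relIndex_ker, QuotientGroup.ker_mk']
    have e2 : (scalars (Fin 4) F).relIndex L = 2520 := by
      rw [Subgroup.relIndex, Subgroup.index, Nat.card_congr e.toEquiv, nat_card_alternatingGroup]
      simp [Nat.factorial]
    rw [← e2, e1, e1]
    refine Subgroup.card_dvd_of_le ?_
    rintro _ ⟨g, hg, rfl⟩
    obtain ⟨l, hl, hz⟩ := hall g hg
    exact ⟨l, hl, QuotientGroup.eq.2 hz⟩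
  · exfalso
    obtain ⟨c, hc⟩ := hg
    change Cl.Max.sc (Fin 4) c = g * φ uu * g⁻¹ * φ uu at hc
    have d7 : φ uu ^ 7 = 1 := by rw [← map_pow, s27_uu.1, map_one]
    have d1 : Matrix.GeneralLinearGroup.det (φ uu) = 1 := (range_perfect φ).2 ⟨uu, rfl⟩
    have e1 : g * φ uu * g⁻¹ = Cl.Max.sc (Fin 4) c * (φ uu)⁻¹ := by rw [hc]; group
    have c7 : Cl.Max.sc (Fin 4) c ^ 7 = 1 := by
      have hcm : Commute (Cl.Max.sc (Fin 4) c) (φ uu)⁻¹ :=
        Cl.Max.mul_comm_of_mem_scalars (Cl.Max.sc_mem c) _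
      have := congrArg (· ^ 7) e1
      simp only [conj_pow, hcm.mul_pow, inv_pow, d7, mul_one, mul_inv_cancel, inv_one] at this
      exact this.symm
    have c7' : (c : F) ^ 7 = 1 := by
      have := congrArg (fun x : GL (Fin 4) F => (x : Matrix (Fin 4) (Fin 4) F) 0 0) c7
      simpa [← map_pow, Cl.Max.coe_sc] using this
    have c4 : (c : F) ^ 4 = 1 := by
      have := congrArg (fun x : GL (Fin 4) F => ((Matrix.GeneralLinearGroup.det x : Fˣ) : F)) hc
      simp only [map_mul, map_inv, d1, mul_one, mul_inv_cancel, Units.val_one] at this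
      rw [Matrix.GeneralLinearGroup.val_det_apply, Cl.Max.coe_sc, det_smul, det_one, mul_one,
        Fintype.card_fin] at this
      exact this
    have c1 : (c : F) = 1 := by
      calc (c : F) = c * c ^ 7 := by rw [c7', mul_one]
        _ = (c ^ 4) ^ 2 := by ring
        _ = 1 := by rw [c4, one_pow]
    apply h.nr
    have := congrArg (fun x : GL (Fin 4) F => (x : Matrix (Fin 4) (Fin 4) F).trace) e1
    simp only [Units.val_mul, Cl.Max.coe_sc, c1, one_smul, one_mul] at this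
    rw [map_inv, ← this, Matrix.trace_mul_cycle, Units.inv_mul, one_mul]

end Cfsg.Agent.S7
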