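import Mathlib
import Cfsg.Agent.S7.D6
import Cfsg.Agent.S7.S27
import Cfsg.Agent.S7.Irr
import Cfsg.Agent.S5781
import Cfsg.Agent.GT.Conj

set_option autoImplicit false

namespace Cfsg.Agent.S7

open Matrix Cfsg.Geo Cfsg.Agent.Cl.D5 Module
open scoped MatrixGroups ComplexConjugate commutatorElement

variable {F : Type*} [Field F] [Fintype F]

local notation "M7" => Matrix (Fin 7) (Fin 7) F
local notation "SL7" => specialLinear (Fin 7) F
local notation "Z7" => scalars (Fin 7) F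
local notation "GL7" => GL (Fin 7) F

namespace A4r

open Cfsg.Agent.Cl Cfsg.Agent.Cl.Max

theorem top_of_pow (N : Subgroup SL(2, ZMod 7)) (h : ∀ A : SL(2, ZMod 7), A ^ 120 ∈ N) :
    N = ⊤ := by
  have h7 : ∀ A : SL(2, ZMod 7), A ^ 7 = 1 → A ∈ N := fun A hA => by
    have := h A
    rwa [show 120 = 7 * 17 + 1 from rfl, pow_succ, pow_mul, hA, one_pow, one_mul] at this
  rw [eq_top_iff, ← s27_gen.2, Subgroup.closure_le]
  rintro A (rfl | rfl)
  · exact h7 _ s27_uu.1
  · exact h7 _ (by rw [ul, conj_pow, s27_uu.1, mul_one, mul_inv_cancel])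

omit [Fintype F] in
theorem map_pow_perm {n t : ℕ} {D : Fin t → Submodule F (Fin n → F)} {g : GL (Fin n) F}
    {σ : Equiv.Perm (Fin t)}
    (h : ∀ i, (D i).map (Matrix.toLin' (g : Matrix (Fin n) (Fin n) F)) = D (σ i)) (k : ℕ) :
    ∀ i, (D i).map (Matrix.toLin' ((g ^ k : GL (Fin n) F) : Matrix (Fin n) (Fin n) F)) =
      D ((σ ^ k) i) := by
  induction k with
  | zero => simp
  | succ k ih =>
    intro i
    rw [pow_succ, Units.val_mul, Matrix.toLin'_mul, Submodule.map_comp, h, ih, pow_succ,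
      Equiv.Perm.mul_apply]

omit [Fintype F] in
theorem not_decomp {φ : SL(2, ZMod 7) →* GL (Fin 4) F} (h : Rep φ) {t m : ℕ} (ht : t ≤ 5)
    (hm : m ≠ 4) {D : Fin t → Submodule F (Fin 4 → F)} (hD : IsMDecomposition m D)
    (hle : φ.range ≤ decompositionStabilizer D) : False := by
  have i0 : Fin t := ⟨0, lt_of_lt_of_le two_pos hD.two_le⟩
  have hN : (subspaceStabilizer (D i0)).comap φ = ⊤ := top_of_pow _ fun A => by
    obtain ⟨σ, hσ⟩ := mem_decompositionStabilizer.1 (hle ⟨A, rfl⟩)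
    have hs : σ ^ 120 = 1 := by
      obtain ⟨c, hc⟩ := Nat.factorial_dvd_factorial ht
      have h1 : σ ^ t.factorial = 1 := by
        have := pow_card_eq_one (x := σ)
        rwa [Fintype.card_perm, Fintype.card_fin] at this
      rw [show 120 = Nat.factorial 5 from rfl, hc, pow_mul, h1, one_pow]
    rw [Subgroup.mem_comap, map_pow, mem_subspaceStabilizer_iff_map, map_pow_perm hσ, hs,
      Equiv.Perm.one_apply]
  have hr := hD.finrank_eq i0
  rcases h.spans.irr (D i0) (inv_iff_le.2 (by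
    rintro _ ⟨A, rfl⟩
    exact (hN ▸ Subgroup.mem_top A : A ∈ (subspaceStabilizer (D i0)).comap φ))) with e | e
  · rw [e, finrank_bot] at hr
    exact hD.pos.ne hr
  · rw [e, finrank_top, Module.finrank_fin_fun] at hr
    exact hm hr.symm

theorem not_field {φ : SL(2, ZMod 7) →* GL (Fin 4) F} (h : Rep φ)
    {K : Subalgebra F (Matrix (Fin 4) (Fin 4) F)} (hK : IsFieldSubalgebra 2 K)
    (hle : φ.range ≤ subalgebraNormalizer K) : False := by
  have h2 : ∀ A, ∀ k ∈ K, cj (φ A) (cj (φ A) k) = k := fun A k hk => by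
    have hm := fun x hx => (mem_subalgebraNormalizer.1 (hle ⟨A, rfl⟩) x).1 hx
    obtain ⟨j, -, hj⟩ := IsFieldSubalgebra.exists_pow hK (cj (φ A)) hm (map_one _)
      (fun x _ y _ => map_add _ x y) (fun x _ y _ => map_mul _ x y)
      (fun c x _ => map_smul _ c x)
    rw [hj _ (hm k hk), hj k hk, ← pow_mul, ← pow_add]
    exact (IsFieldSubalgebra.pow_iff_dvd hK _).2 ⟨j, by ring⟩ k hk
  have h3 : (2 : ℕ) ∣ 1 := (IsFieldSubalgebra.pow_iff_dvd hK 1).1 fun k hk => by
    let N : Subgroup SL(2, ZMod 7) :=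
      { carrier := {A | cj (φ A) k = k}
        one_mem' := by simp only [Set.mem_ofPred_eq, map_one, cj_one]
        mul_mem' := fun {a b} ha hb => by
          simp only [Set.mem_ofPred_eq] at ha hb ⊢
          rw [map_mul, cj_mul, hb, ha]
        inv_mem' := fun {a} ha => by
          simp only [Set.mem_ofPred_eq] at ha ⊢
          rw [map_inv]
          conv_lhs => rw [← ha]
          exact cj_inv_cj _ _ }
    have hN : N = ⊤ := top_of_pow N fun A => by
      change cj (φ (A ^ 120)) k = k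
      rw [show A ^ 120 = A ^ 60 * A ^ 60 by rw [← pow_add], map_mul, cj_mul, h2 _ k hk]
    obtain ⟨c, rfl⟩ := h.spans.scalar_of_commute (y := k) (by
      rintro _ ⟨A, rfl⟩
      have e : cj (φ A) k = k := (hN ▸ Subgroup.mem_top A : A ∈ N)
      conv_lhs => rw [← e]
      exact cj_mul_coe _ _)
    rw [pow_one, smul_pow, one_pow, FiniteField.pow_card]
  exact absurd h3 (by decide)

omit [Fintype F] in
theorem not_form {φ : SL(2, ZMod 7) →* GL (Fin 4) F} (h : Rep φ) {ε : F}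
    {f : (Fin 4 → F) → (Fin 4 → F) → F} (hf : HForm (RingHom.id F) ε f)
    (hle : φ.range ≤ similarityGroup f) : False := by
  have h1 := hf.adj_of_mem_isoG (hf.isoG_le_of_perfect (range_perfect φ).1 hle ⟨uu, rfl⟩)
  have h2 := hf.trace_adj (φ uu : Matrix (Fin 4) (Fin 4) F)
  rw [h1, RingHom.id_apply, ← map_inv] at h2
  exact h.nr h2.symm

theorem not_unitary (hq : ¬ IsSquare (Fintype.card F)) {σ : F ≃+* F}
    {f : (Fin 4 → F) → (Fin 4 → F) → F} (hf : IsUnitaryForm σ f) : False := by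
  obtain ⟨q, h⟩ := UInvol.exists_uField (σ := (σ : F →+* F)) ⟨hf.involutive, by
    by_contra e
    push Not at e
    exact hf.ne_refl (RingEquiv.ext e)⟩
  exact hq ⟨q, by rw [← Nat.card_eq_fintype_card, h.card, sq]⟩

/-- An element of order seven normalising `4 ∘ 2 ^ (1 + 4)` is a scalar. -/
theorem c6_scalar {R : Subgroup (GL (Fin 4) F)} (hR : IsLinearSymplecticTypeData 2 R)
    {d : GL (Fin 4) F} (hd : d ^ 7 = 1) (hn : d ∈ subgroupNormalizer R) :
    d ∈ scalars (Fin 4) F := by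
  have hs := Mx.spans_of_acts hR.absIrred
  have hE := Mx.extraData_of_sympl hR.symplecticType hs
  have hZ : Nat.card (scOf R) = 4 := by
    obtain ⟨p, e, -, -, h | h | h⟩ := hR.field
    · exact absurd h.1 (by decide)
    · rw [← hs.card_center, h.2.2.1]
    · exact absurd h.2.2.1 (by decide)
  have hc : Nat.card R = 64 := by rw [hE.card_eq, hZ]; rfl
  have hZ' : Nat.card ↥(scalars (Fin 4) F ⊓ R) = 4 := by
    refine Eq.trans ?_ hZ
    rw [← card_subgroupOf_scalars, ← Subgroup.inf_subgroupOf_right]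
    exact (Nat.card_congr (Subgroup.subgroupOfEquivOfLe inf_le_right).toEquiv).symm
  have : Fact (Nat.Prime 7) := ⟨by norm_num⟩
  have hQ : IsPGroup 7 (Subgroup.zpowers d) := fun x => ⟨1, Subtype.ext (by
    obtain ⟨x, k, rfl⟩ := x
    change (d ^ k) ^ (7 ^ 1) = 1
    rw [pow_one, ← zpow_natCast, ← _root_.zpow_mul, mul_comm, _root_.zpow_mul, zpow_natCast, hd,
      _root_.one_zpow])⟩
  set C := Subgroup.centralizer (Subgroup.zpowers d : Set (GL (Fin 4) F)) with hC
  have hmC : ∀ x, x ∈ C ↔ d * x = x * d := fun x => by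
    rw [hC, Subgroup.mem_centralizer_iff]
    refine ⟨fun e => e d (Subgroup.mem_zpowers d), ?_⟩
    rintro e _ ⟨k, rfl⟩
    exact (Commute.zpow_left e k).eq
  have hZC : scalars (Fin 4) F ≤ C := fun x hx => (hmC x).2 (mul_comm_of_mem_scalars hx d).symm
  have m1 := GT.card_modEq_card_inf_centralizer (L := R) hQ (Subgroup.zpowers_le.2 hn)
  rw [← hC, hc] at m1
  by_contra hds
  have hlt : R ⊓ C < R := lt_of_le_of_ne inf_le_left fun e =>
    hds (hs.mem_scalars fun g hg => (hmC g).1 (inf_eq_left.1 e hg))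
  have d1 : Nat.card ↥(R ⊓ C) ∣ 64 := (Subgroup.card_dvd_of_le inf_le_left).trans hc.dvd
  have d2 : 4 ∣ Nat.card ↥(R ⊓ C) :=
    hZ'.symm.dvd.trans (Subgroup.card_dvd_of_le (le_inf inf_le_right (inf_le_left.trans hZC)))
  have d3 : Nat.card ↥(R ⊓ C) ≠ 64 := fun e =>
    hlt.ne (Subgroup.eq_of_le_of_card_ge inf_le_left (by rw [e, hc]))
  have h8 : Nat.card ↥(R ⊓ C) = 8 := by
    generalize Nat.card ↥(R ⊓ C) = a at *
    have := Nat.le_of_dvd (by norm_num) d1
    obtain ⟨b, rfl⟩ := d2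
    have hb : b ≤ 16 := by omega
    unfold Nat.ModEq at m1
    interval_cases b <;> omega
  obtain ⟨v, ⟨hv, hvC⟩, hvs⟩ : ∃ v ∈ R ⊓ C, v ∉ scalars (Fin 4) F := by
    by_contra e
    push Not at e
    have := Subgroup.card_le_of_le (show R ⊓ C ≤ scalars (Fin 4) F ⊓ R from
      fun x hx => ⟨e x hx, hx.1⟩)
    omega
  obtain ⟨y, hy, c, c1, c2, hyv⟩ := hE.exists_comm_ne hv hvs
  set K := R ⊓ Subgroup.centralizer {v} with hK
  have hi : (Subgroup.centralizer {v}).relIndex R = 2 := by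
    refine Subgroup.relIndex_eq_two_iff.2 ⟨y, hy, fun b hb => ?_⟩
    obtain ⟨e, e2, hbv⟩ := hE.exists_comm hb hv
    have k1 : ∀ (x : GL (Fin 4) F) (a : Fˣ), x * v = sc (Fin 4) a * (v * x) →
        (x ∈ Subgroup.centralizer {v} ↔ a = 1) := fun x a hx => by
      rw [Subgroup.mem_centralizer_singleton_iff, hx, mul_eq_right]
      exact ⟨fun e => sc_injective (ι := Fin 4) (e.trans (map_one _).symm),
        fun e => by rw [e, map_one]⟩
    have k2 : b * y * v = sc (Fin 4) (c * e) * (v * (b * y)) := by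
      rw [mul_assoc, hyv, ← mul_assoc, ← mul_comm_of_mem_scalars (sc_mem c) b, mul_assoc,
        ← mul_assoc b, hbv, map_mul]
      simp only [mul_assoc]
    rw [k1 _ _ k2, k1 _ _ hbv]
    have s : ∀ a : Fˣ, a ^ 2 = 1 → a = 1 ∨ a = -1 := fun a ha => by
      have : (a : F) ^ 2 = 1 := by rw [← Units.val_pow_eq_pow_val, ha, Units.val_one]
      exact (sq_eq_one_iff.1 this).imp (fun e => Units.ext e) fun e => Units.ext e
    obtain rfl := (s c c2).resolve_left c1
    rcases s e e2 with rfl | rfl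
    · exact Or.inr ⟨rfl, by rwa [mul_one]⟩
    · exact Or.inl ⟨by simp, c1⟩
  have h32 : Nat.card K = 32 := by
    have e := ((Subgroup.centralizer {v}).subgroupOf R).card_mul_index
    rw [← Subgroup.relIndex, hi, hc, ← Subgroup.inf_subgroupOf_left,
      Nat.card_congr (Subgroup.subgroupOfEquivOfLe inf_le_left).toEquiv, ← hK] at e
    omega
  have hdK : Subgroup.zpowers d ≤ Subgroup.normalizer (K : Set (GL (Fin 4) F)) := by
    refine Subgroup.zpowers_le.2 (Subgroup.mem_normalizer_iff.2 fun x => ?_)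
    have e : d * v = v * d := (hmC v).1 hvC
    rw [hK, Subgroup.mem_inf, Subgroup.mem_inf, ← Subgroup.mem_normalizer_iff.1 hn x,
      Subgroup.mem_centralizer_singleton_iff, Subgroup.mem_centralizer_singleton_iff]
    refine and_congr_right fun _ => ?_
    have e' : d⁻¹ * v = v * d⁻¹ := (Commute.inv_left e).eq
    rw [mul_assoc _ d⁻¹, e', ← mul_assoc, ← mul_assoc, ← mul_assoc, ← e, mul_left_inj, mul_assoc,
      mul_assoc, mul_right_inj]
  have m2 := GT.card_modEq_card_inf_centralizer (L := K) hQ hdK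
  rw [← hC, h32] at m2
  have d4 : Nat.card ↥(K ⊓ C) ∣ 8 :=
    (Subgroup.card_dvd_of_le (inf_le_inf_right C inf_le_left)).trans h8.dvd
  have hZK : scalars (Fin 4) F ⊓ R ≤ K ⊓ C := fun x hx =>
    ⟨⟨hx.2, Subgroup.mem_centralizer_singleton_iff.2 (mul_comm_of_mem_scalars hx.1 v)⟩, hZC hx.1⟩
  have h4 : Nat.card ↥(K ⊓ C) = 4 := by
    generalize Nat.card ↥(K ⊓ C) = a at *
    have := Nat.le_of_dvd (by norm_num) d4
    unfold Nat.ModEq at m2
    omega
  have e := Subgroup.eq_of_le_of_card_ge hZK (by rw [h4, hZ'])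
  exact hvs (e.ge ⟨⟨hv, Subgroup.mem_centralizer_singleton_iff.2 rfl⟩, hvC⟩).1

end A4r

theorem a4_row (hp : 11 ≤ ringChar F) (hq : ¬ IsSquare (Fintype.card F))
    {φ : SL(2, ZMod 7) →* GL (Fin 4) F} (h1 : φ (-1) = -1) (h : Rep φ)
    {H : Subgroup (GL (Fin 4) F)} (hH : IsMaximalIn (specialLinear (Fin 4) F) H)
    (hle : φ.range ≤ H) :
    (∃ (F₀ : Subfield F) (r : ℕ) (P : GL (Fin 4) F), r.Prime ∧ Fintype.card F = Nat.card F₀ ^ r ∧
      H ≤ subfieldSubgroup F₀ P) ∨ InLinearResidualClass H := by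
  rcases S5781.result H hH with ⟨W, h0, h1, rfl⟩ | ⟨-, D, hD, rfl⟩ | ⟨-, D, hD, rfl⟩ |
    ⟨K, hK, rfl⟩ | ⟨F₀, r, P, hr, hc, rfl⟩ | ⟨p, R, -, -, -, hR, rfl⟩ | ⟨-, Q, hQ, rfl⟩ |
    ⟨f, hf, rfl⟩ | ⟨σ, f, hf, rfl⟩ | hS
  · exact (h.spans.irr W (Cl.Max.inv_iff_le.2 (hle.trans inf_le_left))).elim
      (absurd · h0) (absurd · h1)
  · exact (A4r.not_decomp h (by norm_num) (by norm_num) hD (hle.trans inf_le_left)).elim
  · exact (A4r.not_decomp h (by norm_num) (by norm_num) hD (hle.trans inf_le_left)).elim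
  · exact (A4r.not_field h hK (hle.trans inf_le_left)).elim
  · exact Or.inl ⟨F₀, r, P, hr, hc, inf_le_left⟩
  · have := A4r.c6_scalar hR (d := φ uu) (by rw [← map_pow, s27_uu.1, map_one])
      (hle ⟨uu, rfl⟩).1
    exact (((h.ker uu).1 this).elim s27_uu.2.1 s27_uu.2.2.1).elim
  · exact (A4r.not_form h (Cl.Max.hform_of_quad hQ)
      ((hle.trans inf_le_left).trans Cl.Max.quadSim_le_sim)).elim
  · exact (A4r.not_form h (Cl.Max.hform_of_symplectic hf) (hle.trans inf_le_left)).elim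
  · exact (A4r.not_unitary hq hf).elim
  · exact Or.inr hS

end Cfsg.Agent.S7
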