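import Mathlib
import Cfsg.Agent.S7.D6
import Cfsg.Agent.Cl.LinearMaxPar
import Cfsg.Agent.Cl.LinearParabCore
import Cfsg.Agent.S2392

set_option autoImplicit false

namespace Cfsg.Agent.S7

open Matrix Cfsg.Geo Cfsg.Agent.Cl.D5 Module
open scoped MatrixGroups ComplexConjugate commutatorElement

variable {F : Type*} [Field F] [Fintype F]

local notation "M7" => Matrix (Fin 7) (Fin 7) F
local notation "SL7" => specialLinear (Fin 7) F
local notation "Z7" => scalars (Fin 7) F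
local notation "GL7" => GL (Fin 7) F

theorem Big.lift {A B : Type*} [Group A] [Group B] [Finite A] {p : ℕ} [Fact p.Prime] (f : A →* B)
    (H : Subgroup A) (hU : IsPGroup p (H.map f)) : ∃ S ≤ H, IsPGroup p S ∧ ∀ x ∈ H, ∃ s ∈ S, f s = f x := by
  obtain ⟨P⟩ : Nonempty (Sylow p H) := inferInstance
  have h1 := (P.mapSurjective (f.subgroupMap_surjective H)).is_maximal' (hU.to_subgroup ⊤) le_top
  refine ⟨(P : Subgroup H).map H.subtype, Subgroup.map_subtype_le _, P.isPGroup'.map _, fun x hx => ?_⟩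
  obtain ⟨s, hs, e⟩ := h1.le (Subgroup.mem_top (f.subgroupMap H ⟨x, hx⟩))
  exact ⟨s, ⟨s, hs, rfl⟩, congrArg Subtype.val e⟩

omit [Fintype F] in
theorem Big.ent {x : GL (Fin 3) F} (h : x ∈ Cl.unipRad F (id : Fin 3 → Fin 3)) :
    ∃ a b c : F, (x : Matrix (Fin 3) (Fin 3) F) = !![1, a, b; 0, 1, c; 0, 0, 1] := by
  have k := Cl.mem_unipRad.1 h
  refine ⟨x 0 1, x 0 2, x 1 2, ?_⟩
  ext i j
  fin_cases i <;> fin_cases j <;> first | rfl | exact k _ _ (by decide)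

omit [Fintype F] in
theorem Big.cls {x y z : GL (Fin 3) F} (hx : x ∈ Cl.unipRad F (id : Fin 3 → Fin 3))
    (hy : y ∈ Cl.unipRad F (id : Fin 3 → Fin 3)) (hz : z ∈ Cl.unipRad F (id : Fin 3 → Fin 3)) : ⁅⁅x, y⁆, z⁆ = 1 := by
  have e : ⁅x, y⁆ * (y * x) = x * y := by rw [commutatorElement_def]; group
  obtain ⟨a, b, c, hw⟩ := Big.ent (x := ⁅x, y⁆) (mul_mem (mul_mem (mul_mem hx hy) (inv_mem hx)) (inv_mem hy))
  obtain ⟨a1, b1, c1, h1⟩ := Big.ent hx
  obtain ⟨a2, b2, c2, h2⟩ := Big.ent hy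
  obtain ⟨a3, b3, c3, h3⟩ := Big.ent hz
  have e' := congrArg Units.val e
  rw [Units.val_mul, Units.val_mul, Units.val_mul, hw, h1, h2] at e'
  have k1 := congrFun (congrFun e' 0) 1
  have k2 := congrFun (congrFun e' 1) 2
  simp at k1 k2
  obtain rfl : a = 0 := by linear_combination k1
  obtain rfl : c = 0 := by linear_combination k2
  refine commutatorElement_eq_one_iff_mul_comm.2 (Units.ext ?_)
  rw [Units.val_mul, Units.val_mul, hw, h3]
  simp [add_comm]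

section

variable {ι : Type} [Fintype ι] [DecidableEq ι] {F₀ : Subfield F} {P : GL ι F} {i j : ι}

omit [Fintype F] in
theorem Big.mem (g : SpecialLinearGroup ι F₀) {g' : GL ι F} (h : (g' : Matrix ι ι F) = g.1.map F₀.subtype) :
    P * g' * P⁻¹ ∈ SLs F₀ P :=
  ⟨g', ⟨SpecialLinearGroup.toGL g, Units.ext g.2, Units.ext h.symm⟩, rfl⟩

omit [Fintype F] in
theorem Big.tmem (h : i ≠ j) : P * Cl.tGL h 1 * P⁻¹ ∈ SLs F₀ P :=
  Big.mem (SpecialLinearGroup.transvection h 1) (by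
    rw [Cl.coe_tGL]
    ext a b
    show _ = F₀.subtype (((1 : Matrix ι ι F₀) + single i j (1 : F₀) : Matrix ι ι F₀) a b)
    simp only [Matrix.add_apply, Matrix.one_apply, Matrix.single_apply, map_add]
    split_ifs <;> simp)

omit [Fintype F] in
theorem Big.act (P : GL ι F) (h : i ≠ j) (c : F) (u : ι → F) :
    ((P * Cl.tGL h c * P⁻¹ : GL ι F) : Matrix ι ι F) *ᵥ u =
      u + ((Pi.single j c ᵥ* ((P⁻¹ : GL ι F) : Matrix ι ι F)) ⬝ᵥ u) • ((P : Matrix ι ι F) *ᵥ Pi.single i 1) := by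
  rw [Units.val_mul, Units.val_mul, ← mulVec_mulVec, ← mulVec_mulVec, Cl.coe_tGL, add_mulVec, one_mulVec, mulVec_add,
    mulVec_mulVec, Units.mul_inv, one_mulVec, ← dotProduct_mulVec, single_dotProduct, ← mulVec_smul, single_mulVec]
  congr 2
  ext k
  by_cases e : k = i <;> simp [e]

omit [Fintype F] in
theorem Big.dot (P : GL ι F) (h : i ≠ j) (c : F) :
    (Pi.single j c ᵥ* ((P⁻¹ : GL ι F) : Matrix ι ι F)) ⬝ᵥ ((P : Matrix ι ι F) *ᵥ Pi.single i 1) = 0 := by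
  rw [← dotProduct_mulVec, mulVec_mulVec, Units.inv_mul, one_mulVec, single_dotProduct, Pi.single_eq_of_ne h.symm,
    mul_zero]

omit [Fintype F] in
theorem Big.tpow (h : i ≠ j) (n : ℕ) : Cl.tGL h (1 : F) ^ n = Cl.tGL h (n : F) := by
  induction n with
  | zero => exact Units.ext (by simp [Cl.coe_tGL])
  | succ n ih => rw [pow_succ, ih, Cl.tGL_mul_tGL, Nat.cast_succ]

end

theorem Big.key {C : Subgroup (GL (Fin 3) F × GL (Fin 4) F)} {F₀ : Subfield F} {P : GL (Fin 4) F}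
    (h : SLs F₀ P ≤ C.map (MonoidHom.snd _ _)) :
    (1, P * Cl.tGL (show (0 : Fin 4) ≠ 3 by decide) 1 * P⁻¹) ∈ C := by
  obtain ⟨p, hp⟩ := CharP.exists F
  have : Fact p.Prime := ⟨CharP.char_is_prime F p⟩
  let U := (Cl.unipRad F (id : Fin 4 → Fin 4)).map (MulAut.conj P).toMonoidHom
  obtain ⟨S, h1, h2, h3⟩ := Big.lift (p := p) (MonoidHom.snd _ _) (C ⊓ U.comap (MonoidHom.snd _ _))
    (((Cl.isPGroup_unipRad p _).map _).to_le (Subgroup.map_le_iff_le_comap.2 inf_le_right))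
  have k : ∀ {i j : Fin 4} (e : i ≠ j), i < j → ∃ s ∈ S, s.2 = P * Cl.tGL e 1 * P⁻¹ := fun e l => by
    obtain ⟨x, hx, e1⟩ := h (Big.tmem e)
    obtain ⟨s, hs, e2⟩ := h3 x ⟨hx, _, Cl.tGL_mem_unipRad e l 1, e1.symm⟩
    exact ⟨s, hs, e2.trans e1⟩
  obtain ⟨a, ha, ea⟩ := k (show (0 : Fin 4) ≠ 1 by decide) (by decide)
  obtain ⟨b, hb, eb⟩ := k (show (1 : Fin 4) ≠ 2 by decide) (by decide)
  obtain ⟨c, hc, ec⟩ := k (show (2 : Fin 4) ≠ 3 by decide) (by decide)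
  obtain ⟨g, hg⟩ := Cl.exists_conj_le_unipRad p (b := (id : Fin 3 → Fin 3)) Function.injective_id
    (h2.map (MonoidHom.fst _ _))
  have e1 : ⁅⁅a.1, b.1⁆, c.1⁆ = 1 := (MulAut.conj g).injective (by
    rw [map_commutatorElement, map_commutatorElement, map_one]
    exact Big.cls (hg _ ⟨a, ha, rfl⟩) (hg _ ⟨b, hb, rfl⟩) (hg _ ⟨c, hc, rfl⟩))
  have e2 : ⁅⁅a.2, b.2⁆, c.2⁆ = P * Cl.tGL (show (0 : Fin 4) ≠ 3 by decide) 1 * P⁻¹ := by
    rw [ea, eb, ec, ← MulAut.conj_apply, ← MulAut.conj_apply, ← MulAut.conj_apply, ← map_commutatorElement,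
      ← map_commutatorElement, Cl.tGL_commutator _ _ (show (0 : Fin 4) ≠ 2 by decide),
      Cl.tGL_commutator _ _ (show (0 : Fin 4) ≠ 3 by decide), mul_one, mul_one, MulAut.conj_apply]
  have m : ∀ {x y}, x ∈ S → y ∈ S → ⁅x, y⁆ ∈ S := fun hx hy =>
    mul_mem (mul_mem (mul_mem hx hy) (inv_mem hx)) (inv_mem hy)
  rw [← e1, ← e2]
  exact (h1 (m (m ha hb) hc)).1

theorem big4 {C : Subgroup (GL (Fin 3) F × GL (Fin 4) F)} {F₀ : Subfield F} {P d : GL (Fin 4) F}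
    (h : SLs F₀ P ≤ C.map (MonoidHom.snd _ _)) (hd : d ∈ SLs F₀ P) {ω : F}
    (hω : IsPrimitiveRoot ω 7)
    (he : (d : Matrix (Fin 4) (Fin 4) F) = diagonal ![1, ω, ω ^ 4, ω ^ 2]) :
    ∃ (b : GL (Fin 4) F) (η : Fin 4 → F), (1, b) ∈ C ∧ η ≠ 0 ∧ η 0 = 0 ∧
      ∀ v, (b : Matrix (Fin 4) (Fin 4) F) *ᵥ v = v + (η ⬝ᵥ v) • Pi.single 0 1 := by
  obtain ⟨_, ⟨d0, -, rfl⟩, hd⟩ := hd
  have e0 : (P : Matrix (Fin 4) (Fin 4) F) * ((d0 : Matrix (Fin 4) (Fin 4) F₀) - 1).map F₀.subtype =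
      ((d : Matrix (Fin 4) (Fin 4) F) - 1) * P := by
    have e : d * P = P * GeneralLinearGroup.map (F₀.subtype : F₀ →+* F) d0 := by
      rw [← hd]; simp
    rw [sub_mul, ← Units.val_mul, e, one_mul, Matrix.map_sub _ (map_sub _), Matrix.map_one _ (map_zero _) (map_one _),
      mul_sub, mul_one]
    rfl
  have e1 : ((d0 : Matrix (Fin 4) (Fin 4) F₀) - 1).det = 0 := by
    have e := congrArg det e0
    rw [det_mul, det_mul, he, ← diagonal_one (α := F), diagonal_sub, det_diagonal, Fin.prod_univ_four] at e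
    simp only [cons_val_zero, sub_self, zero_mul] at e
    refine F₀.subtype.injective ?_
    rw [RingHom.map_det, map_zero]
    exact (mul_eq_zero.1 e).resolve_left P.det_ne_zero
  obtain ⟨v0, v1, hv⟩ := exists_mulVec_eq_zero_iff.2 e1
  obtain ⟨g0, hg0⟩ := S2392.exists_sl_vecMul (F := F₀) (ι := Fin 4) (by simp) (b := Pi.single 0 1) (by simp) v1
  let g : GL (Fin 4) F := GeneralLinearGroup.map (F₀.subtype : F₀ →+* F) (SpecialLinearGroup.toGL g0.transpose)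
  have hg : (g : Matrix (Fin 4) (Fin 4) F) *ᵥ Pi.single 0 1 = F₀.subtype ∘ v0 := by
    rw [← hg0]
    ext i
    simp [g]
  set v := ((P * g : GL (Fin 4) F) : Matrix (Fin 4) (Fin 4) F) *ᵥ Pi.single 0 1 with ev
  have e2 : ((d : Matrix (Fin 4) (Fin 4) F) - 1) *ᵥ v = 0 := by
    rw [ev, Units.val_mul, ← mulVec_mulVec, hg, mulVec_mulVec, ← e0, ← mulVec_mulVec]
    have : ((d0 : Matrix (Fin 4) (Fin 4) F₀) - 1).map F₀.subtype *ᵥ (F₀.subtype ∘ v0) = 0 := by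
      ext i
      rw [← RingHom.map_mulVec, hv]
      simp
    rw [this, mulVec_zero]
  rw [he, ← diagonal_one, diagonal_sub] at e2
  have n : ∀ k, 0 < k → k < 7 → ω ^ k - 1 ≠ 0 := fun k h1 h2 => sub_ne_zero.2 (hω.pow_ne_one_of_pos_of_lt h1.ne' h2)
  have e3 : v = v 0 • Pi.single 0 1 := by
    have k1 := congrFun e2 1
    have k2 := congrFun e2 2
    have k3 := congrFun e2 3
    rw [mulVec_diagonal] at k1 k2 k3
    ext i
    fin_cases i
    · simp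
    · simpa using (mul_eq_zero.1 k1).resolve_left (by simpa using n 1 (by norm_num) (by norm_num))
    · simpa using (mul_eq_zero.1 k2).resolve_left (n 4 (by norm_num) (by norm_num))
    · simpa using (mul_eq_zero.1 k3).resolve_left (n 2 (by norm_num) (by norm_num))
  have n0 : v 0 ≠ 0 := fun k => mulVec_gl_ne_zero (v := Pi.single 0 1) (by simp) (P * g) (by
    rw [← ev, e3, k, zero_smul])
  obtain ⟨x, hx, ex⟩ := h (Big.mem (P := P) g0.transpose (g' := g) rfl)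
  have m := C.mul_mem (C.mul_mem hx (Big.key h)) (C.inv_mem hx)
  have ex' : x.2 = P * g * P⁻¹ := ex
  refine ⟨P * g * Cl.tGL (show (0 : Fin 4) ≠ 3 by decide) 1 * (P * g)⁻¹,
    v 0 • (Pi.single 3 1 ᵥ* (((P * g)⁻¹ : GL (Fin 4) F) : Matrix (Fin 4) (Fin 4) F)), ?_,
    smul_ne_zero n0 (vecMul_gl_ne_zero (by simp) _), ?_, fun u => ?_⟩
  · convert m using 1
    refine Prod.ext (by simp) ?_
    simp only [Prod.snd_mul, Prod.snd_inv, ex']
    group
  · have k := Big.dot (P * g) (show (0 : Fin 4) ≠ 3 by decide) 1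
    rwa [← ev, e3, dotProduct_smul, dotProduct_single, mul_one] at k
  · rw [Big.act, ← ev, smul_dotProduct, smul_eq_mul, mul_comm, ← smul_smul, ← e3]

theorem Big.pow_rel {A : Type*} [Group A] (Z D : Subgroup A) [Z.Normal] {x : A} (hx : x ∈ D) {n : ℕ}
    (h : Z.relIndex D ∣ n) : x ^ n ∈ Z := by
  obtain ⟨k, rfl⟩ := h
  rw [pow_mul]
  exact pow_mem (Subgroup.pow_index_mem (Z.subgroupOf D) ⟨x, hx⟩) k

theorem Big.sc_pow {ι : Type} [Fintype ι] [DecidableEq ι] {y : GL ι F} {n : ℕ} (h : y ^ n ∈ scalars ι F) :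
    y ^ (n * (Fintype.card F - 1)) = 1 := by
  obtain ⟨c, hc⟩ := h
  rw [pow_mul, ← hc, ← map_pow, show c ^ (Fintype.card F - 1) = 1 from
    Units.ext (by rw [Units.val_pow_eq_pow_val, FiniteField.pow_card_sub_one_eq_one _ c.ne_zero]; rfl), map_one]

theorem Big.ne (hp : 11 ≤ ringChar F) : ((2520 * (Fintype.card F - 1) : ℕ) : F) ≠ 0 := by
  rw [Nat.cast_mul, Nat.cast_pred Fintype.card_pos, FiniteField.cast_card_eq_zero]
  refine mul_ne_zero (fun k => ?_) (by simp)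
  have h5 := (Nat.prime_iff.1 (CharP.char_is_prime F (ringChar F))).dvd_of_dvd_pow (n := 3)
    (((ringChar.spec F _).1 k).trans (show 2520 ∣ 210 ^ 3 by norm_num))
  have h6 := CharP.char_is_prime F (ringChar F)
  generalize ringChar F = r at hp h5 h6
  rw [show 210 = 2 * 3 * 5 * 7 by norm_num, h6.dvd_mul, h6.dvd_mul, h6.dvd_mul] at h5
  rcases h5 with ((h5 | h5) | h5) | h5 <;> have := Nat.le_of_dvd (by norm_num) h5 <;> omega

theorem big3 (hp : 11 ≤ ringChar F) {C : Subgroup (GL (Fin 3) F × GL (Fin 4) F)} {F₀ : Subfield F}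
    {P : GL (Fin 3) F} (h : SLs F₀ P ≤ C.map (MonoidHom.fst _ _))
    (h4 : (scalars (Fin 4) F).relIndex (C.map (MonoidHom.snd _ _)) ∣ 2520) :
    ∃ (a : GL (Fin 3) F) (v η : Fin 3 → F), (a, 1) ∈ C ∧ v ≠ 0 ∧ η ≠ 0 ∧ η ⬝ᵥ v = 0 ∧
      ∀ u, (a : Matrix (Fin 3) (Fin 3) F) *ᵥ u = u + (η ⬝ᵥ u) • v := by
  have e : (0 : Fin 3) ≠ 2 := by decide
  obtain ⟨x, hx, ex⟩ := h (Big.tmem e)
  have ex' : x.1 = P * Cl.tGL e 1 * P⁻¹ := ex
  have h0 : x.2 ∈ C.map (MonoidHom.snd _ _) := ⟨x, hx, rfl⟩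
  have h2 := Big.sc_pow (Big.pow_rel _ _ h0 h4)
  have h3 := Big.ne hp
  generalize 2520 * (Fintype.card F - 1) = N at h2 h3
  refine ⟨P * Cl.tGL e (N : F) * P⁻¹, _, _, ?_,
    mulVec_gl_ne_zero (by simp) P, vecMul_gl_ne_zero (by simpa using h3) _, Big.dot P e _, Big.act P e _⟩
  convert C.pow_mem hx N using 1
  exact Prod.ext (by rw [Prod.pow_fst, ex', conj_pow, Big.tpow]) h2.symm

end Cfsg.Agent.S7
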