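/-
The centraliser of the involution `zM` in `GL₇` is `GL₃ × GL₄` (odd characteristic).
-/
import Mathlib
import Cfsg.Agent.S7.D6

set_option autoImplicit false

namespace Cfsg.Agent.S7

open Matrix Cfsg.Geo Cfsg.Agent.Cl.D5 Module
open scoped MatrixGroups ComplexConjugate commutatorElement

variable {F : Type*} [Field F] [Fintype F]

local notation "M7" => Matrix (Fin 7) (Fin 7) F
local notation "SL7" => specialLinear (Fin 7) F
local notation "Z7" => scalars (Fin 7) F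
local notation "GL7" => GL (Fin 7) F

omit [Fintype F] in
theorem blk_pe33 (h2 : (2 : F) ≠ 0) : P3 F * E3 F = 1 := by
  ext i j
  fin_cases i <;> fin_cases j <;>
    simp [P3, E3, Matrix.mul_apply, Fin.sum_univ_seven] <;> field_simp <;> norm_num

omit [Fintype F] in
theorem blk_pe44 (h2 : (2 : F) ≠ 0) : P4 F * E4 F = 1 := by
  ext i j
  fin_cases i <;> fin_cases j <;>
    simp [P4, E4, Matrix.mul_apply, Fin.sum_univ_seven, Matrix.diagonal_apply] <;>
    field_simp <;> norm_num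

omit [Fintype F] in
theorem blk_pe34 : P3 F * E4 F = 0 := by
  ext i j
  fin_cases i <;> fin_cases j <;>
    simp [P3, E3, E4, Matrix.mul_apply, Fin.sum_univ_seven]

omit [Fintype F] in
theorem blk_pe43 : P4 F * E3 F = 0 := by
  ext i j
  fin_cases i <;> fin_cases j <;>
    simp [P4, E3, E4, Matrix.mul_apply, Fin.sum_univ_seven, Matrix.diagonal_apply]

omit [Fintype F] in
theorem blk_ep3 : E3 F * P3 F = (2 : F)⁻¹ •
    !![0, 0, 0, 0, 0, 0, 0; 0, 1, 0, 0, 0, 0, -1; 0, 0, 1, 0, 0, -1, 0; 0, 0, 0, 1, -1, 0, 0;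
      0, 0, 0, -1, 1, 0, 0; 0, 0, -1, 0, 0, 1, 0; 0, -1, 0, 0, 0, 0, 1] := by
  ext i j
  fin_cases i <;> fin_cases j <;>
    simp [P3, E3, Matrix.mul_apply, Fin.sum_univ_three]

omit [Fintype F] in
theorem blk_ep4 : E4 F * P4 F =
    !![1, 0, 0, 0, 0, 0, 0; 0, 2⁻¹, 0, 0, 0, 0, 2⁻¹; 0, 0, 2⁻¹, 0, 0, 2⁻¹, 0;
      0, 0, 0, 2⁻¹, 2⁻¹, 0, 0;
      0, 0, 0, 2⁻¹, 2⁻¹, 0, 0; 0, 0, 2⁻¹, 0, 0, 2⁻¹, 0; 0, 2⁻¹, 0, 0, 0, 0, 2⁻¹] := by
  ext i j
  fin_cases i <;> fin_cases j <;>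
    simp [P4, E4, Matrix.mul_apply, Fin.sum_univ_four, Matrix.diagonal_apply]

omit [Fintype F] in
theorem blk_zM : zM F =
    !![-1, 0, 0, 0, 0, 0, 0; 0, 0, 0, 0, 0, 0, -1; 0, 0, 0, 0, 0, -1, 0; 0, 0, 0, 0, -1, 0, 0;
      0, 0, 0, -1, 0, 0, 0; 0, 0, -1, 0, 0, 0, 0; 0, -1, 0, 0, 0, 0, 0] := by
  ext i j
  fin_cases i <;> fin_cases j <;> rfl

omit [Fintype F] in
theorem blk_sum (h2 : (2 : F) ≠ 0) : E3 F * P3 F + E4 F * P4 F = 1 := by
  have hh : (2 : F)⁻¹ + 2⁻¹ = 1 := by field_simp; norm_num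
  rw [blk_ep3, blk_ep4]
  ext i j
  fin_cases i <;> fin_cases j <;> simp [hh]

omit [Fintype F] in
theorem blk_diff (h2 : (2 : F) ≠ 0) : E3 F * P3 F - E4 F * P4 F = zM F := by
  have hh : -(2 : F)⁻¹ - 2⁻¹ = -1 := by field_simp; norm_num
  rw [blk_ep3, blk_ep4, blk_zM]
  ext i j
  fin_cases i <;> fin_cases j <;> simp [hh]

/-- The block matrix. -/
def blkM (a : Matrix (Fin 3) (Fin 3) F) (b : Matrix (Fin 4) (Fin 4) F) : M7 :=
  E3 F * a * P3 F + E4 F * b * P4 F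

omit [Fintype F] in
theorem blk_one (h2 : (2 : F) ≠ 0) : blkM (F := F) 1 1 = 1 := by
  simp only [blkM, Matrix.mul_one, blk_sum h2]

omit [Fintype F] in
theorem blk_l3 (h2 : (2 : F) ≠ 0) (a : Matrix (Fin 3) (Fin 3) F) (b : Matrix (Fin 4) (Fin 4) F) :
    P3 F * blkM a b = a * P3 F := by
  simp only [blkM, Matrix.mul_add, ← Matrix.mul_assoc, blk_pe33 h2, blk_pe34, Matrix.one_mul,
    Matrix.zero_mul, add_zero]

omit [Fintype F] in
theorem blk_l4 (h2 : (2 : F) ≠ 0) (a : Matrix (Fin 3) (Fin 3) F) (b : Matrix (Fin 4) (Fin 4) F) :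
    P4 F * blkM a b = b * P4 F := by
  simp only [blkM, Matrix.mul_add, ← Matrix.mul_assoc, blk_pe44 h2, blk_pe43, Matrix.one_mul,
    Matrix.zero_mul, zero_add]

omit [Fintype F] in
theorem blk_mul (h2 : (2 : F) ≠ 0) (a a' : Matrix (Fin 3) (Fin 3) F)
    (b b' : Matrix (Fin 4) (Fin 4) F) : blkM (a * a') (b * b') = blkM a b * blkM a' b' := by
  conv_rhs => rw [blkM, Matrix.add_mul, Matrix.mul_assoc _ (P3 F), Matrix.mul_assoc _ (P4 F),
    blk_l3 h2, blk_l4 h2]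
  simp only [blkM, Matrix.mul_assoc]

omit [Fintype F] in
theorem blk_fst (h2 : (2 : F) ≠ 0) (a : Matrix (Fin 3) (Fin 3) F) (b : Matrix (Fin 4) (Fin 4) F) :
    P3 F * blkM a b * E3 F = a := by
  rw [blk_l3 h2, Matrix.mul_assoc, blk_pe33 h2, Matrix.mul_one]

omit [Fintype F] in
theorem blk_snd (h2 : (2 : F) ≠ 0) (a : Matrix (Fin 3) (Fin 3) F) (b : Matrix (Fin 4) (Fin 4) F) :
    P4 F * blkM a b * E4 F = b := by
  rw [blk_l4 h2, Matrix.mul_assoc, blk_pe44 h2, Matrix.mul_one]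

omit [Fintype F] in
theorem blk_of_comm (h2 : (2 : F) ≠ 0) (g : M7) (hg : g * zM F = zM F * g) :
    blkM (P3 F * g * E3 F) (P4 F * g * E4 F) = g := by
  have p3z : P3 F * zM F = P3 F := by
    rw [← blk_diff h2, Matrix.mul_sub, ← Matrix.mul_assoc, ← Matrix.mul_assoc, blk_pe33 h2,
      blk_pe34, Matrix.one_mul, Matrix.zero_mul, sub_zero]
  have p4z : P4 F * zM F = -P4 F := by
    rw [← blk_diff h2, Matrix.mul_sub, ← Matrix.mul_assoc, ← Matrix.mul_assoc, blk_pe44 h2,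
      blk_pe43, Matrix.one_mul, Matrix.zero_mul, zero_sub]
  have ze3 : zM F * E3 F = E3 F := by
    rw [← blk_diff h2, Matrix.sub_mul, Matrix.mul_assoc, Matrix.mul_assoc, blk_pe33 h2,
      blk_pe43, Matrix.mul_one, Matrix.mul_zero, sub_zero]
  have ze4 : zM F * E4 F = -E4 F := by
    rw [← blk_diff h2, Matrix.sub_mul, Matrix.mul_assoc, Matrix.mul_assoc, blk_pe44 h2,
      blk_pe34, Matrix.mul_one, Matrix.mul_zero, zero_sub]
  have h34 : P3 F * g * E4 F = 0 := by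
    have e : P3 F * g * E4 F = -(P3 F * g * E4 F) := by
      calc P3 F * g * E4 F = P3 F * (zM F * g) * E4 F := by rw [← Matrix.mul_assoc (P3 F), p3z]
        _ = P3 F * g * (zM F * E4 F) := by rw [← hg]; simp only [Matrix.mul_assoc]
        _ = -(P3 F * g * E4 F) := by rw [ze4, Matrix.mul_neg]
    have e2 : (2 : F) • (P3 F * g * E4 F) = 0 := by
      rw [two_smul]; exact add_eq_zero_iff_eq_neg.2 e
    exact (smul_eq_zero.1 e2).resolve_left h2
  have h43 : P4 F * g * E3 F = 0 := by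
    have e : P4 F * g * E3 F = -(P4 F * g * E3 F) := by
      calc P4 F * g * E3 F = P4 F * g * (zM F * E3 F) := by rw [ze3]
        _ = P4 F * zM F * g * E3 F := by
          rw [Matrix.mul_assoc (P4 F) (zM F), ← hg]; simp only [Matrix.mul_assoc]
        _ = -(P4 F * g * E3 F) := by rw [p4z, Matrix.neg_mul, Matrix.neg_mul]
    have e2 : (2 : F) • (P4 F * g * E3 F) = 0 := by
      rw [two_smul]; exact add_eq_zero_iff_eq_neg.2 e
    exact (smul_eq_zero.1 e2).resolve_left h2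
  calc blkM (P3 F * g * E3 F) (P4 F * g * E4 F)
      = E3 F * (P3 F * g * E3 F) * P3 F + E3 F * (P3 F * g * E4 F) * P4 F +
        (E4 F * (P4 F * g * E3 F) * P3 F + E4 F * (P4 F * g * E4 F) * P4 F) := by
        rw [h34, h43]; simp [blkM]
    _ = (E3 F * P3 F + E4 F * P4 F) * g * (E3 F * P3 F + E4 F * P4 F) := by
        simp only [Matrix.add_mul, Matrix.mul_add, Matrix.mul_assoc]; abel
    _ = g := by rw [blk_sum h2, Matrix.one_mul, Matrix.mul_one]

omit [Fintype F] in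
theorem blk_det (h2 : (2 : F) ≠ 0) (a : Matrix (Fin 3) (Fin 3) F) (b : Matrix (Fin 4) (Fin 4) F) :
    (blkM a b).det = a.det * b.det := by
  let e : Fin 3 ⊕ Fin 4 ≃ Fin 7 := finSumFinEquiv
  let B : Matrix (Fin 7) (Fin 3 ⊕ Fin 4) F := fromCols (E3 F) (E4 F)
  let C : Matrix (Fin 3 ⊕ Fin 4) (Fin 7) F := fromRows (P3 F) (P4 F)
  let D : Matrix (Fin 3 ⊕ Fin 4) (Fin 3 ⊕ Fin 4) F := fromBlocks a 0 0 b
  have hBC : B * C = 1 := by
    simp only [B, C, fromCols_mul_fromRows, blk_sum h2]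
  have hBDC : B * D * C = blkM a b := by
    simp only [B, C, D, fromCols_mul_fromBlocks, fromCols_mul_fromRows, Matrix.mul_zero, add_zero,
      zero_add, blkM]
  have h1 : B.submatrix id e.symm * D.submatrix e.symm e.symm * C.submatrix e.symm id =
      blkM a b := by
    rw [submatrix_mul_equiv, submatrix_mul_equiv, submatrix_id_id, hBDC]
  have h0 : B.submatrix id e.symm * C.submatrix e.symm id = 1 := by
    rw [submatrix_mul_equiv, submatrix_id_id, hBC]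
  have hd : (B.submatrix id e.symm).det * (C.submatrix e.symm id).det = 1 := by
    rw [← det_mul, h0, det_one]
  rw [← h1, det_mul, det_mul, det_submatrix_equiv_self, mul_right_comm, hd, one_mul]
  exact det_fromBlocks_zero₂₁ a 0 b

/-- The block homomorphism into the matrix monoid. -/
def blkH (h2 : (2 : F) ≠ 0) : GL (Fin 3) F × GL (Fin 4) F →* M7 where
  toFun c := blkM (c.1 : Matrix (Fin 3) (Fin 3) F) (c.2 : Matrix (Fin 4) (Fin 4) F)
  map_one' := by simpa using blk_one h2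
  map_mul' c d := by
    simp only [Prod.fst_mul, Prod.snd_mul, Units.val_mul]
    exact blk_mul h2 _ _ _ _

omit [Fintype F] in
theorem blk_e4 : E4 F *ᵥ (Pi.single 0 1 : Fin 4 → F) = Pi.single 0 1 := by
  ext i
  fin_cases i <;> simp [E4, Matrix.mulVec, dotProduct, Fin.sum_univ_four]

omit [Fintype F] in
theorem exists_blk (h2 : (2 : F) ≠ 0) :
    ∃ ι : GL (Fin 3) F × GL (Fin 4) F →* GL7, Blk ι := by
  have hc : ∀ (a : GL (Fin 3) F) (b : GL (Fin 4) F),
      (((blkH h2).toHomUnits (a, b) : GL7) : M7) =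
        blkM (a : Matrix (Fin 3) (Fin 3) F) (b : Matrix (Fin 4) (Fin 4) F) := fun a b => rfl
  refine ⟨(blkH h2).toHomUnits, ⟨fun a b => hc a b, ?_, ?_, fun a b => ?_, ?_, ?_, ?_, ?_⟩⟩
  · rintro ⟨a, b⟩ ⟨a', b'⟩ h
    have h' := congrArg (fun g : GL7 => (g : M7)) h
    simp only [hc] at h'
    refine Prod.ext (Units.ext ?_) (Units.ext ?_)
    · have := blk_fst h2 (a : Matrix (Fin 3) (Fin 3) F) (b : Matrix (Fin 4) (Fin 4) F)
      rw [h', blk_fst h2] at this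
      exact this.symm
    · have := blk_snd h2 (a : Matrix (Fin 3) (Fin 3) F) (b : Matrix (Fin 4) (Fin 4) F)
      rw [h', blk_snd h2] at this
      exact this.symm
  · intro g hg
    have hg' : ((g⁻¹ : GL7) : M7) * zM F = zM F * ((g⁻¹ : GL7) : M7) := by
      calc ((g⁻¹ : GL7) : M7) * zM F
          = ((g⁻¹ : GL7) : M7) * (zM F * g) * ((g⁻¹ : GL7) : M7) := by
            rw [Matrix.mul_assoc, Matrix.mul_assoc, Units.mul_inv, Matrix.mul_one]
        _ = zM F * ((g⁻¹ : GL7) : M7) := by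
            rw [← hg, ← Matrix.mul_assoc, Units.inv_mul, Matrix.one_mul]
    have e1 := blk_of_comm h2 _ hg
    have e2 := blk_of_comm h2 _ hg'
    have m1 := blk_mul h2 (P3 F * (g : M7) * E3 F) (P3 F * ((g⁻¹ : GL7) : M7) * E3 F)
      (P4 F * (g : M7) * E4 F) (P4 F * ((g⁻¹ : GL7) : M7) * E4 F)
    have m2 := blk_mul h2 (P3 F * ((g⁻¹ : GL7) : M7) * E3 F) (P3 F * (g : M7) * E3 F)
      (P4 F * ((g⁻¹ : GL7) : M7) * E4 F) (P4 F * (g : M7) * E4 F)
    rw [e1, e2, Units.mul_inv] at m1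
    rw [e1, e2, Units.inv_mul] at m2
    have a1 := blk_fst h2 (P3 F * (g : M7) * E3 F * (P3 F * ((g⁻¹ : GL7) : M7) * E3 F))
      (P4 F * (g : M7) * E4 F * (P4 F * ((g⁻¹ : GL7) : M7) * E4 F))
    have b1 := blk_snd h2 (P3 F * (g : M7) * E3 F * (P3 F * ((g⁻¹ : GL7) : M7) * E3 F))
      (P4 F * (g : M7) * E4 F * (P4 F * ((g⁻¹ : GL7) : M7) * E4 F))
    have a2 := blk_fst h2 (P3 F * ((g⁻¹ : GL7) : M7) * E3 F * (P3 F * (g : M7) * E3 F))
      (P4 F * ((g⁻¹ : GL7) : M7) * E4 F * (P4 F * (g : M7) * E4 F))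
    have b2 := blk_snd h2 (P3 F * ((g⁻¹ : GL7) : M7) * E3 F * (P3 F * (g : M7) * E3 F))
      (P4 F * ((g⁻¹ : GL7) : M7) * E4 F * (P4 F * (g : M7) * E4 F))
    rw [m1, Matrix.mul_one, blk_pe33 h2] at a1
    rw [m1, Matrix.mul_one, blk_pe44 h2] at b1
    rw [m2, Matrix.mul_one, blk_pe33 h2] at a2
    rw [m2, Matrix.mul_one, blk_pe44 h2] at b2
    refine ⟨(⟨_, _, a1.symm, a2.symm⟩, ⟨_, _, b1.symm, b2.symm⟩), Units.ext ?_⟩
    rw [hc]
    exact e1
  · rw [hc, blk_det h2]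
  · rw [hc, ← blk_diff h2]
    simp [blkM, sub_eq_add_neg]
  · intro ω a b h
    rw [hc] at h
    have ha := blk_fst h2 (a : Matrix (Fin 3) (Fin 3) F) (b : Matrix (Fin 4) (Fin 4) F)
    have hb := blk_snd h2 (a : Matrix (Fin 3) (Fin 3) F) (b : Matrix (Fin 4) (Fin 4) F)
    rw [h] at ha hb
    have d3 : dqM ω * E3 F = E3 F * diagonal ![ω, ω ^ 4, ω ^ 2] := by
      ext i j
      rw [dqM, diagonal_mul, mul_diagonal]
      fin_cases i <;> fin_cases j <;> simp [E3]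
    have d4 : dqM ω * E4 F = E4 F * diagonal ![1, ω, ω ^ 4, ω ^ 2] := by
      ext i j
      rw [dqM, diagonal_mul, mul_diagonal]
      fin_cases i <;> fin_cases j <;> simp [E4]
    rw [Matrix.mul_assoc, d3, ← Matrix.mul_assoc, blk_pe33 h2, Matrix.one_mul] at ha
    rw [Matrix.mul_assoc, d4, ← Matrix.mul_assoc, blk_pe44 h2, Matrix.one_mul] at hb
    exact ⟨ha.symm, hb.symm⟩
  · intro M a v η hM hv hη hηv ha
    refine ⟨E3 F *ᵥ v, η ᵥ* P3 F, fun h => hv ?_, fun h => hη ?_, ?_, _, hM, fun x => ?_⟩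
    · have := congrArg (fun w => P3 F *ᵥ w) h
      simpa only [mulVec_mulVec, blk_pe33 h2, one_mulVec, mulVec_zero] using this
    · have := congrArg (fun w => w ᵥ* E3 F) h
      simpa only [vecMul_vecMul, blk_pe33 h2, vecMul_one, zero_vecMul] using this
    · rw [← dotProduct_mulVec, mulVec_mulVec, blk_pe33 h2, one_mulVec, hηv]
    · have hx : E3 F *ᵥ (P3 F *ᵥ x) + E4 F *ᵥ (P4 F *ᵥ x) = x := by
        rw [mulVec_mulVec, mulVec_mulVec, ← add_mulVec, blk_sum h2, one_mulVec]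
      rw [hc, blkM, add_mulVec, Units.val_one, Matrix.mul_one, ← mulVec_mulVec, ← mulVec_mulVec,
        ← mulVec_mulVec, ha, mulVec_add, mulVec_smul, ← dotProduct_mulVec, add_right_comm, hx]
  · intro M b η hM hη hη0 hb
    refine ⟨η ᵥ* P4 F, fun h => hη ?_, ?_, _, hM, fun x => ?_⟩
    · have := congrArg (fun w => w ᵥ* E4 F) h
      simpa only [vecMul_vecMul, blk_pe44 h2, vecMul_one, zero_vecMul] using this
    · rw [← dotProduct_mulVec, ← blk_e4, mulVec_mulVec, blk_pe44 h2, one_mulVec,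
        dotProduct_single, hη0, zero_mul]
    · have hx : E3 F *ᵥ (P3 F *ᵥ x) + E4 F *ᵥ (P4 F *ᵥ x) = x := by
        rw [mulVec_mulVec, mulVec_mulVec, ← add_mulVec, blk_sum h2, one_mulVec]
      rw [hc, blkM, add_mulVec, Units.val_one, Matrix.mul_one, ← mulVec_mulVec, ← mulVec_mulVec,
        ← mulVec_mulVec, hb, mulVec_add, mulVec_smul, ← dotProduct_mulVec, blk_e4, ← add_assoc, hx]

end Cfsg.Agent.S7
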