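import Mathlib
import Cfsg.Agent.S7.D6

set_option autoImplicit false
set_option linter.unusedVariables false

namespace Cfsg.Agent.S7

open Matrix Cfsg.Geo Cfsg.Agent.Cl.D5 Module
open scoped MatrixGroups ComplexConjugate commutatorElement

variable {F : Type*} [Field F] [Fintype F]

local notation "M7" => Matrix (Fin 7) (Fin 7) F
local notation "SL7" => specialLinear (Fin 7) F
local notation "Z7" => scalars (Fin 7) F
local notation "GL7" => GL (Fin 7) F

omit [Fintype F] in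
theorem blk2_eq (a b : Fin 3 → F) (m : Matrix (Fin 3) (Fin 3) F) : qM a b m =
    !![1, b 0, b 1, b 2, -b 2, -b 1, -b 0;
      a 0, 1 + m 0 0, m 0 1, m 0 2, -m 0 2, -m 0 1, -m 0 0;
      a 1, m 1 0, 1 + m 1 1, m 1 2, -m 1 2, -m 1 1, -m 1 0;
      a 2, m 2 0, m 2 1, 1 + m 2 2, -m 2 2, -m 2 1, -m 2 0;
      -a 2, -m 2 0, -m 2 1, -m 2 2, 1 + m 2 2, m 2 1, m 2 0;
      -a 1, -m 1 0, -m 1 1, -m 1 2, m 1 2, 1 + m 1 1, m 1 0;
      -a 0, -m 0 0, -m 0 1, -m 0 2, m 0 2, m 0 1, 1 + m 0 0] := by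
  ext i j
  simp only [qM, Matrix.add_apply, mul_apply, vecMulVec_apply, mulVec, dotProduct, transpose_apply, Fin.sum_univ_three]
  fin_cases i <;> fin_cases j <;> simp [E3]

omit [Fintype F] in
theorem blk2_EE (h2 : (2 : F) = 0) : (E3 F)ᵀ * E3 F = 0 := by
  ext i j
  fin_cases i <;> fin_cases j <;> simp [E3, mul_apply, Fin.sum_univ_seven] <;> linear_combination h2

omit [Fintype F] in
theorem blk2_RE : R3 F * E3 F = 1 := by
  ext i j
  fin_cases i <;> fin_cases j <;> simp [E3, R3, mul_apply, Fin.sum_univ_seven]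

omit [Fintype F] in
theorem blk2_e0 : (Pi.single 0 1 : Fin 7 → F) ᵥ* E3 F = 0 := by
  ext i
  fin_cases i <;> simp [E3]

omit [Fintype F] in
theorem qM_mul (h2 : (2 : F) = 0) (a b a' b' : Fin 3 → F) (m m' : Matrix (Fin 3) (Fin 3) F) :
    qM a b m * qM a' b' m' = qM (a + a') (b + b') (m + m' + vecMulVec a b') := by
  have e1 := blk2_EE h2
  have e2 : (Pi.single 0 1 : Fin 7 → F) ᵥ* E3 F = 0 := blk2_e0
  have e3 : (E3 F)ᵀ *ᵥ (Pi.single 0 1 : Fin 7 → F) = 0 := by rw [mulVec_transpose, e2]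
  have e4 : ∀ v, (E3 F *ᵥ v) ᵥ* E3 F = 0 := fun v => by rw [← mulVec_transpose, mulVec_mulVec, e1, zero_mulVec]
  have k1 : E3 F * m * (E3 F)ᵀ * (E3 F * m' * (E3 F)ᵀ) = 0 := by
    rw [Matrix.mul_assoc (E3 F * m), ← Matrix.mul_assoc _ (E3 F * m'), ← Matrix.mul_assoc _ _ m', e1]
    simp
  have k2 : E3 F * m * (E3 F)ᵀ * vecMulVec (E3 F *ᵥ a') (Pi.single 0 1 : Fin 7 → F) = 0 := by
    rw [mul_vecMulVec, mulVec_mulVec, Matrix.mul_assoc, e1]
    simp
  have k3 : E3 F * m * (E3 F)ᵀ * vecMulVec (Pi.single 0 1 : Fin 7 → F) (E3 F *ᵥ b') = 0 := by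
    rw [mul_vecMulVec, ← mulVec_mulVec, e3]
    simp
  have k4 : ∀ u v : Fin 7 → F, v ᵥ* E3 F = 0 → vecMulVec u v * (E3 F * m' * (E3 F)ᵀ) = 0 := fun u v h => by
    rw [vecMulVec_mul, ← vecMul_vecMul, ← vecMul_vecMul, h]
    simp
  have k5 : ∀ u v w : Fin 7 → F, v ᵥ* E3 F = 0 → vecMulVec u v * vecMulVec (E3 F *ᵥ a') w = 0 := fun u v w h => by
    rw [vecMulVec_mul_vecMulVec, dotProduct_mulVec, h]
    simp
  have k6 : vecMulVec (E3 F *ᵥ a) (Pi.single 0 1 : Fin 7 → F) * vecMulVec (Pi.single 0 1) (E3 F *ᵥ b') =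
      E3 F * vecMulVec a b' * (E3 F)ᵀ := by
    rw [vecMulVec_mul_vecMulVec, mul_vecMulVec, vecMulVec_mul, vecMul_transpose]
    simp
  have k7 : vecMulVec (Pi.single 0 1 : Fin 7 → F) (E3 F *ᵥ b) * vecMulVec (Pi.single 0 1) (E3 F *ᵥ b') = 0 := by
    rw [vecMulVec_mul_vecMulVec, dotProduct_comm, dotProduct_mulVec, e2]
    simp
  simp only [qM, Matrix.add_mul, Matrix.mul_add, Matrix.one_mul, Matrix.mul_one, k1, k2, k3, k4 _ _ e2,
    k4 _ _ (e4 b), k5 _ _ _ e2, k5 _ _ _ (e4 b), k6, k7, mulVec_add, add_vecMulVec, vecMulVec_add]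
  abel

omit [Fintype F] in
theorem qM_inj {a b a' b' : Fin 3 → F} {m m' : Matrix (Fin 3) (Fin 3) F}
    (h : qM a b m = qM a' b' m') : a = a' ∧ b = b' ∧ m = m' := by
  rw [blk2_eq, blk2_eq] at h
  have k := fun i j => congrFun (congrFun h i) j
  refine ⟨funext fun i => ?_, funext fun i => ?_, Matrix.ext fun i j => ?_⟩
  · fin_cases i
    exacts [k 1 0, k 2 0, k 3 0]
  · fin_cases i
    exacts [k 0 1, k 0 2, k 0 3]
  · fin_cases i <;> fin_cases j
    exacts [add_left_cancel (k 1 1), k 1 2, k 1 3, k 2 1, add_left_cancel (k 2 2), k 2 3, k 3 1, k 3 2,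
      add_left_cancel (k 3 3)]

omit [Fintype F] in
theorem qM_one (h2 : (2 : F) = 0) : qM (0 : Fin 3 → F) 0 0 = 1 ∧ qM (0 : Fin 3 → F) 0 1 = zM F := by
  refine ⟨by simp [qM], ?_⟩
  rw [blk2_eq]
  ext i j
  fin_cases i <;> fin_cases j <;> simp +decide [zM] <;> linear_combination h2

omit [Fintype F] in
theorem qM_dq (h2 : (2 : F) = 0) {ω : F} (hω : ω ^ 7 = 1) (a b : Fin 3 → F)
    (m : Matrix (Fin 3) (Fin 3) F) :
    dqM ω * qM a b m * dqM ω ^ 6 = qM (diagonal ![ω, ω ^ 4, ω ^ 2] *ᵥ a)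
      (diagonal ![ω ^ 6, ω ^ 3, ω ^ 5] *ᵥ b)
      (diagonal ![ω, ω ^ 4, ω ^ 2] * m * diagonal ![ω ^ 6, ω ^ 3, ω ^ 5]) := by
  have e : dqM ω ^ 6 = diagonal ![1, ω ^ 6, ω ^ 3, ω ^ 5, ω ^ 5, ω ^ 3, ω ^ 6] := by
    have p3 : (ω ^ 4) ^ 6 = ω ^ 3 := by linear_combination ω ^ 3 * (ω ^ 14 + ω ^ 7 + 1) * hω
    have p5 : (ω ^ 2) ^ 6 = ω ^ 5 := by linear_combination ω ^ 5 * hω
    rw [dqM, diagonal_pow]
    congr 1
    ext i
    fin_cases i <;> simp [p3, p5]
  rw [e, dqM, blk2_eq, blk2_eq]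
  ext i j
  simp only [mul_diagonal, diagonal_mul, mulVec_diagonal]
  fin_cases i <;> fin_cases j <;> simp <;> first | ring1 | linear_combination hω

omit [Fintype F] in
theorem blk2_r3 (h2 : (2 : F) = 0) {g : M7} (h : g * zM F = zM F * g) :
    g * E3 F = E3 F * r3 g ∧ (E3 F)ᵀ * g = r3 g * (E3 F)ᵀ := by
  have e : g * E3 F * (E3 F)ᵀ = E3 F * ((E3 F)ᵀ * g) := by
    simpa [← (qM_one h2).2, qM, Matrix.mul_add, Matrix.add_mul, Matrix.mul_assoc] using h
  have e1 : (E3 F)ᵀ * g = r3 g * (E3 F)ᵀ := by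
    rw [r3, Matrix.mul_assoc (R3 F), Matrix.mul_assoc (R3 F), e, ← Matrix.mul_assoc, blk2_RE, Matrix.one_mul]
  have e2 : (E3 F)ᵀ * (R3 F)ᵀ = 1 := by rw [← transpose_mul, blk2_RE, transpose_one]
  refine ⟨?_, e1⟩
  have := congrArg (· * (R3 F)ᵀ) e
  simpa only [e1, Matrix.mul_assoc, e2, Matrix.mul_one] using this

omit [Fintype F] in
theorem blk2_ker (h2 : (2 : F) = 0) {g : M7} (h1 : g * E3 F = E3 F) (h3 : (E3 F)ᵀ * g = (E3 F)ᵀ)
    (hd : g.det = 1) : ∃ a b m, g = qM a b m := by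
  obtain ⟨N, rfl⟩ : ∃ N, g = 1 + N := ⟨g - 1, by abel⟩
  have n1 : N * E3 F = 0 := by simpa [Matrix.add_mul] using h1
  have n3 : (E3 F)ᵀ * N = 0 := by simpa [Matrix.mul_add] using h3
  have c : ∀ i, N i 6 = N i 1 ∧ N i 5 = N i 2 ∧ N i 4 = N i 3 := fun i => by
    have k := congrFun (congrFun n1 i)
    have k0 := k 0
    have k1 := k 1
    have k2 := k 2
    simp [E3, mul_apply, Fin.sum_univ_seven] at k0 k1 k2
    exact ⟨by linear_combination -k0, by linear_combination -k1, by linear_combination -k2⟩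
  have r : ∀ j, N 6 j = N 1 j ∧ N 5 j = N 2 j ∧ N 4 j = N 3 j := fun j => by
    have k := fun i => congrFun (congrFun n3 i) j
    have k0 := k 0
    have k1 := k 1
    have k2 := k 2
    simp [E3, mul_apply, Fin.sum_univ_seven] at k0 k1 k2
    exact ⟨by linear_combination -k0, by linear_combination -k1, by linear_combination -k2⟩
  have ng : ∀ x : F, -x = x := fun x => by linear_combination -x * h2
  have e : N = E4 F * (N.submatrix ![0, 1, 2, 3] ![0, 1, 2, 3] * (E4 F)ᵀ) := by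
    ext i j
    simp only [mul_apply, Fin.sum_univ_four, transpose_apply, submatrix_apply]
    fin_cases i <;> fin_cases j <;> simp [E4, c, r]
  have e4 : (E4 F)ᵀ * E4 F = diagonal ![1, 0, 0, 0] := by
    ext i j
    fin_cases i <;> fin_cases j <;> simp [E4, mul_apply, Fin.sum_univ_seven] <;> linear_combination h2
  have d : N 0 0 = 0 := by
    rw [e, det_one_add_mul_comm, Matrix.mul_assoc, e4, det_of_lowerTriangular] at hd
    · simp only [Fin.prod_univ_four, Matrix.add_apply, mul_diagonal, submatrix_apply] at hd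
      simpa using hd
    · intro i j h
      have h' : i < j := h
      simp only [Matrix.add_apply, mul_diagonal, one_apply_ne h'.ne]
      fin_cases j
      · exact absurd h' (Fin.not_lt_zero _)
      all_goals simp
  refine ⟨![N 1 0, N 2 0, N 3 0], ![N 0 1, N 0 2, N 0 3], N.submatrix ![1, 2, 3] ![1, 2, 3], ?_⟩
  rw [blk2_eq]
  ext i j
  fin_cases i <;> fin_cases j <;> simp [ng, c, r, d]

omit [Fintype F] in
theorem exists_rho (h2 : (2 : F) = 0) {z : GL7} (hz : (z : M7) = zM F) :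
    ∃ ρ : Subgroup.centralizer ({z} : Set GL7) →* GL (Fin 3) F,
      (∀ g, (ρ g : Matrix (Fin 3) (Fin 3) F) = r3 ((g : GL7) : M7)) ∧
      (∀ g, ρ g = 1 → (g : GL7) ∈ SL7 → ∃ a b m, ((g : GL7) : M7) = qM a b m) ∧
      ∀ (g : Subgroup.centralizer ({z} : Set GL7)) (m : Matrix (Fin 3) (Fin 3) F),
        ((g : GL7) : M7) * qM 0 0 m * (((g : GL7)⁻¹ : GL7) : M7) =
          qM 0 0 ((ρ g : Matrix (Fin 3) (Fin 3) F) * m *
            (((ρ g)⁻¹ : GL (Fin 3) F) : Matrix (Fin 3) (Fin 3) F)) := by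
  have k := fun g : Subgroup.centralizer ({z} : Set GL7) => blk2_r3 h2 (g := ((g : GL7) : M7)) (by
    rw [← hz, ← Units.val_mul, ← Units.val_mul, Subgroup.mem_centralizer_singleton_iff.1 g.2])
  let r : Subgroup.centralizer ({z} : Set GL7) →* Matrix (Fin 3) (Fin 3) F :=
    { toFun := fun g => r3 ((g : GL7) : M7)
      map_one' := by simp [r3, blk2_RE]
      map_mul' := fun g h => by
        rw [Subgroup.coe_mul, Units.val_mul, r3, Matrix.mul_assoc, Matrix.mul_assoc, (k h).1, r3.eq_1 (g : GL7).1]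
        simp only [Matrix.mul_assoc] }
  have hr : ∀ g, (r.toHomUnits g : Matrix (Fin 3) (Fin 3) F) = r3 ((g : GL7) : M7) := fun g => rfl
  refine ⟨r.toHomUnits, hr, fun g h1 hs => ?_, fun g m => ?_⟩
  · have e : r3 ((g : GL7) : M7) = 1 := by rw [← hr, h1, Units.val_one]
    refine blk2_ker h2 (by rw [(k g).1, e, Matrix.mul_one]) (by rw [(k g).2, e, Matrix.one_mul]) ?_
    rw [specialLinear, MonoidHom.mem_ker, ← Units.val_inj, GeneralLinearGroup.val_det_apply] at hs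
    exact hs
  · rw [← map_inv, hr, hr]
    have e1 := (k g).1
    have e2 := (k g⁻¹).2
    rw [Subgroup.coe_inv] at e2 ⊢
    simp only [qM, mulVec_zero, zero_vecMulVec, vecMulVec_zero, add_zero, Matrix.mul_add, Matrix.add_mul,
      Matrix.mul_one, Units.mul_inv]
    rw [← Matrix.mul_assoc, ← Matrix.mul_assoc, e1, Matrix.mul_assoc _ (E3 F)ᵀ, e2]
    simp only [Matrix.mul_assoc]

end Cfsg.Agent.S7
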