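import Mathlib
import Cfsg.Agent.S7.Defs
import Cfsg.Agent.S7.WB
import Cfsg.Agent.NT.Zsigmondy
import Cfsg.Agent.Loc.MssSyl

/-! Sylow subgroups for a primitive prime divisor in the stabiliser of two vectors. -/

set_option autoImplicit false

namespace Cfsg.Agent.S7

open Matrix Cfsg.Geo Cfsg.Agent.Cl.D5 Module
open scoped MatrixGroups ComplexConjugate commutatorElement

variable {F : Type*} [Field F] [Fintype F]

local notation "M7" => Matrix (Fin 7) (Fin 7) F
local notation "SL7" => specialLinear (Fin 7) F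
local notation "Z7" => scalars (Fin 7) F
local notation "GL7" => GL (Fin 7) F

theorem exists_ppd {c : ℕ} (h3 : 3 ≤ c) (h5 : c ≤ 5) :
    ∃ l : ℕ, l.Prime ∧ orderOf (Fintype.card F : ZMod l) = c :=
  NT.zsigmondy_orderOf Fintype.one_lt_card (by omega) (by omega) (by omega)

theorem exists_syl (l : ℕ) (hl : l.Prime) (H : Subgroup GL7) : ∃ X, Syl l X H := by
  have : Fact l.Prime := ⟨hl⟩
  classical
  obtain ⟨X, h⟩ := Loc.Mss.Syl.exists l H
  exact ⟨X, h.le, h.pg, h.nd⟩

theorem Syl.conj {l : ℕ} (hl : l.Prime) {X Y H : Subgroup GL7} (h1 : Syl l X H) (h2 : Syl l Y H) :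
    ∃ g ∈ H, ∀ a, a ∈ Y ↔ g * a * g⁻¹ ∈ X := by
  have : Fact l.Prime := ⟨hl⟩
  classical
  obtain ⟨g, hg, e⟩ := Loc.Mss.Syl.conj_eq (⟨h1.le, h1.pg, h1.nd⟩ : Loc.Mss.Syl l X H)
    (⟨h2.le, h2.pg, h2.nd⟩ : Loc.Mss.Syl l Y H)
  refine ⟨g⁻¹, inv_mem hg, fun a => ?_⟩
  rw [← e, Loc.Mss.mem_cj, inv_inv]

theorem PP_card (A : Submodule F (Fin 7 → F)) : Nat.card A = Fintype.card F ^ finrank F A := by
  rw [Module.natCard_eq_pow_finrank (K := F), Nat.card_eq_fintype_card]

omit [Field F] in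
theorem PP_card_top : Nat.card (Fin 7 → F) = Fintype.card F ^ 7 := by
  rw [Nat.card_fun, Nat.card_eq_fintype_card, Nat.card_eq_fintype_card, Fintype.card_fin]

theorem PP_dvd {q l c d : ℕ} (hl : l.Prime) (hq : 1 ≤ q) (ho : orderOf (q : ZMod l) = c)
    (hc : 0 < c) (hd : d ≤ 7) : l ∣ q ^ 7 - q ^ d ↔ c ∣ 7 - d := by
  have : Fact l.Prime := ⟨hl⟩
  obtain ⟨e, he⟩ := Nat.exists_eq_add_of_le hd
  have h1 : ¬ l ∣ q ^ d := fun h => by
    have h2 : (q : ZMod l) = 0 := (ZMod.natCast_eq_zero_iff q l).2 (hl.dvd_of_dvd_pow h)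
    have h3 := pow_orderOf_eq_one (q : ZMod l)
    rw [ho, h2, zero_pow hc.ne'] at h3
    exact zero_ne_one h3
  rw [he, Nat.add_sub_cancel_left, pow_add, ← Nat.mul_sub_one, hl.dvd_mul, or_iff_right h1,
    NT.dvd_pow_sub_one_iff_orderOf_dvd hq, ho]

theorem Syl.fx_eq {G X : Subgroup GL7} {a b : Fin 7 → F} (i : Ind2 a b) {l c : ℕ} (hl : l.Prime)
    (ho : orderOf (Fintype.card F : ZMod l) = c) (h3 : 3 ≤ c)
    (hc : finrank F (W G a b) + c = 7) (hX : Syl l X (fix2 G a b)) : Fx X = W G a b := by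
  have : Fact l.Prime := ⟨hl⟩
  classical
  have hq : 1 ≤ Fintype.card F := Fintype.card_pos
  have hle : Fx X ≤ W G a b := fun y hy => by
    by_contra hyW
    have h1 : MulAction.orbit (fix2 G a b) y = (W G a b : Set (Fin 7 → F))ᶜ := by
      ext z
      constructor
      · rintro ⟨g, rfl⟩ hz
        apply hyW
        rw [← smul_mem_W g.2.1, g.2.2.1, g.2.2.2]
        exact hz
      · intro hz
        obtain ⟨g, hg, e⟩ := trans_W (by omega) hyW hz
        exact ⟨⟨g, hg⟩, e⟩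
    have h2 : (MulAction.stabilizer (fix2 G a b) y).index ∣ X.relIndex (fix2 G a b) :=
      Subgroup.index_dvd_of_le fun g hg => hy g hg
    have h4 := Set.ncard_add_ncard_compl (W G a b : Set (Fin 7 → F))
    rw [PP_card_top, ← h1, ← MulAction.index_stabilizer, ← Nat.card_coe_set_eq] at h4
    have h5 : Nat.card (W G a b : Set (Fin 7 → F)) = Fintype.card F ^ finrank F (W G a b) :=
      PP_card _
    have h6 := (PP_dvd hl hq ho (by omega) (show finrank F (W G a b) ≤ 7 by omega)).2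
      (by rw [show 7 - finrank F (W G a b) = c by omega])
    rw [← h4, h5, Nat.add_sub_cancel_left] at h6
    exact hX.nd (h6.trans h2)
  have h1 := hX.pg.card_modEq_card_fixedPoints (Fin 7 → F)
  have h2 : Nat.card (MulAction.fixedPoints X (Fin 7 → F)) = Fintype.card F ^ finrank F (Fx X) := by
    rw [← PP_card]
    exact Nat.card_congr (Equiv.subtypeEquivRight fun v =>
      ⟨fun h g hg => h ⟨g, hg⟩, fun h g => h g g.2⟩)
  have h4 := Submodule.finrank_mono hle
  have h5 : sp a b ≤ Fx X := Submodule.span_le.2 (by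
    rintro v (rfl | rfl) g hg
    · exact (hX.le hg).2.1
    · exact (hX.le hg).2.2)
  have h6 := Submodule.finrank_mono h5
  rw [i.finrank] at h6
  rw [PP_card_top, h2] at h1
  obtain ⟨k, hk⟩ := (PP_dvd hl hq ho (by omega) (show finrank F (Fx X) ≤ 7 by omega)).1
    ((Nat.modEq_iff_dvd' (Nat.pow_le_pow_right hq (by omega))).1 h1.symm)
  refine Submodule.eq_of_le_of_finrank_eq hle ?_
  have h7 : k = 1 := by
    rcases k with _ | _ | k
    · omega
    · rfl
    · nlinarith [Nat.sub_le 7 (finrank F (Fx X)), Nat.sub_le_sub_left h6 7]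
  subst h7
  omega

end Cfsg.Agent.S7
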