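import Mathlib
import Cfsg.Agent.S7.Defs
import Cfsg.Agent.S7.WB
import Cfsg.Agent.S7.PP

set_option autoImplicit false

namespace Cfsg.Agent.S7

open Matrix Cfsg.Geo Cfsg.Agent.Cl.D5 Module
open scoped MatrixGroups ComplexConjugate commutatorElement

variable {F : Type*} [Field F] [Fintype F]

local notation "M7" => Matrix (Fin 7) (Fin 7) F
local notation "SL7" => specialLinear (Fin 7) F
local notation "Z7" => scalars (Fin 7) F
local notation "GL7" => GL (Fin 7) F

omit [Fintype F] in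
theorem C3n_ind {x v : Fin 7 → F} (hx : x ≠ 0) (hv : v ∉ Submodule.span F {x}) : Ind2 x v := fun s t h => by
  by_cases ht : t = 0
  · rw [ht, zero_smul, add_zero] at h
    exact ⟨(smul_eq_zero.1 h).resolve_right hx, ht⟩
  · refine absurd (Submodule.mem_span_singleton.2 ⟨-(t⁻¹ * s), ?_⟩) hv
    have e : t • v = -(s • x) := eq_neg_of_add_eq_zero_right h
    rw [neg_smul, mul_smul, ← smul_neg, ← e, smul_smul, inv_mul_cancel₀ ht, one_smul]

omit [Fintype F] in
theorem C3n_ind' {B : Submodule F (Fin 7 → F)} {x v : Fin 7 → F} (hx : x ∉ B) (hv : v ∈ B) (h0 : v ≠ 0) :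
    Ind2 x v := by
  refine C3n_ind (fun e => hx (e ▸ B.zero_mem)) fun h => ?_
  obtain ⟨c, rfl⟩ := Submodule.mem_span_singleton.1 h
  exact hx ((B.smul_mem_iff (left_ne_zero_of_smul h0)).1 hv)

theorem C3n_left {G : Subgroup GL7} {a b : Fin 7 → F} : a ∈ W G a b :=
  sp_le_W (Submodule.subset_span (Set.mem_insert _ _))

theorem C3n_right {G : Subgroup GL7} {a b : Fin 7 → F} : b ∈ W G a b :=
  sp_le_W (Submodule.subset_span (Set.mem_insert_of_mem _ rfl))

/-- Two independent vectors of a block determine the block. -/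
theorem C3n_eq {G : Subgroup GL7} (h : CK G) {a b a' b' : Fin 7 → F} (i : Ind2 a b) (i' : Ind2 a' b')
    (h4 : finrank F (W G a b) = 4) (ha : a' ∈ W G a b) (hb : b' ∈ W G a b) : W G a' b' = W G a b := by
  obtain ⟨l, hl, ho⟩ := exists_ppd (F := F) (c := 3) le_rfl (by norm_num)
  obtain ⟨X, hX⟩ := exists_syl l hl (fix2 G a b)
  have e := Syl.fx_eq i hl ho le_rfl (by rw [h4]) hX
  rw [← e] at ha hb
  have le : X ≤ fix2 G a' b' := fun g hg => ⟨(hX.le hg).1, ha g hg, hb g hg⟩
  have k : ∀ H : Subgroup GL7, X ≤ H → Nat.card X * X.relIndex H = Nat.card H := fun H hH => by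
    rw [← Nat.card_congr (Subgroup.subgroupOfEquivOfLe hH).toEquiv]
    exact (X.subgroupOf H).card_mul_index
  have r : X.relIndex (fix2 G a' b') = X.relIndex (fix2 G a b) :=
    Nat.eq_of_mul_eq_mul_left Nat.card_pos (by rw [k _ le, k _ hX.le, h.card_fix2 i i'])
  have hX' : Syl l X (fix2 G a' b') := ⟨le, hX.pg, r ▸ hX.nd⟩
  rw [← e, Syl.fx_eq i' hl ho le_rfl (by rw [h.finrank_W i' i, h4]) hX']

open Classical in
theorem C3n_card (A : Submodule F (Fin 7 → F)) :
    (Finset.univ.filter (· ∈ A)).card = Fintype.card F ^ finrank F A := by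
  rw [← Module.card_eq_pow_finrank (K := F) (V := A)]
  exact (Fintype.card_subtype _).symm

theorem C3n_num {q : ℕ} (h : 2 ≤ q) : ¬ (q ^ 4 - 1) * (q ^ 4 - q) ≤ q ^ 7 * (q - 1) := by
  have h1 : 1 ≤ q ^ 4 := Nat.one_le_pow _ _ (by omega)
  have h2 : q ≤ q ^ 4 := Nat.le_self_pow (by norm_num) q
  have h3 : 1 ≤ q := by omega
  zify [h1, h2, h3]
  have h4 : (2 : ℤ) ≤ q := by exact_mod_cast h
  have h5 : (0 : ℤ) < (q : ℤ) ^ 4 := by positivity
  have h6 : (q : ℤ) + 1 ≤ (q : ℤ) ^ 3 := by nlinarith [mul_nonneg (sub_nonneg.2 h4) (sq_nonneg (q : ℤ))]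
  nlinarith [mul_le_mul_of_nonneg_left h6 h5.le]

theorem CK.finrank_ne {G : Subgroup GL7} (h : CK G) {a b : Fin 7 → F} (i : Ind2 a b) :
    finrank F (W G a b) ≠ 4 := by
  classical
  intro h4
  obtain ⟨x, hx⟩ : ∃ x, x ∉ W G a b := by
    by_contra hn
    have e : W G a b = ⊤ := eq_top_iff.2 fun x _ => by_contra fun hx => hn ⟨x, hx⟩
    rw [e, finrank_top, finrank_fin_fun] at h4
    omega
  have x0 : x ≠ 0 := fun e => hx (e ▸ (W G a b).zero_mem)
  set s : Finset (Fin 7 → F) := (Finset.univ.filter (· ∈ W G a b)).erase 0 with hs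
  set t : Finset (Fin 7 → F) := Finset.univ.filter (· ∉ Submodule.span F {x}) with ht
  have ms : ∀ c ∈ s, c ≠ 0 ∧ c ∈ W G a b := fun c hc => by simpa [hs] using hc
  have ind : ∀ c ∈ s, Ind2 x c := fun c hc => C3n_ind' hx (ms c hc).2 (ms c hc).1
  have k := Finset.card_mul_le_card_mul (s := s) (t := t) (fun c v => v ∈ W G x c)
    (m := Fintype.card F ^ 4 - Fintype.card F) (n := Fintype.card F - 1) (fun c hc => ?_) (fun v hv => ?_)
  · have c1 : s.card = Fintype.card F ^ 4 - 1 := by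
      rw [hs, Finset.card_erase_of_mem (by simp), ← h4, ← C3n_card]
    have c2 : t.card ≤ Fintype.card F ^ 7 := (Finset.card_le_univ _).trans (by simp)
    rw [c1] at k
    exact C3n_num Fintype.one_lt_card (k.trans (Nat.mul_le_mul_right _ c2))
  · have c1 := C3n_card (W G x c)
    have c2 := C3n_card (Submodule.span F {x})
    rw [h.finrank_W (ind c hc) i, h4] at c1
    rw [finrank_span_singleton x0, pow_one] at c2
    rw [← c1, ← c2]
    refine (Finset.le_card_sdiff _ _).trans (Finset.card_le_card fun v hv => ?_)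
    simp only [Finset.mem_sdiff, Finset.mem_filter, Finset.mem_univ, true_and] at hv
    simp only [Finset.mem_bipartiteAbove, ht, Finset.mem_filter, Finset.mem_univ, true_and]
    exact ⟨hv.2, hv.1⟩
  · have iv : Ind2 x v := C3n_ind x0 (by simpa [ht] using hv)
    have mW : ∀ c ∈ s.bipartiteBelow (fun c v => v ∈ W G x c) v, c ∈ s ∧ c ∈ W G x v := fun c hc => by
      obtain ⟨h1, h2⟩ := Finset.mem_bipartiteBelow _ |>.1 hc
      refine ⟨h1, ?_⟩
      rw [C3n_eq h (ind c h1) iv ((h.finrank_W (ind c h1) i).trans h4) C3n_left h2]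
      exact C3n_right
    rcases (s.bipartiteBelow (fun c v => v ∈ W G x c) v).eq_empty_or_nonempty with e | ⟨c, hc⟩
    · rw [e]
      exact Nat.zero_le _
    obtain ⟨c1, c2⟩ := mW c hc
    have sub : s.bipartiteBelow (fun c v => v ∈ W G x c) v ⊆
        (Finset.univ.filter (· ∈ Submodule.span F {c})).erase 0 := fun d hd => by
      obtain ⟨d1, d2⟩ := mW d hd
      simp only [Finset.mem_erase, Finset.mem_filter, Finset.mem_univ, true_and]
      refine ⟨(ms d d1).1, by_contra fun hn => hx ?_⟩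
      have j := C3n_ind (ms c c1).1 hn
      rw [← C3n_eq h i j h4 (ms c c1).2 (ms d d1).2, C3n_eq h iv j ((h.finrank_W iv i).trans h4) c2 d2]
      exact C3n_left
    refine (Finset.card_le_card sub).trans (le_of_eq ?_)
    rw [Finset.card_erase_of_mem (by simp), C3n_card, finrank_span_singleton (ms c c1).1, pow_one]

end Cfsg.Agent.S7
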