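import Mathlib
import Cfsg.Agent.S7.Defs

/-! A Fourier inversion argument for orbits on a pair of dual spaces. -/

set_option autoImplicit false

namespace Cfsg.Agent.S7

open Matrix Cfsg.Geo Cfsg.Agent.Cl.D5 Module
open scoped MatrixGroups ComplexConjugate commutatorElement

namespace Four

/-- A function periodic along a vector outside the kernel of `φ` has no Fourier coefficient. -/
theorem sum_zero {F U : Type*} [Field F] [AddCommGroup U] [Module F U] [Fintype U]
    (ψ : AddChar F ℂ) (hψ : ψ 1 ≠ 1) (φ : U →ₗ[F] F) {c : U} (hc : φ c ≠ 0) (g : U → ℂ)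
    (hg : ∀ (a : F) u, g (u + a • c) = g u) : ∑ u, g u * ψ (φ u) = 0 := by
  have e : ∑ u, g u * ψ (φ u) = (∑ u, g u * ψ (φ u)) * ψ 1 := by
    rw [Finset.sum_mul, ← Equiv.sum_comp (Equiv.addRight ((φ c)⁻¹ • c))]
    refine Finset.sum_congr rfl fun u _ => ?_
    rw [Equiv.coe_addRight, hg, map_add, map_smul, smul_eq_mul, inv_mul_cancel₀ hc,
      AddChar.map_add_eq_mul, mul_assoc]
  have e2 : (∑ u, g u * ψ (φ u)) * (1 - ψ 1) = 0 := by rw [mul_sub, mul_one, ← e, sub_self]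
  exact (mul_eq_zero.1 e2).resolve_right (sub_ne_zero.2 hψ.symm)

theorem exists_perp {F U V : Type*} [Field F] [AddCommGroup U] [Module F U] [Finite U]
    [AddCommGroup V] [Module F V] [Finite V] (β : U →ₗ[F] V →ₗ[F] F)
    (h1 : ∀ u, (∀ v, β u v = 0) → u = 0) (h2 : ∀ v, (∀ u, β u v = 0) → v = 0)
    {C : Submodule F U} {z : U} (hz : z ∉ C) : ∃ v, (∀ u ∈ C, β u v = 0) ∧ β z v ≠ 0 := by
  have i1 : Function.Injective β := (injective_iff_map_eq_zero _).2 fun u hu =>
    h1 u fun v => by rw [hu]; rfl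
  have i2 : Function.Injective β.flip := (injective_iff_map_eq_zero _).2 fun v hv =>
    h2 v fun u => by rw [← LinearMap.flip_apply, hv]; rfl
  have l1 := LinearMap.finrank_le_finrank_of_injective i1
  have l2 := LinearMap.finrank_le_finrank_of_injective i2
  have d1 : finrank F (V →ₗ[F] F) = finrank F V := Subspace.dual_finrank_eq
  have d2 : finrank F (U →ₗ[F] F) = finrank F U := Subspace.dual_finrank_eq
  have s2 := (LinearMap.injective_iff_surjective_of_finrank_eq_finrank (f := β.flip)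
    (by omega)).1 i2
  obtain ⟨φ, hφ, hC⟩ := C.exists_le_ker_of_notMem hz
  obtain ⟨v, rfl⟩ := s2 φ
  exact ⟨v, fun u hu => hC hu, hφ⟩

end Four

open Four in
theorem four {F U V Γ : Type*} [Field F] [Finite F] [AddCommGroup U] [Module F U] [Finite U]
    [AddCommGroup V] [Module F V] [Finite V] [Group Γ] (ρ : Γ →* Module.End F U)
    (σ : Γ →* Module.End F V) (β : U →ₗ[F] V →ₗ[F] F) (hβ : ∀ g u v, β (ρ g u) (σ g v) = β u v)
    (h1 : ∀ u, (∀ v, β u v = 0) → u = 0) (h2 : ∀ v, (∀ u, β u v = 0) → v = 0)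
    {C A : Submodule F U} (hC : ∀ g, ∀ u ∈ C, ρ g u ∈ C)
    (ht : ∀ v w, (∀ u ∈ C, β u v = 0) → (∀ u ∈ C, β u w = 0) → (∃ u ∈ A, β u v ≠ 0) →
      (∃ u ∈ A, β u w ≠ 0) → ∃ g, σ g v = w)
    {z z' : U} (hz : z ∉ C) (hz' : z' ∉ C) (h : z - z' ∈ A) : ∃ g, ρ g z - z' ∈ C := by
  classical
  have := Fintype.ofFinite U
  have := Fintype.ofFinite V
  obtain ⟨ψ, hψ⟩ := (AddChar.exists_apply_ne_zero (α := F) (a := 1)).2 one_ne_zero
  have mul : ∀ g k u, ρ (g * k) u = ρ g (ρ k u) := fun g k u => by rw [map_mul]; rfl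
  have can : ∀ g u, ρ g⁻¹ (ρ g u) = u := fun g u => by
    rw [← mul, inv_mul_cancel, map_one]; rfl
  let f : U → ℂ := fun u => if ∃ g, ρ g u - z' ∈ C then 1 else 0
  have fΓ : ∀ g u, f (ρ g u) = f u := fun g u => if_congr
    ⟨fun ⟨k, hk⟩ => ⟨k * g, by rwa [mul]⟩, fun ⟨k, hk⟩ => ⟨k * g⁻¹, by rwa [mul, can]⟩⟩ rfl rfl
  have fC : ∀ c ∈ C, ∀ u, f (u + c) = f u := fun c hc u => if_congr
    (exists_congr fun g => by
      rw [map_add, add_sub_right_comm, C.add_mem_iff_left (hC g c hc)]) rfl rfl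
  let fh : V → ℂ := fun v => ∑ u, f u * ψ (β u v)
  have hΓ : ∀ g v, fh (σ g v) = fh v := fun g v => by
    have b : Function.Bijective (ρ g) := Finite.injective_iff_bijective.1
      (Function.LeftInverse.injective (can g))
    change ∑ u, f u * ψ (β u (σ g v)) = ∑ u, f u * ψ (β u v)
    rw [← b.sum_comp]
    exact Finset.sum_congr rfl fun u _ => by rw [fΓ, hβ]
  have h0 : ∀ v, ¬ (∀ u ∈ C, β u v = 0) → fh v = 0 := fun v hv => by
    push Not at hv
    obtain ⟨c, hc, hv⟩ := hv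
    exact sum_zero ψ hψ (β.flip v) hv f fun a u => fC _ (C.smul_mem a hc) u
  have inv : ∀ u, ∑ v, fh v * ψ (β (-u) v) = Fintype.card V * f u := fun u => by
    have e : ∀ v, fh v * ψ (β (-u) v) = ∑ w, f w * ψ (β (w - u) v) := fun v => by
      rw [Finset.sum_mul]
      refine Finset.sum_congr rfl fun w _ => ?_
      rw [mul_assoc, ← AddChar.map_add_eq_mul, sub_eq_add_neg, map_add β, LinearMap.add_apply]
    rw [Finset.sum_congr rfl fun v _ => e v, Finset.sum_comm, Finset.sum_eq_single u]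
    · simp
    · intro w _ hw
      obtain ⟨v, hv⟩ : ∃ v, β (w - u) v ≠ 0 := by
        by_contra! e
        exact hw (sub_eq_zero.1 (h1 _ e))
      exact sum_zero ψ hψ (β (w - u)) hv (fun _ => f w) fun _ _ => rfl
    · simp
  obtain ⟨κ, hκ⟩ : ∃ κ : ℂ, ∀ v, (∀ u ∈ C, β u v = 0) → (∃ u ∈ A, β u v ≠ 0) → fh v = κ := by
    by_cases e : ∃ v, (∀ u ∈ C, β u v = 0) ∧ ∃ u ∈ A, β u v ≠ 0
    · obtain ⟨w, w1, w2⟩ := e
      refine ⟨fh w, fun v v1 v2 => ?_⟩
      obtain ⟨g, rfl⟩ := ht v w v1 w1 v2 w2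
      exact (hΓ g v).symm
    · exact ⟨0, fun v v1 v2 => (e ⟨v, v1, v2⟩).elim⟩
  let i : V → ℂ := fun v => if ∀ u ∈ C, β u v = 0 then κ else 0
  have hi : ∀ u, u ∉ C → ∑ v, i v * ψ (β (-u) v) = 0 := fun u hu => by
    obtain ⟨c, c1, c2⟩ := exists_perp β h1 h2 (C := C) (z := -u) (by rwa [neg_mem_iff])
    refine sum_zero ψ hψ (β (-u)) c2 i fun a v => if_congr (forall₂_congr fun w hw => ?_) rfl rfl
    rw [map_add, map_smul, c1 w hw, smul_zero, add_zero]
  have key : ∀ v, fh v * ψ (β (-z) v) - fh v * ψ (β (-z') v) =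
      i v * ψ (β (-z) v) - i v * ψ (β (-z') v) := fun v => by
    by_cases v1 : ∀ u ∈ C, β u v = 0
    · by_cases v2 : ∃ u ∈ A, β u v ≠ 0
      · rw [hκ v v1 v2, show i v = κ from if_pos v1]
      · push Not at v2
        have e : β (-z) v = β (-z') v := by
          have := v2 _ h
          rw [map_sub, LinearMap.sub_apply, sub_eq_zero] at this
          rw [map_neg, map_neg, LinearMap.neg_apply, LinearMap.neg_apply, this]
        rw [e, sub_self, sub_self]
    · rw [h0 v v1, show i v = 0 from if_neg v1]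
  have fin := Finset.sum_congr (s₁ := Finset.univ) rfl fun v _ => key v
  rw [Finset.sum_sub_distrib, Finset.sum_sub_distrib, inv, inv, hi z hz, hi z' hz', sub_self,
    sub_eq_zero, mul_right_inj' (Nat.cast_ne_zero.2 Fintype.card_ne_zero),
    show f z' = 1 from if_pos ⟨1, by rw [map_one, Module.End.one_apply, sub_self]; exact C.zero_mem⟩]
    at fin
  by_contra e
  exact zero_ne_one ((show f z = 0 from if_neg e).symm.trans fin)

end Cfsg.Agent.S7
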