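import Mathlib
import Cfsg.Agent.S7.Defs
import Cfsg.Agent.S7.Four

set_option autoImplicit false

namespace Cfsg.Agent.S7

open Matrix Cfsg.Geo Cfsg.Agent.Cl.D5 Module
open scoped MatrixGroups ComplexConjugate commutatorElement

variable {F : Type*} [Field F] [Fintype F]

local notation "M7" => Matrix (Fin 7) (Fin 7) F
local notation "SL7" => specialLinear (Fin 7) F
local notation "Z7" => scalars (Fin 7) F
local notation "GL7" => GL (Fin 7) F

/-- an element of `G` with eigenvectors `e`, `f` translating `x` -/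
def CK2P (G : Subgroup GL7) (e f x : Fin 7 → F) (s t μ : F) : Prop :=
  ∃ g ∈ G, (g : M7) *ᵥ e = s • e ∧ (g : M7) *ᵥ f = t • f ∧
    ∃ ν : F, (g : M7) *ᵥ x = x + μ • f + ν • e

omit [Fintype F] in
theorem CK2_inv_smul {g : GL7} {e : Fin 7 → F} {s : F} (he : e ≠ 0) (h : (g : M7) *ᵥ e = s • e) :
    s ≠ 0 ∧ ((g⁻¹ : GL7) : M7) *ᵥ e = s⁻¹ • e := by
  have h1 : s • ((g⁻¹ : GL7) : M7) *ᵥ e = e := by
    rw [← mulVec_smul, ← h, mulVec_mulVec, Units.inv_mul, one_mulVec]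
  have hs : s ≠ 0 := by
    rintro rfl
    exact he (by rw [← h1, zero_smul])
  refine ⟨hs, ?_⟩
  conv_rhs => rw [← h1]
  rw [inv_smul_smul₀ hs]

omit [Fintype F] in
theorem CK2P.mul {G : Subgroup GL7} {e f x : Fin 7 → F} {s t μ s' t' μ' : F}
    (h : CK2P G e f x s t μ) (h' : CK2P G e f x s' t' μ') :
    CK2P G e f x (s * s') (t * t') (μ + t * μ') := by
  obtain ⟨g, hg, h1, h2, ν, h3⟩ := h
  obtain ⟨g', hg', h1', h2', ν', h3'⟩ := h'
  refine ⟨g * g', mul_mem hg hg', ?_, ?_, ν + s * ν', ?_⟩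
  · rw [Units.val_mul, ← mulVec_mulVec, h1', mulVec_smul, h1, smul_smul, mul_comm]
  · rw [Units.val_mul, ← mulVec_mulVec, h2', mulVec_smul, h2, smul_smul, mul_comm]
  · rw [Units.val_mul, ← mulVec_mulVec, h3', mulVec_add, mulVec_add, mulVec_smul, mulVec_smul,
      h1, h2, h3]
    module

omit [Fintype F] in
theorem CK2P.inv {G : Subgroup GL7} {e f x : Fin 7 → F} {s t μ : F} (he : e ≠ 0) (hf : f ≠ 0)
    (h : CK2P G e f x s t μ) : s ≠ 0 ∧ t ≠ 0 ∧ CK2P G e f x s⁻¹ t⁻¹ (-(t⁻¹ * μ)) := by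
  obtain ⟨g, hg, h1, h2, ν, h3⟩ := h
  obtain ⟨hs, i1⟩ := CK2_inv_smul he h1
  obtain ⟨ht, i2⟩ := CK2_inv_smul hf h2
  refine ⟨hs, ht, g⁻¹, inv_mem hg, i1, i2, -(s⁻¹ * ν), ?_⟩
  have h4 : ((g⁻¹ : GL7) : M7) *ᵥ ((g : M7) *ᵥ x) = x := by
    rw [mulVec_mulVec, Units.inv_mul, one_mulVec]
  rw [h3, mulVec_add, mulVec_add, mulVec_smul, mulVec_smul, i1, i2] at h4
  conv_rhs => rw [← h4]
  module

theorem CK2P.all {G : Subgroup GL7} {e f x : Fin 7 → F} (he : e ≠ 0) (hf : f ≠ 0)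
    (h : ∀ μ, ∃ s t, CK2P G e f x s t μ) (μ : F) : CK2P G e f x 1 1 μ := by
  by_cases h1 : ∃ s t μ, t ≠ 1 ∧ CK2P G e f x s t μ
  · obtain ⟨s0, t0, μ0, ht, h0⟩ := h1
    have ht' : 1 - t0 ≠ 0 := sub_ne_zero.2 ht.symm
    obtain ⟨s1, t1, p1⟩ := h (μ0 / (1 - t0))
    obtain ⟨hs1, ht1, i1⟩ := p1.inv he hf
    have g0 : CK2P G e f x s0 t0 0 := by
      convert (i1.mul h0).mul p1 using 1 <;> field_simp
      ring
    obtain ⟨hs0, ht0, i0⟩ := g0.inv he hf
    obtain ⟨s2, t2, p2⟩ := h (μ / (1 - t0))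
    obtain ⟨hs2, ht2, i2⟩ := p2.inv he hf
    convert ((p2.mul g0).mul i2).mul i0 using 1 <;> field_simp
    ring
  · push Not at h1
    obtain ⟨s, t, p⟩ := h (-μ)
    obtain rfl : t = 1 := by
      by_contra ht
      exact h1 s t _ ht p
    have hp : ∀ n : ℕ, CK2P G e f x (s ^ n) 1 (n * -μ) := fun n => by
      induction n with
      | zero => exact ⟨1, one_mem _, by simp, by simp, 0, by simp⟩
      | succ n ih =>
        convert ih.mul p using 1
        · rw [pow_succ]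
        · simp
        · push_cast; ring
    have := hp (Fintype.card F - 1)
    rw [FiniteField.pow_card_sub_one_eq_one s (p.inv he hf).1,
      Nat.cast_sub Fintype.card_pos, FiniteField.cast_card_eq_zero] at this
    simpa using this

theorem Tri.ck2 {G : Subgroup GL7} (h : Tri G) (hZ : Z7 ≤ G) {e f x : Fin 7 → F} (hef : Ind2 e f)
    (hx : x ∉ sp e f) (μ : F) : ∃ s t, CK2P G e f x s t μ := by
  have he : e ≠ 0 := by
    rintro rfl
    exact one_ne_zero (hef 1 0 (by simp)).1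
  have hf : f ≠ 0 := by
    rintro rfl
    exact one_ne_zero (hef 0 1 (by simp)).2
  let Γ : Subgroup GL7 :=
    { carrier := {g | g ∈ G ∧ (∃ s : F, (g : M7) *ᵥ e = s • e) ∧ ∃ t : F, (g : M7) *ᵥ f = t • f}
      one_mem' := ⟨one_mem _, ⟨1, by simp⟩, 1, by simp⟩
      mul_mem' := by
        rintro g g' ⟨g0, ⟨s, g1⟩, t, g2⟩ ⟨g0', ⟨s', g1'⟩, t', g2'⟩
        exact ⟨mul_mem g0 g0',
          ⟨s' * s, by rw [Units.val_mul, ← mulVec_mulVec, g1', mulVec_smul, g1, smul_smul]⟩,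
          t' * t, by rw [Units.val_mul, ← mulVec_mulVec, g2', mulVec_smul, g2, smul_smul]⟩
      inv_mem' := by
        rintro g ⟨g0, ⟨s, g1⟩, t, g2⟩
        exact ⟨inv_mem g0, ⟨_, (CK2_inv_smul he g1).2⟩, _, (CK2_inv_smul hf g2).2⟩ }
  let ρ : Γ →* Module.End F (Fin 7 → F) :=
    { toFun := fun g => Matrix.mulVecLin ((g : GL7) : M7)
      map_one' := LinearMap.ext fun v => by simp
      map_mul' := fun g g' => LinearMap.ext fun v => by simp }
  let σ : Γ →* Module.End F (Fin 7 → F) :=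
    { toFun := fun g => Matrix.vecMulLinear (((g : GL7)⁻¹ : GL7) : M7)
      map_one' := LinearMap.ext fun v => by simp
      map_mul' := fun g g' => LinearMap.ext fun v => by
        rw [Module.End.mul_apply, vecMulLinear_apply, vecMulLinear_apply, vecMulLinear_apply,
          vecMul_vecMul, Subgroup.coe_mul, _root_.mul_inv_rev, Units.val_mul] }
  let β : (Fin 7 → F) →ₗ[F] (Fin 7 → F) →ₗ[F] F :=
    LinearMap.mk₂ F (fun u η => η ⬝ᵥ u) (fun _ _ _ => dotProduct_add _ _ _)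
      (fun _ _ _ => dotProduct_smul _ _ _) (fun _ _ _ => add_dotProduct _ _ _)
      (fun _ _ _ => smul_dotProduct _ _ _)
  have hb : ∀ u η, β u η = η ⬝ᵥ u := fun _ _ => rfl
  have hρ : ∀ (g : Γ) u, ρ g u = ((g : GL7) : M7) *ᵥ u := fun _ _ => rfl
  have hσ : ∀ (g : Γ) η, σ g η = η ᵥ* (((g : GL7)⁻¹ : GL7) : M7) := fun _ _ => rfl
  have le : Submodule.span F {e} ≤ sp e f := Submodule.span_mono (by simp)
  have fm : μ • f ∈ sp e f := Submodule.smul_mem _ _ (Submodule.subset_span (by simp))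
  obtain ⟨⟨g, g0, ⟨s, g1⟩, t, g2⟩, hg⟩ := four ρ σ β (fun g u η => by
      rw [hb, hb, hρ, hσ, dotProduct_mulVec, vecMul_vecMul, Units.inv_mul, vecMul_one])
    (fun u hu => funext fun i => by simpa [hb] using hu (Pi.single i 1))
    (fun η hη => funext fun i => by simpa [hb] using hη (Pi.single i 1))
    (C := Submodule.span F {e}) (A := sp e f) (z := x) (z' := x + μ • f) (by
      rintro ⟨g, g0, ⟨s, g1⟩, g2⟩ u hu
      obtain ⟨c, rfl⟩ := Submodule.mem_span_singleton.1 hu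
      rw [hρ, mulVec_smul, g1, smul_smul]
      exact Submodule.mem_span_singleton.2 ⟨_, rfl⟩) (by
      rintro v w hv hw ⟨u, hu, hu'⟩ ⟨u', hu1, hu1'⟩
      have v0 : v ⬝ᵥ e = 0 := hv e (Submodule.mem_span_singleton_self e)
      have w0 : w ⬝ᵥ e = 0 := hw e (Submodule.mem_span_singleton_self e)
      have nz : ∀ y : Fin 7 → F, y ⬝ᵥ e = 0 → ∀ u ∈ sp e f, β u y ≠ 0 → y ⬝ᵥ f ≠ 0 := by
        intro y y0 u hu h1 h2
        obtain ⟨c, d, rfl⟩ := Submodule.mem_span_pair.1 hu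
        exact h1 (by rw [hb, dotProduct_add, dotProduct_smul, dotProduct_smul, y0, h2]; simp)
      have v1 := nz v v0 u hu hu'
      have w1 := nz w w0 u' hu1 hu1'
      obtain ⟨g, g0, ⟨s, g1⟩, g2, g3⟩ := h e f ((w ⬝ᵥ f)⁻¹ • w) ((v ⬝ᵥ f)⁻¹ • v) he
        (by rw [smul_dotProduct, w0, smul_zero]) (by rw [smul_dotProduct, v0, smul_zero])
        (by rw [smul_dotProduct, smul_eq_mul, inv_mul_cancel₀ w1])
        (by rw [smul_dotProduct, smul_eq_mul, inv_mul_cancel₀ v1])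
      let c : Fˣ := Units.mk0 (v ⬝ᵥ f / (w ⬝ᵥ f)) (div_ne_zero v1 w1)
      obtain ⟨k, hk, hk'⟩ : ∃ k ∈ Z7, (k : M7) = (c : F) • (1 : M7) :=
        ⟨_, ⟨c, rfl⟩, by simp [Matrix.smul_one_eq_diagonal]⟩
      have hkg : ((k * g : GL7) : M7) = (c : F) • (g : M7) := by
        rw [Units.val_mul, hk', smul_mul_assoc, one_mul]
      refine ⟨⟨k * g, mul_mem (hZ hk) g0, ⟨c * s, ?_⟩, c, ?_⟩, ?_⟩
      · rw [hkg, smul_mulVec, g1, smul_smul]
      · rw [hkg, smul_mulVec, g2]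
      · have e1 : w ᵥ* ((k * g : GL7) : M7) = v := by
          rw [smul_vecMul] at g3
          rw [hkg, vecMul_smul, show (c : F) = (v ⬝ᵥ f) * (w ⬝ᵥ f)⁻¹ from div_eq_mul_inv _ _,
            mul_smul, g3, smul_inv_smul₀ v1]
        rw [hσ, ← e1, vecMul_vecMul, Units.mul_inv, vecMul_one])
    (fun e1 => hx (le e1)) (fun e1 => hx (by simpa using sub_mem (le e1) fm))
    (by simpa using fm)
  obtain ⟨ν, hν⟩ := Submodule.mem_span_singleton.1 hg
  refine ⟨s, t, g, g0, g1, g2, ν, ?_⟩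
  rw [hν, hρ]
  simp

theorem Tri.tr {G : Subgroup GL7} (h : Tri G) (hZ : Z7 ≤ G) : Tr G := by
  intro a b x hab hx u hu
  classical
  let A : AddSubgroup (Fin 7 → F) :=
    { carrier := {u | ∃ g ∈ G, (g : M7) *ᵥ a = a ∧ (g : M7) *ᵥ b = b ∧ (g : M7) *ᵥ x = x + u ∧
        u ∈ sp a b}
      zero_mem' := ⟨1, one_mem _, by simp, by simp, by simp, zero_mem _⟩
      add_mem' := by
        rintro u u' ⟨g, g0, g1, g2, g3, g4⟩ ⟨g', g0', g1', g2', g3', g4'⟩
        obtain ⟨c, d, rfl⟩ := Submodule.mem_span_pair.1 g4'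
        refine ⟨g * g', mul_mem g0 g0', ?_, ?_, ?_, add_mem g4 g4'⟩
        · rw [Units.val_mul, ← mulVec_mulVec, g1', g1]
        · rw [Units.val_mul, ← mulVec_mulVec, g2', g2]
        · rw [Units.val_mul, ← mulVec_mulVec, g3', mulVec_add, mulVec_add, mulVec_smul,
            mulVec_smul, g1, g2, g3, add_assoc]
      neg_mem' := by
        rintro u ⟨g, g0, g1, g2, g3, g4⟩
        obtain ⟨c, d, rfl⟩ := Submodule.mem_span_pair.1 g4
        obtain ⟨-, i1, i2⟩ : g⁻¹ ∈ fix2 G a b := inv_mem (show g ∈ fix2 G a b from ⟨g0, g1, g2⟩)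
        refine ⟨g⁻¹, inv_mem g0, i1, i2, ?_, neg_mem g4⟩
        have h4 : ((g⁻¹ : GL7) : M7) *ᵥ ((g : M7) *ᵥ x) = x := by
          rw [mulVec_mulVec, Units.inv_mul, one_mulVec]
        rw [g3, mulVec_add, mulVec_add, mulVec_smul, mulVec_smul, i1, i2] at h4
        conv_rhs => rw [← h4]
        abel }
  by_contra hn
  have huA : ((u : Fin 7 → F) : (Fin 7 → F) ⧸ A) ≠ 0 := fun e => by
    obtain ⟨g, g0, g1, g2, g3, -⟩ := (QuotientAddGroup.eq_zero_iff u).1 e
    exact hn ⟨g, g0, g1, g2, g3⟩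
  obtain ⟨ψ, hψ⟩ := AddChar.exists_apply_ne_zero.2 huA
  let Φ : F × F → AddChar F ℂ := fun p => ψ.compAddMonoidHom ((QuotientAddGroup.mk' A).comp
    ((LinearMap.toSpanSingleton F _ (p.1 • a + p.2 • b)).toAddMonoidHom))
  have hΦ : ∀ p c, Φ p c = ψ ((c • (p.1 • a + p.2 • b) : Fin 7 → F) : (Fin 7 → F) ⧸ A) :=
    fun _ _ => rfl
  obtain ⟨p, p', hp, hpp⟩ := Fintype.exists_ne_map_eq_of_card_lt Φ (by
    rw [AddChar.card_eq, Fintype.card_prod]
    exact lt_mul_self Fintype.one_lt_card)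
  obtain ⟨s, t, hst, hk⟩ : ∃ s t : F, (s ≠ 0 ∨ t ≠ 0) ∧
      ∀ c : F, ψ ((c • (s • a + t • b) : Fin 7 → F) : (Fin 7 → F) ⧸ A) = 1 := by
    refine ⟨p.1 - p'.1, p.2 - p'.2, ?_, fun c => ?_⟩
    · by_contra h0
      push Not at h0
      exact hp (Prod.ext (sub_eq_zero.1 h0.1) (sub_eq_zero.1 h0.2))
    · have e1 : c • ((p.1 - p'.1) • a + (p.2 - p'.2) • b) =
          c • (p.1 • a + p.2 • b) - c • (p'.1 • a + p'.2 • b) := by module
      rw [e1, QuotientAddGroup.mk_sub, AddChar.map_sub_eq_div, ← hΦ, ← hΦ, hpp]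
      exact div_self (AddChar.val_isUnit _ _).ne_zero
  obtain ⟨u1, u2, rfl⟩ := Submodule.mem_span_pair.1 hu
  by_cases hD : s * u2 - t * u1 = 0
  · apply hψ
    rcases hst with h0 | h0
    · rw [← hk (u1 / s)]
      congr 2
      have : u2 = u1 / s * t := by field_simp; linear_combination hD
      rw [this, smul_add, smul_smul, smul_smul, div_mul_cancel₀ _ h0]
    · rw [← hk (u2 / t)]
      congr 2
      have : u1 = u2 / t * s := by field_simp; linear_combination -hD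
      rw [this, smul_add, smul_smul, smul_smul, div_mul_cancel₀ _ h0]
  have am : a ∈ sp a b := Submodule.subset_span (by simp)
  have bm : b ∈ sp a b := Submodule.subset_span (by simp)
  have em : s • a + t • b ∈ sp a b := add_mem (Submodule.smul_mem _ _ am) (Submodule.smul_mem _ _ bm)
  have hI : Ind2 (s • a + t • b) (u1 • a + u2 • b) := fun c d e => by
    obtain ⟨e1, e2⟩ := hab (c * s + d * u1) (c * t + d * u2) (by rw [← e]; module)
    exact ⟨(mul_eq_zero.1 (show c * (s * u2 - t * u1) = 0 by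
      linear_combination u2 * e1 - u1 * e2)).resolve_right hD,
      (mul_eq_zero.1 (show d * (s * u2 - t * u1) = 0 by
      linear_combination s * e2 - t * e1)).resolve_right hD⟩
  have hx' : x ∉ sp (s • a + t • b) (u1 • a + u2 • b) := fun e => hx (Submodule.span_le.2 (by
    rintro y (rfl | rfl)
    exacts [em, hu]) e)
  obtain ⟨g, g0, g1, g2, ν, g3⟩ := CK2P.all (by
      intro e; exact one_ne_zero (hI 1 0 (by simp [e])).1) (by
      intro e; exact one_ne_zero (hI 0 1 (by simp [e])).2) (h.ck2 hZ hI hx') 1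
  rw [one_smul] at g1 g2 g3
  have ea : a = (s * u2 - t * u1)⁻¹ • (u2 • (s • a + t • b) - t • (u1 • a + u2 • b)) := by
    rw [eq_inv_smul_iff₀ hD]; module
  have eb : b = (s * u2 - t * u1)⁻¹ • (s • (u1 • a + u2 • b) - u1 • (s • a + t • b)) := by
    rw [eq_inv_smul_iff₀ hD]; module
  have hm : u1 • a + u2 • b + ν • (s • a + t • b) ∈ A := by
    refine ⟨g, g0, ?_, ?_, by rw [g3, add_assoc], add_mem hu (Submodule.smul_mem _ _ em)⟩
    · conv_lhs => rw [ea, mulVec_smul, mulVec_sub, mulVec_smul, mulVec_smul, g1, g2, ← ea]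
    · conv_lhs => rw [eb, mulVec_smul, mulVec_sub, mulVec_smul, mulVec_smul, g1, g2, ← eb]
  have h0 := (QuotientAddGroup.eq_zero_iff _).2 hm
  have h1 := congrArg ψ h0
  rw [QuotientAddGroup.mk_add, AddChar.map_add_eq_mul, hk, mul_one, AddChar.map_zero_eq_one] at h1
  exact hψ h1

end Cfsg.Agent.S7
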