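import Mathlib
import Cfsg.Agent.S7.Defs

set_option autoImplicit false

namespace Cfsg.Agent.S7

open Matrix Cfsg.Geo Cfsg.Agent.Cl.D5 Module
open scoped MatrixGroups ComplexConjugate commutatorElement

namespace DegAux

open Polynomial

variable {F : Type*} [Field F] {A B : Type*} [AddCommGroup A] [AddCommGroup B]

/-- all `d`-fold differences vanish -/
def DegLt : ℕ → (A → F) → Prop
  | 0, φ => ∀ t, φ t = 0
  | d + 1, φ => ∀ s, DegLt d fun t => φ (t + s) - φ t

theorem DegLt.congr {d : ℕ} {φ ψ : A → F} (h : DegLt d φ) (e : ∀ t, ψ t = φ t) : DegLt d ψ :=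
  (funext e : ψ = φ) ▸ h

theorem degLt_of_zero (d : ℕ) {φ : A → F} (h : ∀ t, φ t = 0) : DegLt d φ := by
  induction d generalizing φ with
  | zero => exact h
  | succ d ih => exact fun s => ih fun t => by rw [h, h, sub_zero]

theorem DegLt.add {d : ℕ} {φ ψ : A → F} (h1 : DegLt d φ) (h2 : DegLt d ψ) :
    DegLt d fun t => φ t + ψ t := by
  induction d generalizing φ ψ with
  | zero =>
    exact fun t => show φ t + ψ t = 0 by rw [show φ t = 0 from h1 t, show ψ t = 0 from h2 t, add_zero]
  | succ d ih => exact fun s => (ih (h1 s) (h2 s)).congr fun t => by ring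

theorem DegLt.sub {d : ℕ} {φ ψ : A → F} (h1 : DegLt d φ) (h2 : DegLt d ψ) :
    DegLt d fun t => φ t - ψ t := by
  induction d generalizing φ ψ with
  | zero =>
    exact fun t => show φ t - ψ t = 0 by rw [show φ t = 0 from h1 t, show ψ t = 0 from h2 t, sub_zero]
  | succ d ih => exact fun s => (ih (h1 s) (h2 s)).congr fun t => by ring

theorem DegLt.comp {d : ℕ} {φ : A → F} (h : DegLt d φ) (f : B →+ A) (u : A) :
    DegLt d fun t => φ (f t + u) := by
  induction d generalizing φ with
  | zero => exact fun t => h _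
  | succ d ih =>
    exact fun s => (ih (h (f s))).congr fun t => by
      change φ (f (t + s) + u) - φ (f t + u) = _
      rw [map_add, add_right_comm]

theorem DegLt.mono {d e : ℕ} {φ : A → F} (h : DegLt d φ) (he : d ≤ e) : DegLt e φ := by
  induction d generalizing φ e with
  | zero => exact degLt_of_zero _ h
  | succ d ih =>
    obtain ⟨e, rfl⟩ : ∃ k, e = k + 1 := ⟨e - 1, by omega⟩
    exact fun s => ih (h s) (by omega)

theorem degLt_prod (m : ℕ) : ∀ (i j : ℕ) (Φ : A → B → F), i + j ≤ m + 1 →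
    (∀ b, DegLt i (Φ · b)) → (∀ a, DegLt j (Φ a)) → DegLt m fun p : A × B => Φ p.1 p.2 := by
  induction m with
  | zero =>
    intro i j Φ h h1 h2 p
    rcases i with _ | i
    · exact h1 _ _
    obtain rfl : j = 0 := by omega
    exact h2 _ _
  | succ m ih =>
    intro i j Φ h h1 h2
    rcases i with _ | i
    · exact degLt_of_zero _ fun p => h1 _ _
    rcases j with _ | j
    · exact degLt_of_zero _ fun p => h2 _ _
    intro s
    have e1 := ih i (j + 1) (fun a b => Φ (a + s.1) (b + s.2) - Φ a (b + s.2)) (by omega)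
      (fun b => h1 _ _) fun a =>
        ((h2 _).comp (AddMonoidHom.id B) s.2).sub ((h2 _).comp (AddMonoidHom.id B) s.2)
    have e2 := ih (i + 1) j (fun a b => Φ a (b + s.2) - Φ a b) (by omega)
      (fun b => (h1 _).sub (h1 _)) fun a => h2 _ _
    exact (e1.add e2).congr fun t => (sub_add_sub_cancel _ _ _).symm

variable (F) in
/-- the shift operator -/
def sh (s : A) : Module.End F (A → F) := LinearMap.funLeft F F (· + s)

theorem sh_pow (s : A) (j : ℕ) (φ : A → F) (t : A) : (sh F s ^ j) φ t = φ (t + j • s) := by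
  induction j generalizing φ with
  | zero => simp
  | succ j ih =>
    rw [pow_succ, Module.End.mul_apply, ih, succ_nsmul, ← add_assoc]
    rfl

theorem DegLt.pow {d : ℕ} (s : A) (k : ℕ) {φ : A → F} (h : DegLt (d + k) φ) :
    DegLt d (((sh F s - 1) ^ k) φ) := by
  induction k generalizing φ with
  | zero => exact h
  | succ k ih =>
    rw [pow_succ, Module.End.mul_apply]
    exact ih (h s)

theorem degLt_of_pow (g : A) (hg : ∀ s, ∃ j : ℕ, s = j • g) (d : ℕ) {φ : A → F}
    (h : ((sh F g - 1) ^ d) φ = 0) : DegLt d φ := by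
  induction d generalizing φ with
  | zero => exact fun t => congrFun h t
  | succ d ih =>
    intro s
    obtain ⟨j, rfl⟩ := hg s
    have e1 : (fun t => φ (t + j • g) - φ t) = (sh F g ^ j - 1) φ := by
      funext t
      rw [LinearMap.sub_apply, Pi.sub_apply, sh_pow]
      rfl
    have e2 : ((X : F[X]) - 1) ^ d * (X ^ j - 1) =
        (∑ i ∈ Finset.range j, X ^ i) * (X - 1) ^ (d + 1) := by
      rw [← geom_sum_mul]; ring
    have e3 := congrArg (aeval (sh F g)) e2
    simp only [map_mul, map_pow, map_sub, aeval_X, map_one] at e3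
    refine ih ?_
    rw [e1, ← Module.End.mul_apply, e3, Module.End.mul_apply, h, map_zero]

variable (p : ℕ) [hp : Fact p.Prime] [CharP F p]

theorem zmod_all (φ : ZMod p → F) : DegLt p φ := by
  refine degLt_of_pow (1 : ZMod p) (fun s => ⟨s.val, by simp⟩) p ?_
  have e2 : ((X : F[X]) - 1) ^ p = X ^ p - 1 := by rw [sub_pow_char, one_pow]
  have e3 := congrArg (aeval (sh F (1 : ZMod p))) e2
  simp only [map_pow, map_sub, aeval_X, map_one] at e3
  funext t
  rw [e3, LinearMap.sub_apply, Pi.sub_apply, sh_pow]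
  simp

theorem pi_all (k : ℕ) (φ : (Fin k → ZMod p) → F) : DegLt (k * (p - 1) + 1) φ := by
  induction k with
  | zero =>
    rw [zero_mul]
    exact fun s t => show φ (t + s) - φ t = 0 by rw [Subsingleton.elim (t + s) t, sub_self]
  | succ k ih =>
    have h1 := hp.out.two_le
    let e := Fin.consLinearEquiv (ZMod p) fun _ : Fin (k + 1) => ZMod p
    have h2 := degLt_prod ((k + 1) * (p - 1) + 1) p (k * (p - 1) + 1) (fun a b => φ (e (a, b)))
      (by rw [Nat.succ_mul]; omega) (fun b => zmod_all p _) fun a => ih _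
    exact (h2.comp e.symm.toLinearMap.toAddMonoidHom 0).congr fun t => by simp

theorem geom_sh (s : A) (φ : A → F) (t : A) :
    ((sh F s - 1) ^ (p - 1)) φ t = ∑ j ∈ Finset.range p, φ (t + j • s) := by
  have h1 := hp.out.two_le
  have e2 : ((X : F[X]) - 1) ^ (p - 1) = ∑ j ∈ Finset.range p, X ^ j := by
    refine mul_right_cancel₀ (b := X - 1) (X_sub_C_ne_zero 1) ?_
    rw [geom_sum_mul, ← pow_succ, Nat.sub_add_cancel (by omega), sub_pow_char, one_pow]
  have e3 := congrArg (aeval (sh F s)) e2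
  simp only [map_pow, map_sub, aeval_X, map_one, map_sum] at e3
  rw [e3, LinearMap.sum_apply, Finset.sum_apply]
  exact Finset.sum_congr rfl fun j _ => sh_pow _ _ _ _

theorem pi_sum (n : ℕ) (φ : (Fin n → ZMod p) → F) (h : DegLt (n * (p - 1)) φ) :
    ∑ t, φ t = 0 := by
  induction n with
  | zero =>
    rw [zero_mul] at h
    exact Finset.sum_eq_zero fun t _ => h t
  | succ n ih =>
    let e := Fin.consLinearEquiv (ZMod p) fun _ : Fin (n + 1) => ZMod p
    rw [Nat.succ_mul] at h
    have h1 := ih _ ((h.pow (e (1, 0)) (p - 1)).comp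
      (e.toLinearMap.toAddMonoidHom.comp (AddMonoidHom.inr _ _)) 0)
    rw [← h1, ← Equiv.sum_comp e.toEquiv, Fintype.sum_prod_type_right]
    refine Finset.sum_congr rfl fun b _ => ?_
    rw [geom_sh p]
    refine (Finset.sum_nbij' (fun j : ℕ => (j : ZMod p)) (fun a : ZMod p => a.val) (fun _ _ => Finset.mem_univ _)
      (fun a _ => Finset.mem_range.mpr (ZMod.val_lt a))
      (fun j hj => ZMod.val_cast_of_lt (Finset.mem_range.mp hj))
      (fun a _ => ZMod.natCast_zmod_val a) fun j _ => ?_).symm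
    congr 1
    change e (0, b) + 0 + j • e (1, 0) = e ((j : ZMod p), b)
    rw [add_zero, ← map_nsmul, ← map_add]
    simp

omit [CharP F p] in
theorem equiv_pi [Finite F] [Algebra (ZMod p) F] (B : Type*) [AddCommGroup B] [Module F B]
    [Finite B] : Nonempty (B ≃+ (Fin (finrank (ZMod p) F * finrank F B) → ZMod p)) := by
  let : Module (ZMod p) B := Module.compHom B (algebraMap (ZMod p) F)
  have : IsScalarTower (ZMod p) F B := ⟨fun a b c => by rw [Algebra.smul_def, mul_smul]; rfl⟩
  rw [Module.finrank_mul_finrank]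
  exact ⟨(Module.finBasis (ZMod p) B).equivFun.toAddEquiv⟩

theorem degLt_of_inv [Finite F] [Algebra (ZMod p) F] {V : Type*} [AddCommGroup V] [Module F V]
    [Finite V] {c : ℕ} (φ : V → F) (A : Submodule F V) (hA : finrank F V ≤ finrank F A + c)
    (h : ∀ u ∈ A, ∀ x, φ (x + u) = φ x) : DegLt (finrank (ZMod p) F * c * (p - 1) + 1) φ := by
  have h1 := A.finrank_quotient_add_finrank
  have h2 : finrank F (V ⧸ A) ≤ c := by omega
  have : Finite (V ⧸ A) := Finite.of_surjective _ A.mkQ_surjective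
  obtain ⟨e⟩ := equiv_pi (F := F) p (V ⧸ A)
  have h3 := (pi_all p _ fun y => φ (e.symm y).out).comp
    (e.toAddMonoidHom.comp A.mkQ.toAddMonoidHom) 0
  refine (h3.congr fun t => ?_).mono (by gcongr)
  have h4 : (A.mkQ t).out - t ∈ A :=
    (Submodule.Quotient.eq A).mp (Quotient.out_eq' (A.mkQ t))
  rw [← h _ h4 t, add_sub_cancel]
  simp

end DegAux

open DegAux in
theorem deg_sum {F U V : Type*} [Field F] [Finite F] [AddCommGroup U] [Module F U] [Fintype U]
    [AddCommGroup V] [Module F V] [Finite V] {c : ℕ} (Ψ : V → V → V → F)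
    (h12 : ∀ a b x, Ψ a b x = Ψ b a x) (h23 : ∀ a b x, Ψ a b x = Ψ a x b)
    (h : ∀ a b, ∃ A : Submodule F V, finrank F V ≤ finrank F A + c ∧
      ∀ u ∈ A, ∀ x, Ψ a b (x + u) = Ψ a b x)
    (f₁ f₂ f₃ : U →ₗ[F] V) (hc : 3 * c < finrank F U) : ∑ t, Ψ (f₁ t) (f₂ t) (f₃ t) = 0 := by
  obtain ⟨p, hp⟩ := CharP.exists F
  have : Fact p.Prime := ⟨CharP.char_is_prime F p⟩
  let : Algebra (ZMod p) F := ZMod.algebra F p
  have h1 := (Fact.out : p.Prime).two_le
  have h2 : 0 < finrank (ZMod p) F := finrank_pos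
  set D := finrank (ZMod p) F * c * (p - 1) with hD
  have d3 : ∀ a b, DegLt (D + 1) (Ψ a b) := fun a b => by
    obtain ⟨A, hA, hu⟩ := h a b
    exact degLt_of_inv p _ A hA hu
  have d := degLt_prod (3 * D + 1) (2 * D + 1) (D + 1) (fun (y : V × V) x => Ψ y.1 y.2 x)
    (by omega) (fun x => degLt_prod (2 * D + 1) (D + 1) (D + 1) (fun a b => Ψ a b x) (by omega)
      (fun b => (d3 b x).congr fun a => by rw [h12, h23]) fun a => (d3 a x).congr fun b => h23 _ _ _)
    fun y => d3 _ _
  obtain ⟨e⟩ := equiv_pi (F := F) p U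
  have h3 : 3 * D + 1 ≤ finrank (ZMod p) F * finrank F U * (p - 1) := by
    have h4 : 1 ≤ finrank (ZMod p) F * (p - 1) := Nat.mul_pos h2 (by omega)
    calc 3 * D + 1 ≤ 3 * D + finrank (ZMod p) F * (p - 1) := by omega
      _ = finrank (ZMod p) F * (3 * c + 1) * (p - 1) := by rw [hD]; ring
      _ ≤ _ := by gcongr; omega
  have h5 := pi_sum p _ _ ((d.comp ((((f₁.prod f₂).prod f₃).toAddMonoidHom).comp
    e.symm.toAddMonoidHom) 0).mono h3)
  rw [← h5, ← Equiv.sum_comp e.symm.toEquiv]
  exact Finset.sum_congr rfl fun t _ => by simp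

end Cfsg.Agent.S7
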