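import Mathlib
import Cfsg.Agent.S7.Defs

/-! Points of `PG(6, q)` fixed by a non-scalar matrix. -/

set_option autoImplicit false

namespace Cfsg.Agent.S7

open Matrix Cfsg.Geo Cfsg.Agent.Cl.D5 Module
open scoped MatrixGroups ComplexConjugate commutatorElement

variable {F : Type*} [Field F] [Fintype F]

local notation "M7" => Matrix (Fin 7) (Fin 7) F
local notation "SL7" => specialLinear (Fin 7) F
local notation "Z7" => scalars (Fin 7) F
local notation "GL7" => GL (Fin 7) F

theorem card_proj : Nat.card (Projectivization F (Fin 7 → F)) = th (Fintype.card F) := by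
  rw [Projectivization.card_of_finrank F (Fin 7 → F) (n := 7) (by simp), Nat.card_eq_fintype_card]
  simp only [Finset.sum_range_succ, Finset.range_zero, Finset.sum_empty, th]
  ring

theorem Fixp_sub (W : Submodule F (Fin 7 → F)) :
    {p : Projectivization F (Fin 7 → F) | p.rep ∈ W}.ncard ≤
      ∑ i ∈ Finset.range (finrank F W), Fintype.card F ^ i := by
  have h := Projectivization.card_of_finrank F W (n := finrank F W) rfl
  rw [Nat.card_eq_fintype_card (α := F)] at h
  rw [← h]
  have hs : {p : Projectivization F (Fin 7 → F) | p.rep ∈ W} ⊆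
      Projectivization.map W.subtype W.injective_subtype '' Set.univ := by
    intro p hp
    refine ⟨Projectivization.mk F ⟨p.rep, hp⟩ (fun e => p.rep_nonzero (congrArg Subtype.val e)),
      Set.mem_univ _, ?_⟩
    rw [Projectivization.map_mk]
    exact p.mk_rep
  refine (Set.ncard_le_ncard hs (Set.toFinite _)).trans ?_
  refine (Set.ncard_image_le (Set.toFinite _)).trans ?_
  rw [Set.ncard_univ]

theorem Fixp_num {q a b : ℕ} (hq : 1 ≤ q) (h1 : 1 ≤ a) (h6 : a ≤ 6) (hab : a + b ≤ 7) :
    ∑ i ∈ Finset.range a, q ^ i + ∑ i ∈ Finset.range b, q ^ i ≤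
      q ^ 5 + q ^ 4 + q ^ 3 + q ^ 2 + q + 2 := by
  have hb : ∑ i ∈ Finset.range b, q ^ i ≤ ∑ i ∈ Finset.range (7 - a), q ^ i :=
    Finset.sum_le_sum_of_subset (Finset.range_subset_range.2 (by omega))
  have e1 : q ^ 1 ≤ q ^ 5 := Nat.pow_le_pow_right hq (by omega)
  have e2 : q ^ 1 ≤ q ^ 4 := Nat.pow_le_pow_right hq (by omega)
  have e3 : q ^ 2 ≤ q ^ 5 := Nat.pow_le_pow_right hq (by omega)
  refine (Nat.add_le_add_left hb _).trans ?_
  interval_cases a <;>
    simp only [Finset.sum_range_succ, Finset.range_zero, Finset.sum_empty, pow_zero, pow_one,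
      Nat.reduceSub] at e1 e2 ⊢ <;> omega

/-- A non-scalar matrix fixes few points. -/
theorem card_fix_le {g : GL7} (hg : g ∉ Z7) :
    Nat.card {p : Projectivization F (Fin 7 → F) // ∃ c : F, (g : M7) *ᵥ p.rep = c • p.rep} ≤
      Fintype.card F ^ 5 + Fintype.card F ^ 4 + Fintype.card F ^ 3 + Fintype.card F ^ 2 +
        Fintype.card F + 2 := by
  change {p : Projectivization F (Fin 7 → F) | ∃ c : F, (g : M7) *ᵥ p.rep = c • p.rep}.ncard ≤ _
  rcases Set.eq_empty_or_nonempty
    {p : Projectivization F (Fin 7 → F) | ∃ c : F, (g : M7) *ᵥ p.rep = c • p.rep} with h | h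
  · rw [h, Set.ncard_empty]; omega
  obtain ⟨p0, c0, h0⟩ := h
  let f : Module.End F (Fin 7 → F) := Matrix.mulVecLin (g : M7)
  have hm : ∀ (c : F) (v : Fin 7 → F), v ∈ f.eigenspace c ↔ (g : M7) *ᵥ v = c • v := fun c v => by
    rw [Module.End.mem_eigenspace_iff]; rfl
  let E := f.eigenspace c0
  let E' := ⨆ c, ⨆ (_ : c ≠ c0), f.eigenspace c
  have hd : Disjoint E E' := Module.End.eigenspaces_iSupIndep f c0
  have hab : finrank F E + finrank F E' ≤ 7 := by
    have := Submodule.finrank_add_finrank_le_of_disjoint hd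
    simpa using this
  have h1 : 1 ≤ finrank F E := by
    rw [Nat.one_le_iff_ne_zero, Ne, Submodule.finrank_eq_zero]
    intro e
    have : p0.rep ∈ E := (hm _ _).2 h0
    rw [e] at this
    exact p0.rep_nonzero this
  have h6 : finrank F E ≤ 6 := by
    have hne : E ≠ ⊤ := by
      intro e
      apply hg
      have hall : ∀ v, (g : M7) *ᵥ v = c0 • v := fun v => (hm _ _).1 (show v ∈ E from e ▸ trivial)
      have hmat : (g : M7) = c0 • (1 : M7) := by
        ext i j
        have := congrFun (hall (Pi.single j 1)) i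
        simpa [Matrix.mulVec_single, Matrix.one_apply, Pi.single_apply] using this
      have hc : c0 ≠ 0 := by
        rintro rfl
        have := g.mul_inv
        rw [hmat, zero_smul, zero_mul] at this
        exact zero_ne_one this
      exact (mem_scalars_iff g).2 ⟨Units.mk0 c0 hc, hmat⟩
    have := Submodule.finrank_lt hne
    simp only [finrank_fintype_fun_eq_card, Fintype.card_fin] at this
    omega
  have hs : {p : Projectivization F (Fin 7 → F) | ∃ c : F, (g : M7) *ᵥ p.rep = c • p.rep} ⊆
      {p | p.rep ∈ E} ∪ {p | p.rep ∈ E'} := by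
    rintro p ⟨c, hc⟩
    by_cases e : c = c0
    · exact Or.inl ((hm _ _).2 (e ▸ hc))
    · exact Or.inr (Submodule.mem_iSup_of_mem c (Submodule.mem_iSup_of_mem e ((hm _ _).2 hc)))
  refine (Set.ncard_le_ncard hs (Set.toFinite _)).trans ((Set.ncard_union_le _ _).trans ?_)
  exact (Nat.add_le_add (Fixp_sub E) (Fixp_sub E')).trans (Fixp_num Fintype.card_pos h1 h6 hab)

end Cfsg.Agent.S7
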