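import Mathlib
import Cfsg.Agent.S7.Defs

set_option autoImplicit false

namespace Cfsg.Agent.S7

open Matrix Cfsg.Geo Cfsg.Agent.Cl.D5 Module
open scoped MatrixGroups ComplexConjugate commutatorElement

namespace NT

theorem red {E N X k : ℤ} (hE : E ∣ N) (s t : ℤ) (h : k = s * N + t * X) (n : ℕ) :
    ∀ {Y : ℤ}, E ∣ X ^ n * Y → E ∣ k ^ n * Y := by
  induction n with
  | zero => exact fun h => by simpa using h
  | succ n ih =>
    intro Y hY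
    have h1 : E ∣ k ^ n * (X * Y) := ih (by rwa [← mul_assoc, ← pow_succ])
    rw [show k ^ (n + 1) * Y = s * k ^ n * Y * N + t * (k ^ n * (X * Y)) by rw [pow_succ, mul_assoc, h]; ring]
    exact dvd_add (hE.mul_left _) (h1.mul_left _)

theorem pp {q : ℕ} (hq : IsPrimePow q) {E Y u : ℤ} (h : ∀ d : ℤ, d ∣ E → d ∣ q → d ∣ u) (u0 : 0 < u) (uq : u < q)
    (hY : E ∣ (q : ℤ) ^ 21 * Y) : E ∣ u * Y := by
  obtain ⟨p, k, hp, -, rfl⟩ := (isPrimePow_nat_iff q).1 hq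
  have h1 : E.natAbs ∣ (p ^ k) ^ 21 * Y.natAbs := by
    simpa [Int.natAbs_mul, Int.natAbs_pow] using Int.natAbs_dvd_natAbs.2 hY
  have h2 := dvd_gcd_mul_of_dvd_mul h1
  obtain ⟨j, -, hj⟩ := (Nat.dvd_prime_pow hp).1
    (by rw [pow_mul]; exact gcd_dvd_right _ _ : gcd E.natAbs ((p ^ k) ^ 21) ∣ p ^ (k * 21))
  have h3 : ((p ^ j : ℕ) : ℤ) ∣ E := Int.natCast_dvd.2 (hj ▸ gcd_dvd_left _ _)
  rw [hj] at h2
  rcases le_total j k with l | l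
  · refine (Int.natAbs_dvd.1 ((Int.natCast_dvd_natCast.2 h2).trans ?_))
    rw [Nat.cast_mul]
    exact mul_dvd_mul (h _ h3 (Int.natCast_dvd_natCast.2 (pow_dvd_pow p l))) (Int.natAbs_dvd.2 dvd_rfl)
  · exact absurd (Int.le_of_dvd u0 (h _ ((Int.natCast_dvd_natCast.2 (pow_dvd_pow p l)).trans h3) dvd_rfl))
      (not_le.2 uq)

/-- The number of points. -/
def T (q : ℤ) : ℤ := q ^ 6 + q ^ 5 + q ^ 4 + q ^ 3 + q ^ 2 + q + 1

/-- The bound. -/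
def CC (a c k : ℤ) : ℤ := 7 * c * (((7 * c - a) ^ 4 + a * (7 * c - a) ^ 3 + a ^ 2 * (7 * c - a) ^ 2 +
  a ^ 3 * (7 * c - a) + a ^ 4) * ((a ^ 2 + 49 * c ^ 2) * ((7 * c - a) ^ 6 * (k ^ 7 * ((7 * c - a) * 7)))))

theorem prod {q : ℕ} (h : 1 ≤ q) : ((∏ i : Fin 7, (q ^ 7 - q ^ (i : ℕ)) : ℕ) : ℤ) =
    (q : ℤ) ^ 21 * ((q - 1) ^ 7 * ((q + 1) ^ 3 * ((q ^ 2 + q + 1) ^ 2 * ((q ^ 2 - q + 1) * ((q ^ 2 + 1) *
      ((q ^ 4 + q ^ 3 + q ^ 2 + q + 1) * T q)))))) := by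
  rw [Nat.cast_prod, Finset.prod_congr rfl fun i _ => Nat.cast_sub (Nat.pow_le_pow_right h i.2.le),
    Fin.prod_univ_seven, T]
  push_cast
  simp only [Fin.val_zero, Fin.val_one, Fin.val_two, show ((3 : Fin 7) : ℕ) = 3 from rfl,
    show ((4 : Fin 7) : ℕ) = 4 from rfl, show ((5 : Fin 7) : ℕ) = 5 from rfl, show ((6 : Fin 7) : ℕ) = 6 from rfl]
  ring

theorem core {q : ℕ} (hq : IsPrimePow q) {E a c k : ℤ} (hE : E ∣ a * T q - 7 * c) (u0 : 0 < 7 * c - a)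
    (uq : 7 * c - a < q) (h1 : ∀ Y, E ∣ ((q : ℤ) - 1) ^ 7 * Y → E ∣ k ^ 7 * Y)
    (h : E ∣ 7 * ((∏ i : Fin 7, (q ^ 7 - q ^ (i : ℕ)) : ℕ) : ℤ)) : E ∣ CC a c k := by
  rw [prod hq.one_lt.le, mul_left_comm] at h
  have a0 := pp hq (u := 7 * c - a) (fun d d1 d2 => by
    rw [show 7 * c - a = a * (q ^ 5 + q ^ 4 + q ^ 3 + q ^ 2 + q + 1) * q - (a * T q - 7 * c) by rw [T]; ring]
    exact dvd_sub (d2.mul_left _) (d1.trans hE)) u0 uq h
  rw [← mul_assoc, mul_left_comm] at a0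
  have a1 := h1 _ a0
  rw [← mul_assoc, mul_left_comm] at a1
  have a2 := red hE (k := 7 * c - a) (-1) (a * (q ^ 5 + q ^ 3 + q)) (by rw [T]; ring) 3 a1
  rw [← mul_assoc, mul_left_comm] at a2
  have a3 := red hE (k := 7 * c - a) (-1) (a * (q ^ 4 + q)) (by rw [T]; ring) 2 a2
  rw [← mul_assoc, mul_left_comm, ← pow_one ((q : ℤ) ^ 2 - q + 1)] at a3
  have a6 := red hE (k := 7 * c - a) (-1) (a * (q * (q + 1) * (q ^ 2 + q + 1))) (by rw [T]; ring) 1 a3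
  rw [← mul_assoc, mul_left_comm, ← pow_one ((q : ℤ) ^ 2 + 1)] at a6
  have a4 := red hE (k := a ^ 2 + 49 * c ^ 2) (-(a * q + 7 * c))
    ((a * q + 7 * c) * a * (q ^ 4 + q ^ 3 + 1) + a ^ 2) (by rw [T]; ring) 1 a6
  rw [← mul_assoc, mul_left_comm, ← pow_one ((q : ℤ) ^ 4 + q ^ 3 + q ^ 2 + q + 1)] at a4
  obtain ⟨S, hS⟩ : ∃ S, S = (a * q) ^ 3 + (a * q) ^ 2 * (7 * c - a) + a * q * (7 * c - a) ^ 2 + (7 * c - a) ^ 3 +
    a * ((a * q) ^ 2 + a * q * (7 * c - a) + (7 * c - a) ^ 2) + a ^ 2 * (a * q + (7 * c - a)) + a ^ 3 := ⟨_, rfl⟩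
  have a5 := red hE (k := (7 * c - a) ^ 4 + a * (7 * c - a) ^ 3 + a ^ 2 * (7 * c - a) ^ 2 +
    a ^ 3 * (7 * c - a) + a ^ 4) (-S) (a ^ 4 + S * a * q ^ 2) (by rw [T, hS]; ring) 1 a4
  rw [← mul_assoc, mul_comm, ← pow_one (T q)] at a5
  have a7 := red hE (k := 7 * c) (-1) a (by ring) 1 a5
  convert a7 using 1
  rw [CC]
  ring

/-- A factor of the number of points minus seven. -/
def ps (q : ℤ) : ℤ := q ^ 5 + 2 * q ^ 4 + 3 * q ^ 3 + 4 * q ^ 2 + 5 * q + 6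

set_option synthInstance.maxSize 2000 in
theorem fin1 : ∀ a : ℕ, a < 7 → ∀ c : ℕ, c < 3 → 1 ≤ c → c < a → ∀ i : ℕ, i < 54 → ∀ j : ℕ, j < 54 →
    ¬ (a * T (7 * (54 * i + j) + 8) - 7 * c ∣ CC a c (7 * (a - c))) := by decide +kernel

theorem fin2 : ∀ i : ℕ, i < 54 → ∀ j : ℕ, j < 54 → ¬ (ps (7 * (54 * i + j) + 8) ∣ CC 1 1 21) := by decide +kernel

theorem big1 : ∀ a : ℕ, a < 7 → ∀ c : ℕ, c < 3 → 1 ≤ c → c < a →
    0 < CC a c (7 * (a - c)) ∧ CC a c (7 * (a - c)) < 20000 ^ 6 := by decide +kernel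

theorem eight : ∀ a : ℕ, a < 7 → ∀ c : ℕ, c < 3 → 1 ≤ c → c ≤ a →
    ¬ a * 42799 - c ∣ ∏ i : Fin 7, (8 ^ 7 - 8 ^ (i : ℕ)) := by decide +kernel

end NT

open NT in
theorem nt_deg {q m a c : ℕ} (hq : IsPrimePow q) (h7 : q % 7 = 1) (hm : 7 * m = th q) (h1 : 1 ≤ c)
    (h2 : c ≤ 2) (h3 : c ≤ a) (h4 : a < 7) :
    ¬ a * m - c ∣ ∏ i : Fin 7, (q ^ 7 - q ^ (i : ℕ)) := by
  intro h
  have q1 := hq.one_lt
  by_cases q8 : q = 8
  · subst q8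
    obtain rfl : m = 42799 := by rw [th] at hm; omega
    exact eight a h4 c (by omega) h1 h3 h
  have m1 : 1 ≤ m := by rw [th] at hm; omega
  have hT : 7 * (m : ℤ) = T q := by rw [T]; exact_mod_cast hm
  have hD := mul_dvd_mul_left 7 (Int.natCast_dvd_natCast.2 h)
  rw [Nat.cast_sub (h3.trans (Nat.le_mul_of_pos_right a m1)),
    show 7 * (((a * m : ℕ) : ℤ) - c) = a * T q - 7 * c by rw [← hT]; push_cast; ring] at hD
  have q0 : (0 : ℤ) ≤ q := Int.natCast_nonneg q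
  have hij : q < 20000 → ∃ i < 54, ∃ j < 54, (q : ℤ) = 7 * (54 * (i : ℕ) + (j : ℕ)) + 8 := fun l =>
    ⟨(q - 8) / 7 / 54, by omega, (q - 8) / 7 % 54, by omega, by omega⟩
  rcases h3.eq_or_lt with rfl | l
  · have e : ps q ∣ 1 * T q - 7 * 1 := ⟨q - 1, by rw [ps, T]; ring⟩
    have k := core hq (k := 21) e (by norm_num) (by omega) (fun Y => red dvd_rfl 1
      (-(q ^ 4 + 3 * q ^ 3 + 6 * q ^ 2 + 10 * q + 15)) (by rw [ps]; ring) 7)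
      ((e.mul_left c).trans (by rwa [show (c : ℤ) * (1 * T q - 7 * 1) = c * T q - 7 * c by ring]))
    by_cases b : q < 20000
    · obtain ⟨i, hi, j, hj, e⟩ := hij b
      exact fin2 i hi j hj (e ▸ k)
    · have := Int.le_of_dvd (by decide) k
      have h5 : (20000 : ℤ) ^ 5 ≤ q ^ 5 := pow_le_pow_left₀ (by norm_num) (by omega) 5
      have h6 : CC 1 1 21 < 20000 ^ 5 := by decide
      have h7 : (q : ℤ) ^ 5 ≤ ps q := by
        rw [ps]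
        have : 0 ≤ 2 * (q : ℤ) ^ 4 + 3 * q ^ 3 + 4 * q ^ 2 + 5 * q + 6 := by positivity
        linarith
      linarith
  · have k := core hq (k := 7 * (a - c)) dvd_rfl (by omega) (by omega) (fun Y => red dvd_rfl 1
      (-(a * ps q)) (by rw [ps, T]; ring) 7) hD
    by_cases b : q < 20000
    · obtain ⟨i, hi, j, hj, e⟩ := hij b
      exact fin1 a h4 c (by omega) h1 l i hi j hj (e ▸ k)
    · obtain ⟨b1, b2⟩ := big1 a h4 c (by omega) h1 l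
      have := Int.le_of_dvd b1 k
      have h5 : (20000 : ℤ) ^ 6 ≤ q ^ 6 := pow_le_pow_left₀ (by norm_num) (by omega) 6
      have h7 : (q : ℤ) ^ 6 + q ≤ T q := by
        rw [T]
        have : 0 ≤ (q : ℤ) ^ 5 + q ^ 4 + q ^ 3 + q ^ 2 + 1 := by positivity
        linarith
      have h8 : 1 * T q ≤ a * T q := mul_le_mul_of_nonneg_right (by omega) (by rw [T]; positivity)
      have h9 : (20000 : ℤ) ≤ q := by omega
      have h10 : (c : ℤ) ≤ 2 := by omega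
      linarith

end Cfsg.Agent.S7
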