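/-
A doubly transitive subgroup of `GL₇(q)` whose subspaces `W` have dimension at most three
contains a transvection.
-/
import Mathlib
import Cfsg.Agent.S7.Defs
import Cfsg.Agent.S7.WB
import Cfsg.Agent.S7.PP
import Cfsg.Agent.S7.NX

set_option autoImplicit false

namespace Cfsg.Agent.S7

open Matrix Cfsg.Geo Cfsg.Agent.Cl.D5 Module
open scoped MatrixGroups ComplexConjugate commutatorElement

variable {F : Type*} [Field F] [Fintype F]

local notation "M7" => Matrix (Fin 7) (Fin 7) F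
local notation "SL7" => specialLinear (Fin 7) F
local notation "Z7" => scalars (Fin 7) F
local notation "GL7" => GL (Fin 7) F

namespace TV

variable {G K X : Subgroup (GL (Fin 7) F)} {U : Submodule F (Fin 7 → F)}
  {a b x u v : Fin 7 → F} {g : GL (Fin 7) F}

omit [Fintype F] in
theorem mul_ap (g h : GL7) (v : Fin 7 → F) :
    ((g * h : GL7) : M7) *ᵥ v = (g : M7) *ᵥ ((h : M7) *ᵥ v) := by
  rw [Units.val_mul, mulVec_mulVec]

omit [Fintype F] in
theorem inv_ap {w : Fin 7 → F} (h : (g : M7) *ᵥ v = w) : ((g⁻¹ : GL7) : M7) *ᵥ w = v := by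
  rw [← h, mulVec_mulVec, Units.inv_mul, one_mulVec]

omit [Fintype F] in
theorem ap_inv (g : GL7) (v : Fin 7 → F) : (g : M7) *ᵥ (((g⁻¹ : GL7) : M7) *ᵥ v) = v := by
  rw [mulVec_mulVec, Units.mul_inv, one_mulVec]

omit [Fintype F] in
/-- An element fixing a hyperplane pointwise. -/
theorem fin (hg : g ∈ G) (hu : u ≠ 0) (h1 : (g : M7) *ᵥ u = u) (h2 : (g : M7) *ᵥ x = x + u)
    (h3 : ∀ v, ∃ c : F, (g : M7) *ᵥ (v - c • x) = v - c • x) :
    ∃ v η, v ≠ 0 ∧ η ≠ 0 ∧ MT G v η := by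
  let A : Submodule F (Fin 7 → F) := LinearMap.ker (Matrix.toLin' (g : M7) - LinearMap.id)
  have hA : ∀ v, v ∈ A ↔ (g : M7) *ᵥ v = v := fun v => by simp [A, sub_eq_zero]
  have hx : x ∉ A := fun e => hu (by simpa [h2] using (hA x).1 e)
  obtain ⟨f, f1, f2⟩ := LinearMap.exists_extend_of_notMem (0 : A →ₗ[F] F) hx 1
  have f0 : ∀ v ∈ A, f v = 0 := fun v hv => by
    simpa using LinearMap.congr_fun f1 ⟨v, hv⟩
  obtain ⟨η, hη⟩ : ∃ η : Fin 7 → F, ∀ v, η ⬝ᵥ v = f v :=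
    ⟨(dotProductEquiv F (Fin 7)).symm f, fun v => by
      conv_rhs => rw [← (dotProductEquiv F (Fin 7)).apply_symm_apply f]
      rfl⟩
  refine ⟨u, η, hu, fun e => ?_, by rw [hη, f0 u ((hA u).2 h1)], g, hg, fun v => ?_⟩
  · have := hη x
    rw [e, f2, zero_dotProduct] at this
    exact zero_ne_one this
  · obtain ⟨c, hc⟩ := h3 v
    have e := f0 _ ((hA _).2 hc)
    rw [map_sub, map_smul, f2, smul_eq_mul, mul_one, sub_eq_zero] at e
    rw [mulVec_sub, mulVec_smul, h2, sub_eq_iff_eq_add] at hc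
    rw [hη, e, hc]
    module

theorem inv_mem (h : ∀ v ∈ U, (g : M7) *ᵥ v ∈ U) (hv : v ∈ U) : ((g⁻¹ : GL7) : M7) *ᵥ v ∈ U := by
  obtain ⟨n, hn⟩ : g⁻¹ ∈ Submonoid.powers g :=
    mem_powers_iff_mem_zpowers.2 (Subgroup.inv_mem _ (Subgroup.mem_zpowers g))
  rw [← hn]
  clear hn
  induction n with
  | zero => simpa using hv
  | succ n ih => simp only [pow_succ'] at ih ⊢; rw [mul_ap]; exact h _ ih

variable (G U) in
/-- The pointwise stabiliser of a subspace. -/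
def fixU : Subgroup GL7 where
  carrier := {g | g ∈ G ∧ ∀ v ∈ U, (g : M7) *ᵥ v = v}
  one_mem' := ⟨G.one_mem, by simp⟩
  mul_mem' := fun {g h} ⟨g0, g1⟩ ⟨h0, h1⟩ => ⟨G.mul_mem g0 h0, fun v hv => by
    rw [mul_ap, h1 v hv, g1 v hv]⟩
  inv_mem' := fun {g} ⟨g0, g1⟩ => ⟨G.inv_mem g0, fun v hv => inv_ap (g1 v hv)⟩

theorem card_mul {A H : Subgroup GL7} (h : A ≤ H) : Nat.card A * A.relIndex H = Nat.card H := by
  rw [← Nat.card_congr (Subgroup.subgroupOfEquivOfLe h).toEquiv]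
  exact (A.subgroupOf H).card_mul_index

/-- The Frattini argument. -/
theorem frattini {l : ℕ} (hl : l.Prime) (hX : Syl l X (fix2 G a b)) (ha : a ∈ Fx X)
    (hb : b ∈ Fx X) (hg : g ∈ G) (h : ∀ v ∈ Fx X, (g : M7) *ᵥ v ∈ Fx X) :
    ∃ k ∈ Subgroup.normalizer (X : Set GL7) ⊓ G, ∀ v ∈ Fx X, (k : M7) *ᵥ v = (g : M7) *ᵥ v := by
  have l1 : X ≤ fixU G (Fx X) := fun x hx => ⟨(hX.le hx).1, fun v hv => hv x hx⟩
  have l2 : fixU G (Fx X) ≤ fix2 G a b := fun x hx => ⟨hx.1, hx.2 a ha, hx.2 b hb⟩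
  have s1 : Syl l X (fixU G (Fx X)) := ⟨l1, hX.pg, fun e => hX.nd (by
    rw [← Subgroup.relIndex_mul_relIndex _ _ _ l1 l2]; exact e.mul_right _)⟩
  let Y := X.map (MulAut.conj g).toMonoidHom
  have l3 : Y ≤ fixU G (Fx X) := by
    rintro _ ⟨x, hx, rfl⟩
    refine ⟨G.mul_mem (G.mul_mem hg (hX.le hx).1) (G.inv_mem hg), fun v hv => ?_⟩
    show ((g * x * g⁻¹ : GL7) : M7) *ᵥ v = v
    rw [mul_ap, mul_ap, inv_mem h hv x hx, ap_inv]
  have e : Nat.card Y = Nat.card X :=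
    Subgroup.card_map_of_injective (MulAut.conj g).injective
  have s2 : Syl l Y (fixU G (Fx X)) := ⟨l3, hX.pg.map _, by
    have := (card_mul l3).trans (card_mul l1).symm
    rw [e] at this
    rw [Nat.eq_of_mul_eq_mul_left Nat.card_pos this]
    exact s1.nd⟩
  obtain ⟨k, hk, e⟩ := Syl.conj hl s1 s2
  refine ⟨k * g, ⟨Subgroup.mem_normalizer_iff.2 fun x => ?_, G.mul_mem hk.1 hg⟩, fun v hv => by
    rw [mul_ap, hk.2 _ (h v hv)]⟩
  have e1 : k * g * x * (k * g)⁻¹ = k * (g * x * g⁻¹) * k⁻¹ := by group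
  rw [e1]
  refine Iff.trans ⟨fun hx => ⟨x, hx, rfl⟩, ?_⟩ (e _)
  rintro ⟨y, hy, e2⟩
  have : y = x := (MulAut.conj g).injective e2
  exact this ▸ hy

/-! ### Dimension three -/

/-- Three independent vectors. -/
def Ind3 (a b x : Fin 7 → F) : Prop :=
  ∀ s t r : F, s • a + t • b + r • x = 0 → s = 0 ∧ t = 0 ∧ r = 0

omit [Fintype F] in
theorem Ind3.s12 (h : Ind3 a b x) : Ind3 b a x := fun s t r e =>
  have := h t s r (by rw [← e]; abel)
  ⟨this.2.1, this.1, this.2.2⟩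

omit [Fintype F] in
theorem Ind3.s23 (h : Ind3 a b x) : Ind3 a x b := fun s t r e =>
  have := h s r t (by rw [← e]; abel)
  ⟨this.1, this.2.2, this.2.1⟩

omit [Fintype F] in
theorem Ind3.ind2 (h : Ind3 a b x) : Ind2 a b := fun s t e =>
  have := h s t 0 (by rw [e, zero_smul, add_zero])
  ⟨this.1, this.2.1⟩

omit [Fintype F] in
theorem Ind3.notMem (h : Ind3 a b x) : x ∉ sp a b := fun e => by
  obtain ⟨s, t, e⟩ := Submodule.mem_span_pair.1 e
  have := (h s t (-1) (by rw [e]; simp)).2.2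
  simp at this

omit [Fintype F] in
theorem ind3_of (i : Ind2 a b) (hx : x ∉ sp a b) : Ind3 a b x := fun s t r e => by
  by_cases hr : r = 0
  · rw [hr, zero_smul, add_zero] at e
    exact ⟨(i s t e).1, (i s t e).2, hr⟩
  · refine (hx (Submodule.mem_span_pair.2 ⟨-(r⁻¹ * s), -(r⁻¹ * t), ?_⟩)).elim
    have : x = r⁻¹ • (r • x) := by rw [smul_smul, inv_mul_cancel₀ hr, one_smul]
    rw [this, eq_neg_of_add_eq_zero_right e]
    module

theorem Ind3.span (h : Ind3 a b x) (ha : a ∈ U) (hb : b ∈ U) (hx : x ∈ U) (h3 : finrank F U ≤ 3)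
    (hv : v ∈ U) : ∃ s t r : F, v = s • a + t • b + r • x := by
  have l1 : sp a b < sp a b ⊔ Submodule.span F {x} :=
    lt_of_le_of_ne le_sup_left fun e => h.notMem (e ▸ Submodule.mem_sup_right
      (Submodule.mem_span_singleton_self x))
  have l2 : sp a b ⊔ Submodule.span F {x} ≤ U := by
    simp [Submodule.span_le, Set.insert_subset_iff, ha, hb, hx]
  have := Submodule.finrank_lt_finrank_of_lt l1
  rw [h.ind2.finrank] at this
  rw [← Submodule.eq_of_le_of_finrank_le l2 (by omega)] at hv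
  obtain ⟨y, hy, z, hz, rfl⟩ := Submodule.mem_sup.1 hv
  obtain ⟨s, t, rfl⟩ := Submodule.mem_span_pair.1 hy
  obtain ⟨r, rfl⟩ := Submodule.mem_span_singleton.1 hz
  exact ⟨s, t, r, rfl⟩

variable (K U) in
/-- `K` induces the elementary transvections of the three-dimensional space `U`. -/
def Q3 : Prop := ∀ a ∈ U, ∀ b ∈ U, ∀ x ∈ U, Ind3 a b x →
  ∃ g ∈ K, (g : M7) *ᵥ a = a ∧ (g : M7) *ᵥ b = b ∧ (g : M7) *ᵥ x = x + a

omit [Fintype F] in
theorem Q3.comm (h : Q3 K U) : Q3 ⁅K, K⁆ U := fun a ha b hb x hx i => by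
  obtain ⟨s, hs, s2, s1, s3⟩ := h b hb a ha x hx i.s12
  obtain ⟨r, hr, r1, r3, r2⟩ := h a ha x hx b hb i.s23
  have s1' := inv_ap s1
  have s2' := inv_ap s2
  have r1' := inv_ap r1
  have r3' := inv_ap r3
  have s3' : ((s⁻¹ : GL7) : M7) *ᵥ x = x - b := inv_ap (by rw [mulVec_sub, s3, s2]; abel)
  have r2' : ((r⁻¹ : GL7) : M7) *ᵥ b = b - a := inv_ap (by rw [mulVec_sub, r2, r1]; abel)
  refine ⟨⁅r, s⁆, Subgroup.commutator_mem_commutator hr hs, ?_, ?_, ?_⟩ <;>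
    simp only [commutatorElement_def, mul_ap, mulVec_sub, s1, s2, s3, r1, r2, r3, s1', s2', s3',
      r1', r2', r3', mulVec_add] <;> abel

/-! ### Dimension two -/

variable (K U) in
/-- `K` induces the transvections of the two-dimensional space `U`. -/
def Q2 : Prop := ∀ a ∈ U, ∀ b ∈ U, Ind2 a b → ∀ c : F,
  ∃ g ∈ K, (g : M7) *ᵥ a = a ∧ (g : M7) *ᵥ b = b + c • a

omit [Fintype F] in
theorem Q2.comm (h : Q2 K U) {μ : F} (h0 : μ ≠ 0) (h1 : μ ^ 2 - 1 ≠ 0) : Q2 ⁅K, K⁆ U :=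
  fun a ha b hb i c => by
  have i' : Ind2 b a := fun s t e => (i t s (by rw [← e]; abel)).symm
  obtain ⟨y, hy, y1, y2⟩ := h b hb a ha i' 1
  obtain ⟨z, hz, z1, z2⟩ := h a ha b hb i (μ - 1)
  obtain ⟨w, hw, w1, w2⟩ := h b hb a ha i' (-μ⁻¹)
  obtain ⟨t, ht, t1, t2⟩ := h a ha b hb i (c / (μ ^ 2 - 1))
  obtain ⟨k, hk, k1, k2⟩ : ∃ k ∈ K, (k : M7) *ᵥ a = μ • a ∧
      (k : M7) *ᵥ b = μ⁻¹ • b + (μ - 1) • a := by
    refine ⟨w * z * y, K.mul_mem (K.mul_mem hw hz) hy, ?_, ?_⟩ <;>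
      simp only [mul_ap, y1, y2, z1, z2, w1, w2, mulVec_add, mulVec_smul] <;>
      match_scalars <;> field_simp <;> ring
  have t1' := inv_ap t1
  have t2' : ((t⁻¹ : GL7) : M7) *ᵥ b = b - (c / (μ ^ 2 - 1)) • a :=
    inv_ap (by rw [mulVec_sub, mulVec_smul, t1, t2]; abel)
  have k1' : ((k⁻¹ : GL7) : M7) *ᵥ a = μ⁻¹ • a :=
    inv_ap (by rw [mulVec_smul, k1, smul_smul, inv_mul_cancel₀ h0, one_smul])
  have k2' : ((k⁻¹ : GL7) : M7) *ᵥ b = μ • b - (μ - 1) • a := inv_ap (by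
    simp only [mulVec_sub, mulVec_smul, k1, k2]
    match_scalars <;> field_simp <;> ring)
  refine ⟨⁅k, t⁆, Subgroup.commutator_mem_commutator hk ht, ?_, ?_⟩ <;>
    simp only [commutatorElement_def, mul_ap, mulVec_sub, mulVec_add, mulVec_smul, t1, t2, k1, k2,
      t1', t2', k1', k2'] <;> match_scalars <;> field_simp <;> ring

theorem exists_mu (h : ¬ Fintype.card F ≤ 3) : ∃ μ : F, μ ≠ 0 ∧ μ ^ 2 - 1 ≠ 0 := by
  classical
  by_contra hc
  push Not at hc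
  refine h ((Finset.card_le_card (t := {0, 1, -1}) fun μ _ => ?_).trans Finset.card_le_three)
  by_cases h0 : μ = 0
  · simp [h0]
  · have := hc μ h0
    rw [sub_eq_zero, sq_eq_one_iff] at this
    simp [this]

omit [Fintype F] in
theorem pow_ap (h1 : (g : M7) *ᵥ a = a) (h2 : (g : M7) *ᵥ b = b + a) (n : ℕ) :
    ((g ^ n : GL7) : M7) *ᵥ a = a ∧ ((g ^ n : GL7) : M7) *ᵥ b = b + (n : F) • a := by
  induction n with
  | zero => simp
  | succ n ih =>
    rw [pow_succ', mul_ap, mul_ap, ih.1, ih.2, mulVec_add, mulVec_smul, h1, h2]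
    refine ⟨rfl, ?_⟩
    push_cast
    module

theorem exists_ppart (h : Fintype.card F ≤ 3) (g : GL7) :
    ∃ m k : ℕ, (m : F) ≠ 0 ∧ (g ^ m) ^ Fintype.card F ^ k = 1 := by
  have h2 : 2 ≤ Fintype.card F := Fintype.one_lt_card
  have hp : (Fintype.card F).Prime := by
    generalize Fintype.card F = q at h h2
    interval_cases q <;> norm_num
  obtain ⟨k, m, hm, e⟩ := Nat.exists_eq_pow_mul_and_not_dvd (orderOf_pos g).ne' _ hp.ne_one
  refine ⟨m, k, fun h0 => hm ?_, by rw [← pow_mul, mul_comm, ← e, pow_orderOf_eq_one]⟩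
  have := (ringChar.spec F _).1 (FiniteField.cast_card_eq_zero F)
  rw [← (hp.eq_one_or_self_of_dvd _ this).resolve_left CharP.ringChar_ne_one]
  exact (ringChar.spec F _).1 h0

end TV

open TV in
theorem CK.exists_tv {G : Subgroup GL7} (h : CK G) {a b : Fin 7 → F} (i : Ind2 a b)
    (h3 : finrank F (W G a b) ≤ 3) : ∃ v η, v ≠ 0 ∧ η ≠ 0 ∧ MT G v η := by
  have h2 : 2 ≤ finrank F (W G a b) := i.finrank ▸ Submodule.finrank_mono sp_le_W
  obtain ⟨c, hc⟩ : ∃ c, finrank F (W G a b) + c = 7 := ⟨7 - finrank F (W G a b), by omega⟩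
  obtain ⟨l, hl, ho⟩ := exists_ppd (F := F) (c := c) (by omega) (by omega)
  obtain ⟨X, hX⟩ := exists_syl l hl (fix2 G a b)
  have e := hX.fx_eq i hl ho (by omega) hc
  have ha : a ∈ Fx X := e ▸ sp_le_W (Submodule.subset_span (by simp))
  have hb : b ∈ Fx X := e ▸ sp_le_W (Submodule.subset_span (by simp))
  have a0 : a ≠ 0 := fun e => one_ne_zero (i 1 0 (by simp [e])).1
  rw [← e] at h2 h3 hc
  obtain ⟨R, hR, r1, r2⟩ := exists_compl hl hX.pg ho (by omega) hc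
  have dec : ∀ v, ∃ w ∈ Fx X, ∃ r ∈ R, w + r = v := fun v =>
    Submodule.mem_sup.1 (hR ▸ Submodule.mem_top)
  set N := Subgroup.normalizer (X : Set GL7)
  have l1 : ⁅⁅N ⊓ G, N ⊓ G⁆, ⁅N ⊓ G, N ⊓ G⁆⁆ ≤ ⁅⁅N, N⁆, ⁅N, N⁆⁆ :=
    have := Subgroup.commutator_mono (inf_le_left (a := N) (b := G)) (inf_le_left (a := N) (b := G))
    Subgroup.commutator_mono this this
  have cl : ∀ K : Subgroup GL7, K ≤ G → ⁅K, K⁆ ≤ G := fun K hK =>
    Subgroup.commutator_le.2 fun x hx y hy => G.mul_mem (G.mul_mem (G.mul_mem (hK hx) (hK hy))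
      (G.inv_mem (hK hx))) (G.inv_mem (hK hy))
  have l2 : ⁅⁅N ⊓ G, N ⊓ G⁆, ⁅N ⊓ G, N ⊓ G⁆⁆ ≤ G := cl _ (cl _ inf_le_right)
  rcases h3.eq_or_lt with e3 | e3
  · obtain ⟨x, hx, hx'⟩ : ∃ x ∈ Fx X, x ∉ sp a b := by
      by_contra hc
      push Not at hc
      have := Submodule.finrank_mono (show Fx X ≤ sp a b from hc)
      rw [i.finrank] at this
      omega
    have q : Q3 (N ⊓ G) (Fx X) := fun a' ha' b' hb' x' hx' j => by
      obtain ⟨g, hg, g1, g2, g3⟩ := h.tr a' b' x' j.ind2 j.notMem a' (Submodule.subset_span (by simp))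
      obtain ⟨k, hk, e⟩ := frattini hl hX ha hb hg fun v hv => by
        obtain ⟨s, t, r, rfl⟩ := j.span ha' hb' hx' h3 hv
        simp only [mulVec_add, mulVec_smul, g1, g2, g3]
        exact add_mem (add_mem (Submodule.smul_mem _ _ ha') (Submodule.smul_mem _ _ hb'))
          (Submodule.smul_mem _ _ (add_mem hx' ha'))
      exact ⟨k, hk, (e _ ha').trans g1, (e _ hb').trans g2, (e _ hx').trans g3⟩
    have j := ind3_of i hx'
    obtain ⟨g, hg, g1, g2, g3⟩ := q.comm.comm a ha b hb x hx j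
    refine fin (l2 hg) a0 g1 g3 fun v => ?_
    obtain ⟨w, hw, r, hr, rfl⟩ := dec v
    obtain ⟨s, t, c, rfl⟩ := j.span ha hb hx h3 hw
    refine ⟨c, ?_⟩
    rw [show s • a + t • b + c • x + r - c • x = s • a + t • b + r by abel]
    simp only [mulVec_add, mulVec_smul, g1, g2, r1 g (l1 hg) r hr]
  · have sp2 : ∀ a' ∈ Fx X, ∀ b' ∈ Fx X, Ind2 a' b' → sp a' b' = Fx X := fun a' ha' b' hb' j =>
      Submodule.eq_of_le_of_finrank_le
        (by simp [Submodule.span_le, Set.insert_subset_iff, ha', hb']) (by rw [j.finrank]; omega)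
    obtain ⟨y, hy⟩ : ∃ y, y ∉ Fx X := by
      by_contra hc'
      push Not at hc'
      rw [Submodule.eq_top_iff'.2 hc', finrank_top] at e3
      simp at e3
    have q : Q2 (N ⊓ G) (Fx X) := fun a' ha' b' hb' j c => by
      have j3 := (ind3_of j (sp2 a' ha' b' hb' j ▸ hy)).s23
      obtain ⟨g, hg, g1, -, g3⟩ := h.tr a' y b' j3.ind2 j3.notMem (c • a')
        (Submodule.smul_mem _ _ (Submodule.subset_span (by simp)))
      obtain ⟨k, hk, e⟩ := frattini hl hX ha hb hg fun v hv => by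
        obtain ⟨s, t, rfl⟩ := Submodule.mem_span_pair.1 (sp2 a' ha' b' hb' j ▸ hv : v ∈ sp a' b')
        simp only [mulVec_add, mulVec_smul, g1, g3]
        exact add_mem (Submodule.smul_mem _ _ ha')
          (Submodule.smul_mem _ _ (add_mem hb' (Submodule.smul_mem _ _ ha')))
      exact ⟨k, hk, (e _ ha').trans g1, (e _ hb').trans g3⟩
    obtain ⟨g, hg, m, hm, g1, g2, g3⟩ : ∃ g ∈ G, ∃ m : F, m ≠ 0 ∧ (g : M7) *ᵥ a = a ∧
        (g : M7) *ᵥ b = b + m • a ∧ ∀ v ∈ R, (g : M7) *ᵥ v = v := by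
      by_cases hq : Fintype.card F ≤ 3
      · obtain ⟨g, hg, g1, g2⟩ := q a ha b hb i 1
        obtain ⟨m, k, hm, e⟩ := exists_ppart hq g
        rw [one_smul] at g2
        exact ⟨g ^ m, G.pow_mem hg.2 m, m, hm, (pow_ap g1 g2 m).1, (pow_ap g1 g2 m).2,
          r2 (by omega) hq _ (N.pow_mem hg.1 m) k e⟩
      · obtain ⟨μ, m0, m1⟩ := exists_mu hq
        obtain ⟨g, hg, g1, g2⟩ := ((q.comm m0 m1).comm m0 m1) a ha b hb i 1
        exact ⟨g, l2 hg, 1, one_ne_zero, g1, g2, r1 g (l1 hg)⟩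
    refine fin hg (smul_ne_zero hm a0) (by rw [mulVec_smul, g1]) g2 fun v => ?_
    obtain ⟨w, hw, r, hr, rfl⟩ := dec v
    obtain ⟨s, t, rfl⟩ := Submodule.mem_span_pair.1 (sp2 a ha b hb i ▸ hw : w ∈ sp a b)
    refine ⟨t, ?_⟩
    rw [show s • a + t • b + r - t • b = s • a + r by abel]
    simp only [mulVec_add, mulVec_smul, g1, g3 r hr]

end Cfsg.Agent.S7
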