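import Mathlib
import Cfsg.Agent.S7.Defs
import Cfsg.Agent.S7.SingA
import Cfsg.Agent.S7.SingB
import Cfsg.Agent.S7.CK1
import Cfsg.Agent.S7.CK2
import Cfsg.Agent.S7.SB
import Cfsg.Agent.S7.C3n
import Cfsg.Agent.S7.TV
import Cfsg.Agent.S7.ALL
import Cfsg.Agent.Cl.LinearBasic
import Cfsg.Agent.Cl.MaxBasic

set_option autoImplicit false

namespace Cfsg.Agent.S7

open Matrix Cfsg.Geo Cfsg.Agent.Cl.D5 Module
open scoped MatrixGroups ComplexConjugate commutatorElement

variable {F : Type*} [Field F] [Fintype F]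

local notation "M7" => Matrix (Fin 7) (Fin 7) F
local notation "SL7" => specialLinear (Fin 7) F
local notation "Z7" => scalars (Fin 7) F
local notation "GL7" => GL (Fin 7) F

omit [Fintype F] in
theorem c3_range : (SpecialLinearGroup.toGL : SpecialLinearGroup (Fin 7) F →* GL7).range = SL7 := by
  ext g
  constructor
  · rintro ⟨y, rfl⟩
    exact Units.ext (by simp)
  · intro hg
    have h : (g : M7).det = 1 := by
      have := congrArg Units.val (show GeneralLinearGroup.det g = 1 from hg)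
      simpa using this
    exact ⟨⟨g, h⟩, Units.ext rfl⟩

omit [Fintype F] in
theorem c3_perf : ⁅(SL7 : Subgroup GL7), SL7⁆ = SL7 := by
  have h := Cl.sl_commutator_eq_top (ι := Fin 7) (F := F) (Or.inl (by simp))
  rw [← c3_range, MonoidHom.range_eq_map, ← Subgroup.map_commutator, ← commutator_def, h]

theorem c3_card : Fintype.card F ^ 2 ∣ Nat.card (SL7 : Subgroup GL7) := by
  rw [← c3_range, ← Nat.card_congr (MonoidHom.ofInjective SpecialLinearGroup.toGL_injective).toEquiv,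
    Cl.card_sl, Nat.card_eq_fintype_card (α := F)]
  exact (pow_dvd_pow _ (by simp)).mul_right _

theorem c3_num {q : ℕ} (hq : 2 ≤ q) : ¬ q ^ 2 ∣ 7 * th q := fun h => by
  have h1 : Nat.Coprime q (th q) := by
    have : th q = 1 + q * (q ^ 5 + q ^ 4 + q ^ 3 + q ^ 2 + q + 1) := by unfold th; ring
    rw [this, Nat.coprime_add_mul_left_right]
    exact Nat.coprime_one_right q
  have h2 := (h1.pow_left 2).dvd_of_dvd_mul_right h
  have h3 : q ≤ 2 := by
    have := Nat.le_of_dvd (by norm_num) h2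
    nlinarith
  obtain rfl : q = 2 := by omega
  omega

omit [Fintype F] in
theorem c3_split {M : Subgroup GL7} {g : GL7} (hg : g ∈ M ⊔ Z7) :
    ∃ m ∈ M, ∃ z ∈ Z7, g = m * z := by
  have : (Z7 : Subgroup GL7).Normal := ⟨fun z hz g => by
    rwa [← Cl.Max.mul_comm_of_mem_scalars hz g, mul_inv_cancel_right]⟩
  obtain ⟨m, hm, z, hz, e⟩ := (Subgroup.mem_sup_of_normal_right).1 hg
  exact ⟨m, hm, z, hz, e.symm⟩

omit [Fintype F] in
theorem c3_comm {M : Subgroup GL7} : ⁅M ⊔ Z7, M ⊔ Z7⁆ ≤ M := by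
  refine Subgroup.commutator_le.2 fun g hg h hh => ?_
  obtain ⟨m, hm, z, hz, rfl⟩ := c3_split hg
  obtain ⟨n, hn, w, hw, rfl⟩ := c3_split hh
  have h1 := Cl.Max.mul_comm_of_mem_scalars hz
  have h2 := Cl.Max.mul_comm_of_mem_scalars hw
  have : ⁅m * z, n * w⁆ = ⁅m, n⁆ := by
    simp only [commutatorElement_def, _root_.mul_inv_rev]
    calc m * z * (n * w) * (z⁻¹ * m⁻¹) * (w⁻¹ * n⁻¹)
        = m * (z * (n * w)) * z⁻¹ * (m⁻¹ * w⁻¹) * n⁻¹ := by group
      _ = m * n * (w * m⁻¹) * w⁻¹ * n⁻¹ := by rw [h1]; group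
      _ = _ := by rw [h2]; group
  rw [this, commutatorElement_def]
  exact M.mul_mem (M.mul_mem (M.mul_mem hm hn) (M.inv_mem hm)) (M.inv_mem hn)

omit [Fintype F] in
theorem c3_ind : Ind2 (Pi.single 0 1 : Fin 7 → F) (Pi.single 1 1) := fun s t h =>
  ⟨by simpa using congrFun h 0, by simpa using congrFun h 1⟩

theorem sl_field {K : Subalgebra F M7} (hK : IsFieldSubalgebra 7 K) :
    IsMaximalIn SL7 (subalgebraNormalizer K ⊓ SL7) := by
  obtain ⟨S, h⟩ := exists_sing hK
  refine ⟨lt_of_le_of_ne inf_le_right fun e => ?_, fun M h1 h2 => ?_⟩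
  · have := c3_card (F := F)
    rw [← e, h.cardN] at this
    exact c3_num Fintype.one_lt_card this
  rcases h.twoT h1 h2 with h3 | h3
  · exact .inl (le_antisymm (le_inf h3 h2) h1)
  refine .inr (le_antisymm h2 ?_)
  have t : TwoT (M ⊔ Z7) := fun a b a' b' i i' => by
    obtain ⟨g, hg, k⟩ := h3 a b a' b' i i'
    exact ⟨g, Subgroup.mem_sup_left hg, k⟩
  have f := t.flag le_sup_right
  have c : CK (M ⊔ Z7) := ⟨le_sup_right, t, f, f.tri.tr le_sup_right⟩
  have hS : S ≤ M ⊔ Z7 := fun s hs => by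
    obtain ⟨k1, k2⟩ := (h.mem s).1 hs
    by_cases hz : s ∈ Z7
    · exact Subgroup.mem_sup_right hz
    · exact Subgroup.mem_sup_left (h1 ⟨h.norm s k1 hz s (by rwa [mul_inv_cancel_right]), k2⟩)
  have l := c.finrank_le h hS c3_ind
  have n := c.finrank_ne c3_ind
  obtain ⟨v, η, hv, hη, ht⟩ := c.exists_tv c3_ind (by omega)
  have s := f.sl_le hv hη ht
  exact c3_perf.symm.le.trans ((Subgroup.commutator_mono s s).trans c3_comm)

end Cfsg.Agent.S7
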