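import Mathlib
import Cfsg.Agent.S7.D6

set_option autoImplicit false
set_option linter.unusedSectionVars false

namespace Cfsg.Agent.S7

open Matrix Cfsg.Geo Cfsg.Agent.Cl.D5 Module
open scoped MatrixGroups ComplexConjugate commutatorElement

variable {F : Type*} [Field F] [Fintype F]

local notation "M7" => Matrix (Fin 7) (Fin 7) F
local notation "SL7" => specialLinear (Fin 7) F
local notation "Z7" => scalars (Fin 7) F
local notation "GL7" => GL (Fin 7) F

variable {ω : F} {x y : GL (Fin 7) F} {φ : SL(2, ZMod 7) →* GL (Fin 7) F}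
  {M : Subgroup (GL (Fin 7) F)}

namespace RTa

theorem mul_sh (A : M7) (i j : Fin 7) : (A * shM F) i j = A i (j + 1) := by simp [shM, mul_apply]

theorem sh_mul (A : M7) (i j : Fin 7) : (shM F * A) i j = A (i - 1) j := by
  simp [shM, mul_apply, ← sub_eq_iff_eq_add]

theorem mul_z (A : M7) (i j : Fin 7) : (A * zM F) i j = -A i (-j) := by simp [zM, mul_apply]

theorem z_mul (A : M7) (i j : Fin 7) : (zM F * A) i j = -A (-i) j := by
  simp [zM, mul_apply, ← neg_eq_iff_eq_neg]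

theorem sh_pow (k : ℕ) (i j : Fin 7) : (shM F ^ k) i j = if i = j + k • (1 : Fin 7) then 1 else 0 := by
  induction k generalizing j with
  | zero => simp [one_apply]
  | succ k ih => rw [pow_succ, mul_sh, ih, succ_nsmul', add_assoc]

theorem pw_add (h : ω ^ 7 = 1) (a b : Fin 7) : ω ^ ((a + b : Fin 7) : ℕ) = ω ^ (a : ℕ) * ω ^ (b : ℕ) := by
  rw [Fin.val_add, ← pow_eq_pow_mod _ h, pow_add]

theorem pw7 (h : ω ^ 7 = 1) (k : ℕ) : (ω ^ k) ^ 7 = 1 := by rw [← pow_mul, mul_comm, pow_mul, h, one_pow]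

theorem q1 {P Q : M7} {c : F} (h : Q * P = c • (P * Q)) (n : ℕ) : Q ^ n * P = c ^ n • (P * Q ^ n) := by
  induction n with
  | zero => simp
  | succ n ih =>
    rw [pow_succ Q, mul_assoc, h, mul_smul_comm, ← mul_assoc, ih, smul_mul_assoc, smul_smul, pow_succ' c, mul_assoc]

theorem q2 {P Q : M7} {c : F} (h : Q * P = c • (P * Q)) (n : ℕ) : Q * P ^ n = c ^ n • (P ^ n * Q) := by
  induction n with
  | zero => simp
  | succ n ih =>
    rw [pow_succ P, ← mul_assoc, ih, smul_mul_assoc, mul_assoc, h, mul_smul_comm, smul_smul, pow_succ c, mul_assoc]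

theorem q3 {P Q : M7} {c : F} (h : Q * P = c • (P * Q)) (n : ℕ) :
    (P * Q) ^ n = c ^ n.choose 2 • (P ^ n * Q ^ n) := by
  induction n with
  | zero => simp
  | succ n ih =>
    rw [pow_succ, ih, smul_mul_assoc, mul_assoc, ← mul_assoc (Q ^ n), q1 h, smul_mul_assoc, mul_smul_comm, smul_smul,
      Nat.choose_succ_succ', Nat.choose_one_right, pow_add c, mul_comm (c ^ n), pow_succ P, pow_succ Q]
    simp only [mul_assoc]

theorem off {A : M7} {d : Fin 7 → F} (h : A * diagonal d = diagonal d * A) {i j : Fin 7} (hij : d i ≠ d j) :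
    A i j = 0 := by
  have h1 := congrFun (congrFun h i) j
  rw [mul_diagonal, diagonal_mul, mul_comm] at h1
  exact (mul_eq_mul_right_iff.1 h1).resolve_left hij.symm

theorem diag_of {A : M7} (h : ∀ i j, i ≠ j → A i j = 0) : ∃ d, A = diagonal d :=
  ⟨fun i => A i i, by
    ext i j
    by_cases e : i = j
    · rw [e, diagonal_apply_eq]
    · rw [diagonal_apply_ne _ e, h i j e]⟩

theorem const {d : Fin 7 → F} {t : Fin 7} (ht : t ≠ 0) (h : ∀ m, d (m + t) = d m) (a b : Fin 7) : d a = d b := by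
  obtain ⟨n, rfl⟩ := (by decide : ∀ t : Fin 7, t ≠ 0 → ∀ a b : Fin 7, ∃ n : Fin 7, a = b + (n : ℕ) • t) t ht a b
  induction (n : ℕ) with
  | zero => simp
  | succ k ih => rw [succ_nsmul, ← add_assoc, h, ih]

theorem comm_of {r g : GL7} {B : M7} {c : F} (h1 : (g : M7) * B = c • (B * g)) (h2 : (r : M7) * B = c • (B * r)) :
    ((r⁻¹ * g : GL7) : M7) * B = B * (r⁻¹ * g : GL7) := by
  refine (Units.mul_right_inj r).1 ?_
  rw [Units.val_mul, mul_assoc, Units.mul_inv_cancel_left, ← mul_assoc, h2, h1, smul_mul_assoc, mul_assoc,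
    Units.mul_inv_cancel_left]

theorem root (hω : IsPrimitiveRoot ω 7) {g : GL7} (hg : g ∈ SL7) {c : F} (h : (g : M7) = c • (1 : M7)) :
    ∃ k : ℕ, ω ^ k = c := by
  have h1 := (Cl.Max.mem_specialLinear_iff g).1 hg
  rw [h, det_smul, det_one, mul_one, Fintype.card_fin] at h1
  obtain ⟨k, -, e⟩ := hω.eq_pow_of_pow_eq_one h1
  exact ⟨k, e⟩

theorem twist (hω : IsPrimitiveRoot ω 7) {g v : GL7} (h : g * v * g⁻¹ * v⁻¹ ∈ Z7) :
    ∃ k : ℕ, (g : M7) * v = ω ^ k • ((v : M7) * g) := by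
  obtain ⟨c, hc⟩ := (mem_scalars_iff _).1 h
  obtain ⟨k, e⟩ := root hω (MonoidHom.mem_ker.2 (by
    simp only [map_mul, map_inv]
    rw [mul_comm (GeneralLinearGroup.det g), mul_inv_cancel_right, mul_inv_cancel])) hc
  refine ⟨k, ?_⟩
  rw [e, ← one_mul ((v : M7) * g), ← smul_mul_assoc, ← hc, ← Units.val_mul, ← Units.val_mul, ← Units.val_mul]
  congr 1
  group

end RTa

open RTa

theorem rt_rel (hω : IsPrimitiveRoot ω 7) : ckM ω * shM F = ω • (shM F * ckM ω) ∧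
    ckM ω ^ 7 = 1 ∧ shM F ^ 7 = 1 ∧ (ckM ω).det = 1 ∧ (shM F).det = 1 ∧
    zM F * zM F = 1 ∧ zM F ≠ 1 ∧ zM F * ckM ω * zM F = ckM ω ^ 6 ∧
    zM F * shM F * zM F = shM F ^ 6 := by
  have h7 := hω.pow_eq_one
  refine ⟨?_, ?_, ?_, ?_, ?_, ?_, fun h => ?_, ?_, ?_⟩
  · ext i j
    rw [ckM, Matrix.smul_apply, diagonal_mul, mul_diagonal, shM, of_apply]
    split_ifs with e
    · rw [e, pw_add h7]; simp [mul_comm]
    · simp
  · rw [ckM, diagonal_pow, ← diagonal_one]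
    exact congrArg _ (funext fun i => pw7 h7 i)
  · ext i j
    rw [sh_pow, one_apply, show 7 • (1 : Fin 7) = 0 by decide, add_zero]
  · rw [ckM, det_diagonal, Finset.prod_pow_eq_pow_sum, show ∑ i : Fin 7, (i : ℕ) = 7 * 3 by decide, pow_mul, h7,
      one_pow]
  · have e : shM F = (1 : M7).submatrix id (finRotate 7) := by
      ext i j
      simp [shM, one_apply]
    rw [e, det_permute', show Equiv.Perm.sign (finRotate 7) = 1 by decide]
    simp
  · ext i j
    rw [z_mul, zM, of_apply, one_apply]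
    simp only [neg_inj]
    split_ifs <;> simp
  · have h1 := congrFun (congrFun h 1) 1
    rw [zM, of_apply, if_neg (by decide), one_apply_eq] at h1
    exact zero_ne_one h1
  · ext i j
    rw [mul_z, z_mul, neg_neg, ckM, diagonal_pow]
    by_cases e : i = j
    · rw [e, diagonal_apply_eq, diagonal_apply_eq]
      refine mul_right_cancel₀ (pow_ne_zero (j : ℕ) (hω.ne_zero (by norm_num))) ?_
      rw [← pw_add h7, neg_add_cancel, Pi.pow_apply, ← pow_succ, pw7 h7]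
      simp
    · rw [diagonal_apply_ne _ e, diagonal_apply_ne _ (mt neg_inj.1 e)]
  · ext i j
    rw [mul_z, z_mul, neg_neg, sh_pow, shM, of_apply]
    exact if_congr ((by decide : ∀ i j : Fin 7, -i = -j + 1 ↔ i = j + 6 • (1 : Fin 7)) i j) rfl rfl

theorem RTa.sc (hω : IsPrimitiveRoot ω 7) : shM F * ckM ω = ω ^ 6 • (ckM ω * shM F) := by
  rw [(rt_rel hω).1, smul_smul, ← pow_succ, hω.pow_eq_one, one_smul]

theorem RTa.mul_form (hω : IsPrimitiveRoot ω 7) (i j k i' j' k' : ℕ) :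
    ω ^ k • (ckM ω ^ i * shM F ^ j) * ω ^ k' • (ckM ω ^ i' * shM F ^ j') =
      ω ^ (k + k' + 6 * j * i') • (ckM ω ^ (i + i') * shM F ^ (j + j')) := by
  rw [smul_mul_smul_comm, mul_assoc, ← mul_assoc (shM F ^ j), q2 (q1 (RTa.sc hω) j) i', smul_mul_assoc,
    mul_smul_comm, smul_smul]
  simp only [pow_add, pow_mul, mul_assoc]

theorem rt_form (hω : IsPrimitiveRoot ω 7) (hx : (x : M7) = ckM ω) (hy : (y : M7) = shM F)
    (g : GL7) : g ∈ R0 x y ↔ ∃ i j k : ℕ, (g : M7) = ω ^ k • (ckM ω ^ i * shM F ^ j) := by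
  obtain ⟨r1, r2, r3, -⟩ := rt_rel hω
  have inv : ∀ v : GL7, (v : M7) ^ 7 = 1 → ((v⁻¹ : GL7) : M7) = (v : M7) ^ 6 := fun v h =>
    Units.inv_eq_of_mul_eq_one_right (by rw [← pow_succ', h])
  constructor
  · intro hg
    induction hg using Subgroup.closure_induction'' with
    | one => exact ⟨0, 0, 0, by simp⟩
    | mem v hv =>
      rcases hv with rfl | rfl
      exacts [⟨1, 0, 0, by simp [hx]⟩, ⟨0, 1, 0, by simp [hy]⟩]
    | inv_mem v hv =>
      rcases hv with rfl | rfl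
      exacts [⟨6, 0, 0, by rw [inv _ (hx ▸ r2), hx]; simp⟩, ⟨0, 6, 0, by rw [inv _ (hy ▸ r3), hy]; simp⟩]
    | mul a b _ _ ha hb =>
      obtain ⟨i, j, k, ha⟩ := ha
      obtain ⟨i', j', k', hb⟩ := hb
      exact ⟨_, _, _, by rw [Units.val_mul, ha, hb, RTa.mul_form hω]⟩
  · rintro ⟨i, j, k, h⟩
    have mx : x ∈ R0 x y := Subgroup.subset_closure (by simp)
    have my : y ∈ R0 x y := Subgroup.subset_closure (by simp)
    have e1 : ((x * y * (y * x)⁻¹ : GL7) : M7) = ω • (1 : M7) := by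
      rw [Units.val_mul, Units.val_mul, hx, hy, r1, ← hx, ← hy, smul_mul_assoc, ← Units.val_mul, Units.mul_inv]
    have e2 : g = (x * y * (y * x)⁻¹) ^ k * (x ^ i * y ^ j) := Units.ext (by
      rw [h, Units.val_mul, Units.val_pow_eq_pow_val, e1, Units.val_mul, Units.val_pow_eq_pow_val,
        Units.val_pow_eq_pow_val, hx, hy, smul_pow, one_pow, smul_mul_assoc, one_mul])
    rw [e2]
    exact mul_mem (pow_mem (mul_mem (mul_mem mx my) (inv_mem (mul_mem my mx))) k)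
      (mul_mem (pow_mem mx i) (pow_mem my j))

theorem rt_diag (hω : IsPrimitiveRoot ω 7) {k : ℕ} (hk : ¬ 7 ∣ k) {A : M7}
    (h : A * ckM ω ^ k = ckM ω ^ k * A) : ∃ d, A = diagonal d := by
  rw [ckM, diagonal_pow] at h
  refine diag_of fun i j hij => off h fun e => hij (Fin.ext ?_)
  refine (hω.pow_of_coprime k ((Nat.Prime.coprime_iff_not_dvd (by norm_num)).2 hk).symm).pow_inj i.2 j.2 ?_
  rw [← pow_mul, mul_comm, pow_mul, ← pow_mul ω k, mul_comm k, pow_mul]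
  exact e

theorem rt_scalar (hω : IsPrimitiveRoot ω 7) {A : M7} (h1 : A * ckM ω = ckM ω * A)
    (h2 : A * shM F = shM F * A) : ∃ c : F, A = c • (1 : M7) := by
  obtain ⟨d, rfl⟩ := rt_diag hω (k := 1) (A := A) (by norm_num) (by rwa [pow_one])
  refine ⟨d 0, ?_⟩
  rw [smul_one_eq_diagonal]
  refine congrArg _ (funext fun a => const (t := 1) (by decide) (fun m => ?_) a 0)
  have h3 := congrFun (congrFun h2 (m + 1)) m
  rwa [mul_sh, sh_mul, add_sub_cancel_right, diagonal_apply_eq, diagonal_apply_eq] at h3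

theorem RTa.le (hω : IsPrimitiveRoot ω 7) (hx : (x : M7) = ckM ω) (hy : (y : M7) = shM F) : R0 x y ≤ SL7 := by
  refine (Subgroup.closure_le _).2 ?_
  rintro v (rfl | rfl)
  exacts [(Cl.Max.mem_specialLinear_iff _).2 (hx ▸ (rt_rel hω).2.2.2.1),
    (Cl.Max.mem_specialLinear_iff _).2 (hy ▸ (rt_rel hω).2.2.2.2.1)]

theorem RTa.mem (hω : IsPrimitiveRoot ω 7) (hx : (x : M7) = ckM ω) (hy : (y : M7) = shM F) {g : GL7}
    (hg : g ∈ SL7) {c : F} (h : (g : M7) = c • (1 : M7)) : g ∈ R0 x y := by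
  obtain ⟨k, rfl⟩ := root hω hg h
  exact (rt_form hω hx hy g).2 ⟨0, 0, k, by simpa using h⟩

theorem rt_comm (hω : IsPrimitiveRoot ω 7) (hx : (x : M7) = ckM ω) (hy : (y : M7) = shM F)
    {g : GL7} (hg : g ∈ SL7) (h1 : g * x * g⁻¹ * x⁻¹ ∈ Z7) (h2 : g * y * g⁻¹ * y⁻¹ ∈ Z7) :
    g ∈ R0 x y := by
  obtain ⟨a, ha⟩ := twist hω h1
  obtain ⟨b, hb⟩ := twist hω h2
  rw [hx] at ha
  rw [hy] at hb
  have mr : x ^ b * y ^ (6 * a) ∈ R0 x y :=
    mul_mem (pow_mem (Subgroup.subset_closure (by simp)) _) (pow_mem (Subgroup.subset_closure (by simp)) _)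
  have er : ((x ^ b * y ^ (6 * a) : GL7) : M7) = ckM ω ^ b * shM F ^ (6 * a) := by
    rw [Units.val_mul, Units.val_pow_eq_pow_val, Units.val_pow_eq_pow_val, hx, hy]
  have e6 : (ω ^ 6) ^ (6 * a) = ω ^ a := by
    rw [← pow_mul, show 6 * (6 * a) = 7 * (5 * a) + a by ring, pow_add, pow_mul, hω.pow_eq_one, one_pow, one_mul]
  obtain ⟨c, hc⟩ := rt_scalar hω (comm_of (r := x ^ b * y ^ (6 * a)) ha (by
      rw [er, mul_assoc, q1 (RTa.sc hω), e6, mul_smul_comm, ← mul_assoc, ← mul_assoc, pow_mul_comm']))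
    (comm_of (r := x ^ b * y ^ (6 * a)) hb (by
      rw [er, mul_assoc, pow_mul_comm', ← mul_assoc, q1 (rt_rel hω).1, smul_mul_assoc, mul_assoc]))
  exact (mul_mem_cancel_left (inv_mem mr)).1
    (RTa.mem hω hx hy (mul_mem (inv_mem (RTa.le hω hx hy mr)) hg) hc)

theorem rt_sep {d : Fin 7 → F} (hd : ∃ i j, d i ≠ d j) {A : M7}
    (h : ∀ k : Fin 7, A * diagonal (fun i => d (i + k)) = diagonal (fun i => d (i + k)) * A) :
    ∃ e, A = diagonal e := by
  obtain ⟨a, b, hab⟩ := hd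
  refine diag_of fun i j hij => ?_
  by_contra h1
  refine hab (const (t := i - j) (sub_ne_zero.2 hij) (fun m => ?_) a b)
  have h2 : d (i + (m - j)) = d (j + (m - j)) := by
    by_contra h2
    exact h1 (off (h (m - j)) h2)
  rwa [add_sub_cancel, add_sub_left_comm] at h2

theorem rt_sc (hω : IsPrimitiveRoot ω 7) (hx : (x : M7) = ckM ω) (hy : (y : M7) = shM F) :
    Z7 ⊓ SL7 ≤ R0 x y ∧ R0 x y ≤ SL7 ∧ ⁅R0 x y, R0 x y⁆ ≤ Z7 ∧ x ∉ Z7 ∧
      (∀ g ∈ R0 x y, g ^ 7 = 1) ∧ ∀ g ∈ Z7 ⊓ SL7, g ^ 7 = 1 := by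
  have h1 : Z7 ⊓ SL7 ≤ R0 x y := fun g hg => by
    obtain ⟨c, hc⟩ := (mem_scalars_iff _).1 hg.1
    exact RTa.mem hω hx hy hg.2 hc
  have h2 : ∀ g ∈ R0 x y, g ^ 7 = 1 := fun g hg => by
    obtain ⟨i, j, k, e⟩ := (rt_form hω hx hy g).1 hg
    obtain ⟨-, r2, r3, -⟩ := rt_rel hω
    refine Units.ext ?_
    rw [Units.val_pow_eq_pow_val, e, smul_pow, pw7 hω.pow_eq_one, one_smul, q3 (q2 (q1 (RTa.sc hω) j) i),
      show Nat.choose 7 2 = 7 * 3 by decide, pow_mul, ← pow_mul ω, ← pow_mul ω, pw7 hω.pow_eq_one, one_pow, one_smul,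
      ← pow_mul, ← pow_mul, mul_comm i, mul_comm j, pow_mul, pow_mul, r2, r3, one_pow, one_pow, one_mul,
      Units.val_one]
  refine ⟨h1, RTa.le hω hx hy, Subgroup.commutator_le.2 fun g hg k hk => ?_, fun h => ?_, h2,
    fun g hg => h2 g (h1 hg)⟩
  · obtain ⟨i, j, m, e⟩ := (rt_form hω hx hy g).1 hg
    obtain ⟨i', j', m', e'⟩ := (rt_form hω hx hy k).1 hk
    have e1 : ((g * k : GL7) : M7) = (ω ^ (m + m' + 6 * j * i') / ω ^ (m' + m + 6 * j' * i)) • ((k * g : GL7) : M7) := by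
      rw [Units.val_mul, Units.val_mul, e, e', RTa.mul_form hω, RTa.mul_form hω, smul_smul,
        div_mul_cancel₀ _ (pow_ne_zero _ (hω.ne_zero (by norm_num))), add_comm i, add_comm j]
    refine Cl.Max.mem_scalars_of_eq_smul (c := ω ^ (m + m' + 6 * j * i') / ω ^ (m' + m + 6 * j' * i)) ?_
    rw [show ⁅g, k⁆ = g * k * (k * g)⁻¹ by group, Units.val_mul, e1, smul_mul_assoc, Units.mul_inv]
  · obtain ⟨c, hc⟩ := (mem_scalars_iff _).1 h
    have k0 := congrFun (congrFun hc 0) 0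
    have k1 := congrFun (congrFun hc 1) 1
    rw [hx] at k0 k1
    simp [ckM] at k0 k1
    exact hω.ne_one (by norm_num) (k1.trans k0.symm)

end Cfsg.Agent.S7
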