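/-
Overgroups of the `7^(1+2)` normaliser in `SL₇(8)` containing certain involutions.
-/
import Mathlib
import Cfsg.Agent.S7.D6
import Cfsg.Agent.S7.Fin
import Cfsg.Agent.S7.Blk2
import Cfsg.Agent.S7.CertA

set_option autoImplicit false
set_option linter.unusedSectionVars false
set_option linter.unusedSimpArgs false

namespace Cfsg.Agent.S7

open Matrix Cfsg.Geo Cfsg.Agent.Cl.D5 Module
open scoped MatrixGroups

variable {F : Type*} [Field F] [Fintype F]

local notation "M7" => Matrix (Fin 7) (Fin 7) F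
local notation "SL7" => specialLinear (Fin 7) F
local notation "GL7" => GL (Fin 7) F

namespace Ce

/-- The field element with a given code. -/
def ev (ω : F) : ℕ → F
  | 0 => 0
  | 1 => 1
  | 2 => ω
  | 3 => ω + 1
  | 4 => ω ^ 2
  | 5 => ω ^ 2 + 1
  | 6 => ω ^ 2 + ω
  | 7 => ω ^ 2 + ω + 1
  | _ => 0

/-- The matrix with a given code. -/
def evM (ω : F) (A : ℕ) : M7 := of fun i j => ev ω (en A i j)

variable {ω : F}

theorem ev_xor (h2 : (2 : F) = 0) {a b : ℕ} (ha : a < 8) (hb : b < 8) :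
    ev ω (a ^^^ b) = ev ω a + ev ω b := by
  have : CharP F 2 := CharTwo.of_one_ne_zero_of_two_eq_zero one_ne_zero h2
  interval_cases a <;> interval_cases b <;> simp only [Nat.reduceXor, ev] <;> grind

theorem ev_fm (h2 : (2 : F) = 0) (h3 : ω ^ 3 = ω + 1) {a b : ℕ} (ha : a < 8) (hb : b < 8) :
    ev ω (fm a b) = ev ω a * ev ω b := by
  have : CharP F 2 := CharTwo.of_one_ne_zero_of_two_eq_zero one_ne_zero h2
  interval_cases a <;> interval_cases b <;>
    simp only [fm, tb, Nat.reduceMul, Nat.reduceAdd, Nat.reduceShiftRight, Nat.reduceMod, ev] <;>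
    grind

theorem fm_lt (a b : ℕ) : fm a b < 8 := Nat.mod_lt _ (by norm_num)

theorem en_lt (A i j : ℕ) : en A i j < 8 := Nat.mod_lt _ (by norm_num)

theorem xor_lt {a b : ℕ} (ha : a < 8) (hb : b < 8) : a ^^^ b < 8 :=
  Nat.xor_lt_two_pow (n := 3) ha hb

theorem pn_lt : ∀ k, pn k < 8
  | 0 => by decide
  | _ + 1 => fm_lt _ _

theorem ev_pn (h2 : (2 : F) = 0) (h3 : ω ^ 3 = ω + 1) : ∀ k, ev ω (pn k) = ω ^ k
  | 0 => (pow_zero ω).symm
  | k + 1 => by
    rw [show pn (k + 1) = fm (pn k) 2 from rfl, ev_fm h2 h3 (pn_lt k) (by norm_num), ev_pn h2 h3 k,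
      pow_succ]
    rfl

theorem ev_ne (h2 : (2 : F) = 0) (h3 : ω ^ 3 = ω + 1) {c : ℕ} (h0 : 0 < c) (h8 : c < 8) :
    ev ω c ≠ 0 := by
  obtain ⟨d, hd, e⟩ := (by decide +kernel : ∀ c < 8, 0 < c → ∃ d < 8, fm c d = 1) c h8 h0
  have := ev_fm h2 h3 h8 hd
  rw [e] at this
  exact left_ne_zero_of_mul_eq_one this.symm

theorem ev_surj (h8 : Fintype.card F = 8) (h2 : (2 : F) = 0) (h3 : ω ^ 3 = ω + 1) (t : F) :
    ∃ a < 8, ev ω a = t := by
  have h : Function.Injective fun a : Fin 8 => ev ω a := fun a b e => by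
    by_contra hne
    refine ev_ne h2 h3 (Nat.pos_of_ne_zero fun e' => hne (Fin.ext (Nat.xor_eq_zero_iff.1 e')))
      (xor_lt a.2 b.2) ?_
    rw [ev_xor h2 a.2 b.2, show ev ω a = ev ω b from e, ← two_mul, h2, zero_mul]
  obtain ⟨a, ha⟩ := ((Fintype.bijective_iff_injective_and_card _).2 ⟨h, by simp [h8]⟩).2 t
  exact ⟨a, a.2, ha⟩

theorem al_iff {f : ℕ → Bool} (h : al f = true) (i : Fin 7) : f i = true := by
  simp only [al, Bool.and_eq_true] at h
  fin_cases i <;> simp [h]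

theorem isM_en {A : ℕ} {f : ℕ → ℕ → ℕ} (h : isM A f = true) (i j : Fin 7) : en A i j = f i j :=
  Nat.eq_of_beq_eq_true (al_iff (al_iff h i) j)

theorem evM_mul (h2 : (2 : F) = 0) (h3 : ω ^ 3 = ω + 1) {A B C : ℕ} (h : isM C (dt A B) = true) :
    evM ω A * evM ω B = evM ω C := by
  ext i j
  simp only [evM, mul_apply, of_apply, isM_en h, dt, Fin.sum_univ_seven]
  repeat rw [ev_xor h2 (by repeat first | exact fm_lt _ _ | apply xor_lt) (fm_lt _ _)]
  simp only [ev_fm h2 h3 (en_lt _ _ _) (en_lt _ _ _)]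
  rfl

variable {M : Subgroup (GL (Fin 7) F)}

theorem In_mul {A B : M7} (h1 : In M A) (h2 : In M B) : In M (A * B) :=
  let ⟨g, hg, e⟩ := h1
  let ⟨k, hk, f⟩ := h2
  ⟨g * k, M.mul_mem hg hk, by rw [Units.val_mul, e, f]⟩

theorem run_sound (h2 : (2 : F) = 0) (h3 : ω ^ 3 = ω + 1) : ∀ (p : List (ℕ × ℕ × ℕ)) (l : List ℕ),
    (∀ A ∈ l, In M (evM ω A)) → run l p = true → ∀ s ∈ p, In M (evM ω s.2.2)
  | [], _, _, _, _, hs => absurd hs List.not_mem_nil
  | s :: r, l, hl, h, s', hs => by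
    rw [show run l (s :: r) = (Nat.blt s.1 l.length && Nat.blt s.2.1 l.length &&
      isM s.2.2 (dt (l.getD s.1 0) (l.getD s.2.1 0)) && run (l ++ [s.2.2]) r) from rfl] at h
    simp only [Bool.and_eq_true, Nat.blt_eq] at h
    obtain ⟨⟨⟨h4, h5⟩, h6⟩, h7⟩ := h
    have h8 : In M (evM ω s.2.2) := by
      rw [← evM_mul h2 h3 h6, List.getD_eq_getElem _ _ h4, List.getD_eq_getElem _ _ h5]
      exact In_mul (hl _ (List.getElem_mem _)) (hl _ (List.getElem_mem _))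
    rcases List.mem_cons.1 hs with rfl | hs
    · exact h8
    · exact run_sound h2 h3 r _ (fun A hA => (List.mem_append.1 hA).elim (hl A)
        fun e => List.mem_singleton.1 e ▸ h8) h7 s' hs

variable {x y : GL (Fin 7) F} {φ : SL(2, ZMod 7) →* GL (Fin 7) F}

theorem ok_sound (h : Std ω x y φ M) (h2 : (2 : F) = 0) (h3 : ω ^ 3 = ω + 1) {l : List ℕ}
    {p : List (ℕ × ℕ × ℕ)} {i j c : ℕ} (hl : ∀ A ∈ l, In M (evM ω A))
    (ho : ok l p i j c = true) : M = SL7 := by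
  simp only [ok, Bool.and_eq_true, Nat.blt_eq, List.any_eq_true, Bool.not_eq_true'] at ho
  obtain ⟨⟨⟨⟨⟨⟨h4, s, hs, h5⟩, hi⟩, hj⟩, hij⟩, h0⟩, h8⟩ := ho
  have hne : (⟨i, hi⟩ : Fin 7) ≠ ⟨j, hj⟩ := fun e => Nat.ne_of_beq_eq_false hij (congrArg Fin.val e)
  refine h.fin0 hne (ev_ne h2 h3 h0 h8) ?_
  convert run_sound h2 h3 p l hl h4 s hs using 1
  ext a b
  simp only [evM, of_apply, isM_en h5, rt, Matrix.add_apply, one_apply, single_apply, Fin.ext_iff]
  have : i ≠ j := Nat.ne_of_beq_eq_false hij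
  split_ifs <;> first | omega | simp [show ev ω 0 = 0 from rfl, show ev ω 1 = 1 from rfl]

theorem evM_of {A : ℕ} {f : ℕ → ℕ → ℕ} (h : isM A f = true) :
    evM ω A = of fun i j : Fin 7 => ev ω (f i j) := by
  ext i j
  simp only [evM, of_apply, isM_en h]

theorem gens_in (h : Std ω x y φ M) (h2 : (2 : F) = 0) (h3 : ω ^ 3 = ω + 1) :
    ∀ A ∈ gens, In M (evM ω A) := by
  obtain ⟨γ, h4, h5⟩ := h.weil.hw
  have h6 : γ = 1 := by linear_combination h4 - (1 + γ * (ω + ω ^ 2 + ω ^ 4)) * h2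
  simp only [gens, List.mem_cons, List.not_mem_nil, or_false]
  rintro _ (rfl | rfl | rfl | rfl)
  · refine ⟨x, h.xm, ?_⟩
    rw [h.hx, evM_of (f := fun i j => if i = j then pn i else 0) (by decide +kernel)]
    ext i j
    simp only [ckM, diagonal_apply, of_apply, Fin.ext_iff]
    split_ifs
    · rw [ev_pn h2 h3]
    · rfl
  · refine ⟨y, h.ym, ?_⟩
    rw [h.hy, evM_of (f := fun i j => if i = (j + 1) % 7 then 1 else 0) (by decide +kernel)]
    ext i j
    fin_cases i <;> fin_cases j <;> simp [shM, ev]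
  · refine ⟨_, h.fm uu, ?_⟩
    rw [h.weil.hu, evM_of (f := fun i j => if i = j then pn ([0, 1, 4, 2, 2, 4, 1].getD i 0) else 0)
      (by decide +kernel)]
    ext i j
    simp only [dqM, diagonal_apply, of_apply, Fin.ext_iff]
    split_ifs
    · rw [ev_pn h2 h3]
      fin_cases i <;> simp
    · rfl
  · refine ⟨_, h.fm ww, ?_⟩
    rw [h5, h6, one_smul, evM_of (f := fun i j => pn (2 * i * j)) (by decide +kernel)]
    ext i j
    simp only [wM, of_apply, ev_pn h2 h3]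

theorem evM_ye (h2 : (2 : F) = 0) {A a b c : ℕ} (ha : a < 8) (hb : b < 8) (hc : c < 8)
    (h : isM A (ye a b c) = true) :
    evM ω A = qM 0 0 (diagonal ![ev ω a, ev ω b, ev ω c]) := by
  have : CharP F 2 := CharTwo.of_one_ne_zero_of_two_eq_zero one_ne_zero h2
  have h1 : ∀ {t}, t < 8 → ev ω (1 ^^^ t) = 1 + ev ω t := fun ht => ev_xor h2 (by norm_num) ht
  rw [evM_of h, blk2_eq]
  ext i j
  fin_cases i <;> fin_cases j <;>
    simp [ye, h1 ha, h1 hb, h1 hc, CharTwo.neg_eq, show ev ω 0 = 0 from rfl,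
      show ev ω 1 = 1 from rfl]

/-- `M` contains the diagonal element with codes `a`, `b`, `c`. -/
def Dg (ω : F) (M : Subgroup (GL (Fin 7) F)) (e : ℕ × ℕ × ℕ) : Prop :=
  In M (qM 0 0 (diagonal ![ev ω e.1, ev ω e.2.1, ev ω e.2.2]))

theorem Dg.add (h2 : (2 : F) = 0) {a b c a' b' c' : ℕ} (h : Dg ω M (a, b, c))
    (h' : Dg ω M (a', b', c')) (ha : a < 8) (hb : b < 8) (hc : c < 8) (ha' : a' < 8) (hb' : b' < 8)
    (hc' : c' < 8) : Dg ω M (a ^^^ a', b ^^^ b', c ^^^ c') := by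
  have := In_mul h h'
  rw [qM_mul h2] at this
  simp only [Dg, ev_xor h2 ha ha', ev_xor h2 hb hb', ev_xor h2 hc hc']
  convert this using 2
  · simp
  · simp
  · ext i j
    fin_cases i <;> fin_cases j <;> simp

theorem Dg.one (h : Std ω x y φ M) (h2 : (2 : F) = 0) : Dg ω M (1, 1, 1) := by
  refine ⟨_, h.fm (-1), ?_⟩
  rw [h.weil.hz, ← (qM_one h2).2]
  congr 1
  ext i j
  fin_cases i <;> fin_cases j <;> simp [ev]

theorem Dg.shift (h : Std ω x y φ M) (h2 : (2 : F) = 0) (h3 : ω ^ 3 = ω + 1) {a b c : ℕ}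
    (hd : Dg ω M (a, b, c)) : Dg ω M (b, c, a) := by
  have : CharP F 2 := CharTwo.of_one_ne_zero_of_two_eq_zero one_ne_zero h2
  have h4 := run_sound h2 h3 hp gens (gens_in h h2 h3) hp_ok
    (12, 3, 2787593170585515483991631866119221860630529) (by decide +kernel)
  rw [evM_of (f := fun i j => if j = 2 * i % 7 then 1 else 0) (by decide +kernel)] at h4
  obtain ⟨H, hH⟩ : ∃ H : M7, H = !![1, 0, 0, 0, 0, 0, 0; 0, 0, 1, 0, 0, 0, 0; 0, 0, 0, 0, 1, 0, 0;
      0, 0, 0, 0, 0, 0, 1; 0, 1, 0, 0, 0, 0, 0; 0, 0, 0, 1, 0, 0, 0; 0, 0, 0, 0, 0, 1, 0] := ⟨_, rfl⟩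
  have e1 : (of fun i j : Fin 7 => ev ω (if (j : ℕ) = 2 * i % 7 then 1 else 0)) = H := by
    rw [hH]
    ext i j
    fin_cases i <;> fin_cases j <;> simp [ev]
  have e2 : H * H * H = 1 := by
    have : H * H = Hᵀ := by
      rw [hH]
      ext i j
      fin_cases i <;> fin_cases j <;> simp [mul_apply, Fin.sum_univ_seven]
    rw [this, hH]
    ext i j
    fin_cases i <;> fin_cases j <;> simp [mul_apply, Fin.sum_univ_seven]
  have e3 : H * qM 0 0 (diagonal ![ev ω a, ev ω b, ev ω c]) =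
      qM 0 0 (diagonal ![ev ω b, ev ω c, ev ω a]) * H := by
    rw [hH, blk2_eq, blk2_eq]
    ext i j
    fin_cases i <;> fin_cases j <;> simp [mul_apply, Fin.sum_univ_seven, CharTwo.neg_eq]
  rw [e1] at h4
  have h5 := In_mul (In_mul (In_mul h4 hd) h4) h4
  rwa [e3, mul_assoc, mul_assoc, ← mul_assoc H, e2, mul_one] at h5

theorem Dg.cb (h : Std ω x y φ M) (h2 : (2 : F) = 0) (h3 : ω ^ 3 = ω + 1) {a b c : ℕ}
    (ha : a < 8) (hb : b < 8) (hc : c < 8) (hd : Dg ω M (a, b, c)) : ∀ e ∈ cb a b c, Dg ω M e := by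
  have d1 := hd.shift h h2 h3
  have d2 := d1.shift h h2 h3
  have o := Dg.one h h2
  have l : 1 < 8 := by norm_num
  have s := (hd.add h2 d1 ha hb hc hb hc ha).add h2 d2 (xor_lt ha hb) (xor_lt hb hc) (xor_lt hc ha)
    hc ha hb
  simp only [Ce.cb, List.mem_cons, List.not_mem_nil, or_false]
  rintro _ (rfl | rfl | rfl | rfl | rfl | rfl | rfl | rfl)
  exacts [hd, d1, d2, hd.add h2 o ha hb hc l l l, d1.add h2 o hb hc ha l l l,
    d2.add h2 o hc ha hb l l l, s, s.add h2 o (xor_lt (xor_lt ha hb) hc) (xor_lt (xor_lt hb hc) ha)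
      (xor_lt (xor_lt hc ha) hb) l l l]

theorem two_eq (h8 : Fintype.card F = 8) : (2 : F) = 0 := by
  have := FiniteField.cast_card_eq_zero F
  rw [h8] at this
  exact pow_eq_zero_iff (n := 3) (by norm_num) |>.1 (by rw [← this]; norm_num)

end Ce

open Ce

variable {ω : F} {x y : GL (Fin 7) F} {φ : SL(2, ZMod 7) →* GL (Fin 7) F}
  {M : Subgroup (GL (Fin 7) F)}

theorem Std.cert_d (h : Std ω x y φ M) (h8 : Fintype.card F = 8) (h3 : ω ^ 3 = ω + 1)
    {d : Fin 3 → F} (h0 : d ≠ 0) (h1 : d ≠ 1) (hd : In M (qM 0 0 (diagonal d))) : M = SL7 := by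
  have h2 := two_eq h8
  obtain ⟨a, ha, ea⟩ := ev_surj h8 h2 h3 (d 0)
  obtain ⟨b, hb, eb⟩ := ev_surj h8 h2 h3 (d 1)
  obtain ⟨c, hc, ec⟩ := ev_surj h8 h2 h3 (d 2)
  have e : d = ![ev ω a, ev ω b, ev ω c] := by
    ext i
    fin_cases i <;> simp [ea, eb, ec]
  have h4 := pd_cov a ha b hb c hc
  simp only [Bool.or_eq_true, beq_iff_eq, Prod.mk.injEq, List.any_eq_true,
    List.contains_iff_mem] at h4
  rcases h4 with (⟨rfl, rfl, rfl⟩ | ⟨rfl, rfl, rfl⟩) | ⟨s, hs, h5⟩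
  · exact absurd (e.trans (by ext i; fin_cases i <;> simp [ev])) h0
  · exact absurd (e.trans (by ext i; fin_cases i <;> simp [ev])) h1
  have d0 := Dg.cb h h2 h3 ha hb hc (show Dg ω M (a, b, c) by rw [e] at hd; exact hd) _ h5
  have h6 := List.all_eq_true.1 pd_ok s hs
  have h7 := List.all_eq_true.1 pd_lt s hs
  simp only [Bool.and_eq_true, Nat.blt_eq] at h6 h7
  obtain ⟨⟨a', b', c'⟩, s'⟩ := s
  have d1 := d0.shift h h2 h3
  have d2 := d1.shift h h2 h3
  refine ok_sound h h2 h3 (fun A hA => (List.mem_append.1 hA).elim (gens_in h h2 h3 A) ?_) h6.2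
  simp only [List.mem_cons, List.not_mem_nil, or_false]
  rintro (rfl | rfl | rfl)
  · exact evM_ye h2 h7.1.1 h7.1.2 h7.2 h6.1.1.1 ▸ d0
  · exact evM_ye h2 h7.1.2 h7.2 h7.1.1 h6.1.1.2 ▸ d1
  · exact evM_ye h2 h7.2 h7.1.1 h7.1.2 h6.1.2 ▸ d2

theorem Std.cert_y (h : Std ω x y φ M) (h8 : Fintype.card F = 8) (h3 : ω ^ 3 = ω + 1)
    (hy : In M (y1M F) ∨ In M (y2M F)) : M = SL7 := by
  have h2 := two_eq h8
  have : CharP F 2 := CharTwo.of_one_ne_zero_of_two_eq_zero one_ne_zero h2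
  rcases hy with hy | hy
  · refine ok_sound h h2 h3 (fun A hA => (List.mem_append.1 hA).elim (gens_in h h2 h3 A) ?_) p1_ok
    rw [List.mem_singleton]
    rintro rfl
    convert hy using 1
    rw [y1M, blk2_eq]
    ext i j
    fin_cases i <;> fin_cases j <;> simp [evM, en, ev, CharTwo.neg_eq]
  · refine ok_sound h h2 h3 (fun A hA => (List.mem_append.1 hA).elim (gens_in h h2 h3 A) ?_) p2_ok
    rw [List.mem_singleton]
    rintro rfl
    convert hy using 1
    rw [y2M, blk2_eq]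
    ext i j
    fin_cases i <;> fin_cases j <;> simp [evM, en, ev, CharTwo.neg_eq]

end Cfsg.Agent.S7
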