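import Mathlib
import Cfsg.Agent.S7.D6
import Cfsg.Agent.S7.S27
import Cfsg.Agent.S7.RTa
import Cfsg.Agent.S7.Blk2

/-! The centraliser of the involution does not cover `SL₃(8)` over a kernel of order two. -/

set_option autoImplicit false

namespace Cfsg.Agent.S7

open Matrix Cfsg.Geo Cfsg.Agent.Cl.D5 Module
open scoped MatrixGroups ComplexConjugate commutatorElement

variable {F : Type*} [Field F] [Fintype F]

local notation "M7" => Matrix (Fin 7) (Fin 7) F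
local notation "SL7" => specialLinear (Fin 7) F
local notation "Z7" => scalars (Fin 7) F
local notation "GL7" => GL (Fin 7) F

variable {ω : F} {x y : GL (Fin 7) F} {φ : SL(2, ZMod 7) →* GL (Fin 7) F}
  {M : Subgroup (GL (Fin 7) F)}

theorem E8b_abs {C : Type*} [Group C] {z a b c : C} (hz : ∀ g, z * g = g * z) (z2 : z * z = 1)
    (ha : a * a = z) (hb : b * b = z) (hc : c * c = z) (hab : a * b * (a * b) = z)
    (hac : a * c * (a * c) = z) (hbc : b * c * (b * c) = z)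
    (habc : a * b * c * (a * b * c) = z) : z = 1 := by
  have anti : ∀ {p q : C}, p * p = z → q * q = z → p * q * (p * q) = z → q * p = z * (p * q) := by
    intro p q hp hq hpq
    have e : p * (p * q * (p * q)) * q = p * z * q := by rw [hpq]
    have e2 : p * (p * q * (p * q)) * q = (p * p) * (q * p) * (q * q) := by simp only [mul_assoc]
    rw [e2, hp, hq, hz (q * p), mul_assoc, z2, mul_one, ← hz p, mul_assoc] at e
    exact e
  have h1 := anti ha hb hab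
  have h2 := anti ha hc hac
  have e : a * b * c * (a * b * c) = a * (b * (c * a)) * (b * c) := by simp only [mul_assoc]
  have e2 : b * (c * a) = a * (b * c) := by
    rw [h2, ← mul_assoc, ← hz b, mul_assoc, ← mul_assoc b, h1, ← mul_assoc, ← mul_assoc, z2,
      one_mul, mul_assoc]
  rw [e, e2, ← mul_assoc a a, ha, mul_assoc z, hbc, z2] at habc
  exact habc.symm

omit [Fintype F] in
theorem E8b_r (A : M7) : r3 A = !![A 1 1 - A 1 6, A 1 2 - A 1 5, A 1 3 - A 1 4;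
    A 2 1 - A 2 6, A 2 2 - A 2 5, A 2 3 - A 2 4; A 3 1 - A 3 6, A 3 2 - A 3 5, A 3 3 - A 3 4] := by
  ext i j
  fin_cases i <;> fin_cases j <;>
    simp [r3, R3, E3, Matrix.mul_apply, Fin.sum_univ_seven, sub_eq_add_neg, vecMul, dotProduct]

omit [Fintype F] in
theorem E8b_w (h2 : (2 : F) = 0) (h3 : ω ^ 3 = ω + 1) :
    r3 (wM ω) = 1 + vecMulVec ![ω ^ 4, ω ^ 2, ω] ![ω ^ 4, ω ^ 2, ω] := by
  rw [E8b_r]
  ext i j
  fin_cases i <;> fin_cases j <;> simp [wM] <;> grind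

omit [Fintype F] in
theorem E8b_h (h2 : (2 : F) = 0) (h3 : ω ^ 3 = ω + 1) {s t : F} (hst : s * t = 1) :
    ∃ k : Matrix (Fin 3) (Fin 3) F, k.det = 1 ∧
      k * (1 + vecMulVec ![ω ^ 4, ω ^ 2, ω] ![ω ^ 4, ω ^ 2, ω]) =
        (1 + s ^ 2 • vecMulVec ![ω ^ 4, ω ^ 2, ω] ![ω ^ 4, ω ^ 2, ω]) * k := by
  refine ⟨!![s, 0, 0; (s - 1) * ω ^ 5 + (t - 1) * ω ^ 2, t, (t - 1) * ω ^ 6; (s - 1) * ω ^ 4, 0, 1],
    by simp [Matrix.det_fin_three, hst], ?_⟩
  have e1 : !![s, 0, 0; (s - 1) * ω ^ 5 + (t - 1) * ω ^ 2, t, (t - 1) * ω ^ 6;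
      (s - 1) * ω ^ 4, 0, 1] *ᵥ ![ω ^ 4, ω ^ 2, ω] = s • ![ω ^ 4, ω ^ 2, ω] := by
    ext i
    fin_cases i <;> simp [mulVec, dotProduct, Fin.sum_univ_three] <;> grind
  have e2 : ![ω ^ 4, ω ^ 2, ω] ᵥ* !![s, 0, 0; (s - 1) * ω ^ 5 + (t - 1) * ω ^ 2, t, (t - 1) * ω ^ 6;
      (s - 1) * ω ^ 4, 0, 1] = t • ![ω ^ 4, ω ^ 2, ω] := by
    ext i
    fin_cases i <;> simp [vecMul, dotProduct, Fin.sum_univ_three] <;> grind
  rw [mul_add, add_mul, mul_one, one_mul, Matrix.smul_mul, mul_vecMulVec, vecMulVec_mul, e1, e2,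
    smul_vecMulVec, vecMulVec_smul, smul_smul]
  congr 2
  linear_combination (-s) * hst

omit [Fintype F] in
theorem E8b_nn (h2 : (2 : F) = 0) (h3 : ω ^ 3 = ω + 1) :
    vecMulVec ![ω ^ 4, ω ^ 2, ω] ![ω ^ 4, ω ^ 2, ω] *
      vecMulVec ![ω ^ 4, ω ^ 2, ω] ![ω ^ 4, ω ^ 2, ω] = 0 := by
  rw [vecMulVec_mul_vecMulVec]
  have : (![ω ^ 4, ω ^ 2, ω] : Fin 3 → F) ⬝ᵥ ![ω ^ 4, ω ^ 2, ω] = 0 := by
    simp [dotProduct, Fin.sum_univ_three]
    grind
  rw [this, zero_smul, vecMulVec_zero]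

theorem Std.e8b (h : Std ω x y φ M) (h8 : Fintype.card F = 8) (h3 : ω ^ 3 = ω + 1)
    (hQ : ∀ a b m, In M (qM a b m) → a = 0 ∧ b = 0 ∧ (m = 0 ∨ m = 1))
    (hS : ∀ a ∈ specialLinear (Fin 3) F, ∃ g ∈ Cz M (φ (-1)),
      r3 (g : M7) = (a : Matrix (Fin 3) (Fin 3) F)) : False := by
  have h2 : (2 : F) = 0 := by
    have := FiniteField.cast_card_eq_zero F
    rw [h8] at this
    exact pow_eq_zero_iff (n := 3) (by norm_num) |>.1 (by rw [← this]; norm_num)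
  obtain ⟨ρ, hρ, hker, -⟩ := exists_rho h2 h.weil.hz
  generalize hn : vecMulVec ![ω ^ 4, ω ^ 2, ω] ![ω ^ 4, ω ^ 2, ω] = n
  have hnn : n * n = 0 := hn ▸ E8b_nn h2 h3
  have hc : ∀ A, φ A ∈ Subgroup.centralizer ({φ (-1)} : Set GL7) := fun A => by
    rw [Subgroup.mem_centralizer_singleton_iff, ← map_mul, ← map_mul, mul_neg_one, neg_one_mul]
  let z : Subgroup.centralizer ({φ (-1)} : Set GL7) := ⟨_, hc (-1)⟩
  let e : Subgroup.centralizer ({φ (-1)} : Set GL7) := ⟨_, hc ww⟩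
  have hz : ∀ g, z * g = g * z := fun g =>
    Subtype.ext (Subgroup.mem_centralizer_singleton_iff.1 g.2).symm
  have z2 : z * z = 1 := Subtype.ext (by
    change φ (-1) * φ (-1) = 1
    rw [← map_mul, neg_mul_neg, one_mul, map_one])
  have z1 : z ≠ 1 := fun e => (rt_rel h.om).2.2.2.2.2.2.1 (by
    rw [← h.weil.hz]
    exact congrArg (fun g : Subgroup.centralizer ({φ (-1)} : Set GL7) => ((g : GL7) : M7)) e)
  have ee : e * e = z := Subtype.ext (by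
    change φ ww * φ ww = φ (-1)
    rw [← map_mul, ← sq, s27_uu.2.2.2.2.1])
  have re : (ρ e : Matrix (Fin 3) (Fin 3) F) = 1 + n := by
    obtain ⟨γ, hγ, hw⟩ := h.weil.hw
    have : γ = 1 := by linear_combination hγ - (γ * (ω + ω ^ 2 + ω ^ 4) + 1) * h2
    rw [hρ, ← hn, ← E8b_w h2 h3]
    change r3 (φ ww : M7) = _
    rw [hw, this, one_smul]
  have kr : ∀ g : Subgroup.centralizer ({φ (-1)} : Set GL7), (g : GL7) ∈ M → ρ g = 1 →
      g = 1 ∨ g = z := by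
    intro g hg h1
    obtain ⟨a, b, m, hm⟩ := hker g h1 (h.sl hg)
    obtain ⟨rfl, rfl, rfl | rfl⟩ := hQ a b m ⟨g, hg, hm⟩
    · exact Or.inl (Subtype.ext (Units.ext (hm.trans (qM_one h2).1)))
    · exact Or.inr (Subtype.ext (Units.ext (hm.trans ((qM_one h2).2.trans h.weil.hz.symm))))
  let P : F → Subgroup.centralizer ({φ (-1)} : Set GL7) → Prop := fun c g =>
    (g : GL7) ∈ M ∧ (ρ g : Matrix (Fin 3) (Fin 3) F) = 1 + c • n
  have Pm : ∀ {c c' g g'}, P c g → P c' g' → P (c + c') (g * g') := by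
    rintro c c' g g' ⟨a1, a2⟩ ⟨b1, b2⟩
    refine ⟨M.mul_mem a1 b1, ?_⟩
    rw [map_mul, Units.val_mul, a2, b2, add_mul, mul_add, mul_add, one_mul, one_mul, mul_one,
      Matrix.smul_mul, Matrix.mul_smul, hnn, smul_zero, smul_zero, add_zero, add_smul]
    abel
  have Pe : ∀ c, c ≠ 0 → ∃ g, P c g ∧ g * g = z := by
    intro c hc0
    have hs : (c ^ 4) ^ 2 = c := by
      have := FiniteField.pow_card c
      rwa [h8, show 8 = 4 * 2 from rfl, pow_mul] at this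
    obtain ⟨k, hk, hk2⟩ := E8b_h h2 h3 (mul_inv_cancel₀ (pow_ne_zero 4 hc0))
    rw [hn, hs] at hk2
    let a : GL (Fin 3) F := Matrix.GeneralLinearGroup.mkOfDetNeZero k (by rw [hk]; exact one_ne_zero)
    obtain ⟨g, hg, hg2⟩ := hS a (Units.ext hk)
    let g' : Subgroup.centralizer ({φ (-1)} : Set GL7) := ⟨g, hg.2⟩
    have rg : (ρ g' : Matrix (Fin 3) (Fin 3) F) = k := (hρ g').trans hg2
    refine ⟨g' * e * g'⁻¹, ⟨M.mul_mem (M.mul_mem hg.1 (h.fm ww)) (M.inv_mem hg.1), ?_⟩, ?_⟩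
    · rw [map_mul, map_mul, map_inv, Units.val_mul, Units.val_mul, re, rg, hk2, ← rg, mul_assoc,
        Units.mul_inv, mul_one]
    · rw [show g' * e * g'⁻¹ * (g' * e * g'⁻¹) = g' * (e * e) * g'⁻¹ by group, ee, ← hz, mul_assoc,
        mul_inv_cancel, mul_one]
  have Ps : ∀ {c g}, c ≠ 0 → P c g → g * g = z := by
    intro c g hc0 hg
    obtain ⟨g', hg', h1⟩ := Pe c hc0
    have : ρ (g * g'⁻¹) = 1 := by
      rw [map_mul, map_inv, mul_inv_eq_one]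
      exact Units.ext (hg.2.trans hg'.2.symm)
    rcases kr _ (M.mul_mem hg.1 (M.inv_mem hg'.1)) this with e | e
    · rw [mul_inv_eq_one.1 e, h1]
    · rw [mul_inv_eq_iff_eq_mul.1 e, mul_assoc, ← mul_assoc g', ← hz, mul_assoc, ← mul_assoc, z2,
        one_mul, h1]
  have o1 : (1 : F) ≠ 0 := one_ne_zero
  have w1 : ω ≠ 0 := by grind
  have w2 : ω ^ 2 ≠ 0 := pow_ne_zero 2 w1
  obtain ⟨a, pa, ha⟩ := Pe 1 o1
  obtain ⟨b, pb, hb⟩ := Pe ω w1
  obtain ⟨c, pc, hc'⟩ := Pe _ w2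
  exact z1 (E8b_abs hz z2 ha hb hc' (Ps (by grind) (Pm pa pb)) (Ps (by grind) (Pm pa pc))
    (Ps (by grind) (Pm pb pc)) (Ps (by grind) (Pm (Pm pa pb) pc)))

end Cfsg.Agent.S7
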