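import Mathlib
import Cfsg.Agent.S7.D6
import Cfsg.Agent.S7.S27
import Cfsg.Agent.S7.Blk2

set_option autoImplicit false
set_option linter.unusedVariables false
set_option linter.unusedSectionVars false

namespace Cfsg.Agent.S7

open Matrix Cfsg.Geo Cfsg.Agent.Cl.D5 Module
open scoped MatrixGroups ComplexConjugate commutatorElement

variable {F : Type*} [Field F] [Fintype F]

local notation "M7" => Matrix (Fin 7) (Fin 7) F
local notation "SL7" => specialLinear (Fin 7) F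
local notation "Z7" => scalars (Fin 7) F
local notation "GL7" => GL (Fin 7) F

variable {ω : F} {x y : GL (Fin 7) F} {φ : SL(2, ZMod 7) →* GL (Fin 7) F}
  {M : Subgroup (GL (Fin 7) F)}

namespace E8c

theorem add (h2 : (2 : F) = 0) {m m' : Matrix (Fin 3) (Fin 3) F} (h : In M (qM 0 0 m)) (h' : In M (qM 0 0 m')) :
    In M (qM 0 0 (m + m')) := by
  obtain ⟨g, hg, e⟩ := h
  obtain ⟨g', hg', e'⟩ := h'
  exact ⟨g * g', mul_mem hg hg', by rw [Units.val_mul, e, e', qM_mul h2]; simp⟩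

theorem stepT (h : Std ω x y φ M) (h2 : (2 : F) = 0) {a b c d e f g k i : F}
    (hm : In M (qM 0 0 !![a, b, c; d, e, f; g, k, i])) :
    In M (qM 0 0 !![a, ω ^ 4 * b, ω ^ 6 * c; ω ^ 3 * d, e, ω ^ 2 * f; ω * g, ω ^ 5 * k, i]) := by
  obtain ⟨u, hu, q⟩ := hm
  have h7 := h.om.pow_eq_one
  refine ⟨φ uu * u * φ uu ^ 6, mul_mem (mul_mem (h.fm _) hu) (pow_mem (h.fm _) _), ?_⟩
  rw [Units.val_mul, Units.val_mul, Units.val_pow_eq_pow_val, h.weil.hu, q, qM_dq h2 h7, mulVec_zero, mulVec_zero]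
  congr 1
  ext i j
  rw [mul_diagonal, diagonal_mul]
  fin_cases i <;> fin_cases j <;> simp
  · linear_combination a * h7
  · ring
  · ring
  · linear_combination ω ^ 3 * d * h7
  · linear_combination e * h7
  · linear_combination ω ^ 2 * f * h7
  · linear_combination ω * g * h7
  · ring
  · linear_combination i * h7

theorem diag (h : Std ω x y φ M) (h2 : (2 : F) = 0) (h3 : ω ^ 3 = ω + 1) {a b c d e f g k i : F}
    (h0 : In M (qM 0 0 !![a, b, c; d, e, f; g, k, i])) : In M (qM 0 0 (diagonal ![a, e, i])) := by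
  have k0 := add h2 (add h2 h0 (stepT h h2 h0)) (stepT h h2 (stepT h h2 (stepT h h2 h0)))
  simp only [of_add_of, cons_add_cons, empty_add_empty] at k0
  have k1 := add h2 (add h2 k0 (stepT h h2 (stepT h h2 k0))) (stepT h h2 (stepT h h2 (stepT h h2 k0)))
  simp only [of_add_of, cons_add_cons, empty_add_empty] at k1
  convert k1 using 2
  ext i j
  fin_cases i <;> fin_cases j <;> simp <;> grind

/-- The action of the Fourier matrix on the odd vectors. -/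
def w3 (ω : F) : Matrix (Fin 3) (Fin 3) F := !![ω ^ 3, ω ^ 6, ω ^ 5; ω ^ 6, ω ^ 5, ω ^ 3; ω ^ 5, ω ^ 3, ω ^ 6]

theorem w3_sq (h2 : (2 : F) = 0) (h3 : ω ^ 3 = ω + 1) : w3 ω * w3 ω = 1 := by
  ext i j
  fin_cases i <;> fin_cases j <;> simp [w3, mul_apply, Fin.sum_univ_three] <;> grind

theorem r3_w (h2 : (2 : F) = 0) (h3 : ω ^ 3 = ω + 1) : r3 (wM ω) = w3 ω := by
  ext i j
  fin_cases i <;> fin_cases j <;> simp [w3, r3, R3, E3, wM, mul_apply, Fin.sum_univ_seven, vecHead, vecTail] <;>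
    grind

theorem stepW (h : Std ω x y φ M) (h2 : (2 : F) = 0) (h3 : ω ^ 3 = ω + 1) {m : Matrix (Fin 3) (Fin 3) F}
    (hm : In M (qM 0 0 m)) : In M (qM 0 0 (w3 ω * m * w3 ω)) := by
  obtain ⟨u, hu, q⟩ := hm
  obtain ⟨ρ, r1, -, r2⟩ := exists_rho h2 h.weil.hz
  obtain ⟨γ, hγ, e⟩ := h.weil.hw
  obtain rfl : γ = 1 := by linear_combination hγ - (1 + γ * (ω + ω ^ 2 + ω ^ 4)) * h2
  have hc : φ ww ∈ Subgroup.centralizer ({φ (-1)} : Set GL7) :=
    Subgroup.mem_centralizer_singleton_iff.2 (by rw [← map_mul, ← map_mul, mul_neg_one, neg_one_mul])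
  have e1 : (ρ ⟨_, hc⟩ : Matrix (Fin 3) (Fin 3) F) = w3 ω := by rw [r1, ← r3_w h2 h3, ← one_smul F (wM ω), ← e]
  have e2 : (((ρ ⟨_, hc⟩)⁻¹ : GL (Fin 3) F) : Matrix (Fin 3) (Fin 3) F) = w3 ω :=
    Units.inv_eq_of_mul_eq_one_right (by rw [e1, w3_sq h2 h3])
  refine ⟨φ ww * u * (φ ww)⁻¹, mul_mem (mul_mem (h.fm _) hu) (inv_mem (h.fm _)), ?_⟩
  rw [Units.val_mul, Units.val_mul, q, r2 ⟨_, hc⟩ m, e1, e2]

theorem eqD (h : Std ω x y φ M) (h2 : (2 : F) = 0) (h3 : ω ^ 3 = ω + 1)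
    (H : ∀ d : Fin 3 → F, In M (qM 0 0 (diagonal d)) → d = 0 ∨ d = 1) {m : Matrix (Fin 3) (Fin 3) F}
    (hm : In M (qM 0 0 m)) : m 0 0 = m 1 1 ∧ m 1 1 = m 2 2 := by
  rw [eta_fin_three m] at hm
  rcases H _ (diag h h2 h3 hm) with e | e
  · exact ⟨(congrFun e 0).trans (congrFun e 1).symm, (congrFun e 1).trans (congrFun e 2).symm⟩
  · exact ⟨(congrFun e 0).trans (congrFun e 1).symm, (congrFun e 1).trans (congrFun e 2).symm⟩

theorem eqW (h : Std ω x y φ M) (h2 : (2 : F) = 0) (h3 : ω ^ 3 = ω + 1)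
    (H : ∀ d : Fin 3 → F, In M (qM 0 0 (diagonal d)) → d = 0 ∨ d = 1) {a b c d e f g k i : F}
    (hm : In M (qM 0 0 !![a, b, c; d, e, f; g, k, i])) :
    ω * (b + d) + ω ^ 4 * (c + g) + ω ^ 2 * (f + k) = 0 ∧ ω ^ 2 * (b + d) + ω * (c + g) + ω ^ 4 * (f + k) = 0 := by
  obtain ⟨p1, p2⟩ := eqD h h2 h3 H hm
  obtain ⟨q1, q2⟩ := eqD h h2 h3 H (stepW h h2 h3 hm)
  simp [w3, mul_apply, Fin.sum_univ_three] at p1 p2 q1 q2
  subst p1 p2
  clear hm H h
  constructor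
  · clear q2
    grind
  · clear q1
    grind

end E8c

open E8c in
theorem Std.e8c (h : Std ω x y φ M) (h8 : Fintype.card F = 8) (h3 : ω ^ 3 = ω + 1)
    {m : Matrix (Fin 3) (Fin 3) F} (hm : In M (qM 0 0 m)) (h0 : m ≠ 0) (h1 : m ≠ 1) :
    ∃ d : Fin 3 → F, d ≠ 0 ∧ d ≠ 1 ∧ In M (qM 0 0 (diagonal d)) := by
  have h2 : (2 : F) = 0 := by
    have := FiniteField.cast_card_eq_zero F
    rw [h8] at this
    exact pow_eq_zero_iff (n := 3) (by norm_num) |>.1 (by rw [← this]; norm_num)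
  by_contra hn
  have H : ∀ d : Fin 3 → F, In M (qM 0 0 (diagonal d)) → d = 0 ∨ d = 1 := fun d hd => by
    by_contra! q
    exact hn ⟨d, q.1, q.2, hd⟩
  obtain ⟨a, b, c, d, e, f, g, k, i, rfl⟩ : ∃ a b c d e f g k i, m = !![a, b, c; d, e, f; g, k, i] :=
    ⟨_, _, _, _, _, _, _, _, _, eta_fin_three m⟩
  obtain ⟨p0, q0⟩ := eqW h h2 h3 H hm
  obtain ⟨p1, q1⟩ := eqW h h2 h3 H (stepT h h2 hm)
  obtain ⟨p2, q2⟩ := eqW h h2 h3 H (stepT h h2 (stepT h h2 hm))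
  obtain ⟨p3, q3⟩ := eqW h h2 h3 H (stepT h h2 (stepT h h2 (stepT h h2 hm)))
  have k0 : b = 0 ∧ c = 0 ∧ d = 0 ∧ f = 0 ∧ g = 0 ∧ k = 0 := by
    clear hm h0 h1 hn H h h8
    grind
  obtain ⟨rfl, rfl, rfl, rfl, rfl, rfl⟩ := k0
  have e0 : !![a, 0, 0; 0, e, 0; 0, 0, i] = diagonal ![a, e, i] := by
    ext i j
    fin_cases i <;> fin_cases j <;> simp
  rw [e0] at h0 h1
  rcases H _ (diag h h2 h3 hm) with q | q
  · exact h0 (by rw [q]; exact diagonal_zero)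
  · exact h1 (by rw [q]; exact diagonal_one)

end Cfsg.Agent.S7
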