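import Mathlib
import Cfsg.Agent.S7.D6
import Cfsg.Agent.S7.S27
import Cfsg.Agent.S7.Blk2

set_option autoImplicit false

namespace Cfsg.Agent.S7

open Matrix Cfsg.Geo Cfsg.Agent.Cl.D5 Module
open scoped MatrixGroups ComplexConjugate commutatorElement

variable {F : Type*} [Field F] [Fintype F]

local notation "M7" => Matrix (Fin 7) (Fin 7) F
local notation "SL7" => specialLinear (Fin 7) F
local notation "Z7" => scalars (Fin 7) F
local notation "GL7" => GL (Fin 7) F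

variable {ω : F} {x y : GL (Fin 7) F} {φ : SL(2, ZMod 7) →* GL (Fin 7) F}
  {M : Subgroup (GL (Fin 7) F)}

namespace E8d

/-- the action of the Fourier matrix on the odd vectors -/
def w3 (ω : F) : Matrix (Fin 3) (Fin 3) F :=
  !![ω ^ 3, ω ^ 6, ω ^ 5; ω ^ 6, ω ^ 5, ω ^ 3; ω ^ 5, ω ^ 3, ω ^ 6]

theorem two (h8 : Fintype.card F = 8) : (2 : F) = 0 := by
  have := FiniteField.cast_card_eq_zero F
  rw [h8] at this
  exact pow_eq_zero_iff (n := 3) (by norm_num) |>.1 (by norm_num; exact_mod_cast this)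

omit [Fintype F] in
theorem WE [CharP F 2] (h3 : ω ^ 3 = ω + 1) : wM ω * E3 F = E3 F * w3 ω := by
  ext i j
  fin_cases i <;> fin_cases j <;> simp [wM, E3, w3, Matrix.mul_apply, Fin.sum_univ_succ] <;> grind

omit [Fintype F] in
theorem EW [CharP F 2] (h3 : ω ^ 3 = ω + 1) : (E3 F)ᵀ * wM ω = w3 ω * (E3 F)ᵀ := by
  have h1 : (wM ω)ᵀ = wM ω := by
    ext i j
    simp only [wM, transpose_apply, of_apply, mul_right_comm]
  have h2 : (w3 ω)ᵀ = w3 ω := by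
    ext i j
    fin_cases i <;> fin_cases j <;> rfl
  rw [← h1, ← transpose_mul, WE h3, transpose_mul, h2]

omit [Fintype F] in
theorem ww3 [CharP F 2] (h3 : ω ^ 3 = ω + 1) : w3 ω * w3 ω = 1 := by
  ext i j
  fin_cases i <;> fin_cases j <;> simp [w3, Matrix.mul_apply, Fin.sum_univ_succ] <;> grind

omit [Fintype F] in
theorem We [CharP F 2] : wM ω *ᵥ Pi.single 0 1 = Pi.single 0 1 + E3 F *ᵥ 1 := by
  ext i
  fin_cases i <;> simp [wM, E3, mulVec, dotProduct, Fin.sum_univ_succ] <;> grind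

omit [Fintype F] in
theorem conjW [CharP F 2] (h3 : ω ^ 3 = ω + 1) (b : Fin 3 → F) (m : Matrix (Fin 3) (Fin 3) F) :
    wM ω * qM 0 b m = qM 0 (w3 ω *ᵥ b) (w3 ω * m * w3 ω + vecMulVec 1 (w3 ω *ᵥ b)) * wM ω := by
  have h2 : (w3 ω)ᵀ = w3 ω := by
    ext i j
    fin_cases i <;> fin_cases j <;> rfl
  have e1 : (w3 ω *ᵥ b) ᵥ* w3 ω = b := by
    rw [← mulVec_transpose, h2, mulVec_mulVec, ww3 h3, one_mulVec]
  have e2 : (E3 F *ᵥ (w3 ω *ᵥ b)) ᵥ* wM ω = E3 F *ᵥ b := by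
    rw [← vecMul_transpose, vecMul_vecMul, EW h3, ← vecMul_vecMul, e1, vecMul_transpose]
  simp only [qM, mulVec_zero, zero_vecMulVec, add_zero, Matrix.mul_add, Matrix.add_mul, Matrix.mul_one,
    Matrix.one_mul, mul_vecMulVec, vecMulVec_mul, We, e2, add_vecMulVec, Matrix.mul_assoc, EW h3]
  rw [← Matrix.mul_assoc (wM ω), WE h3, ← Matrix.mul_assoc (w3 ω) (w3 ω), ww3 h3, Matrix.one_mul,
    vecMul_transpose, Matrix.mul_assoc, e2]
  abel

omit [Fintype F] in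
theorem add (h2 : (2 : F) = 0) {b b' : Fin 3 → F} {m m' : Matrix (Fin 3) (Fin 3) F}
    (h : In M (qM 0 b m)) (h' : In M (qM 0 b' m')) : In M (qM 0 (b + b') (m + m')) := by
  obtain ⟨g, hg, e⟩ := h
  obtain ⟨k, hk, e'⟩ := h'
  exact ⟨g * k, mul_mem hg hk, by rw [Units.val_mul, e, e', qM_mul h2, add_zero, zero_vecMulVec, add_zero]⟩

/-- the action of the diagonal generator -/
def T (ω : F) (b : Fin 3 → F) : Fin 3 → F := diagonal ![ω ^ 6, ω ^ 3, ω ^ 5] *ᵥ b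

/-- the action on the matrix part -/
def U (ω : F) (m : Matrix (Fin 3) (Fin 3) F) : Matrix (Fin 3) (Fin 3) F :=
  diagonal ![ω, ω ^ 4, ω ^ 2] * m * diagonal ![ω ^ 6, ω ^ 3, ω ^ 5]

omit [Fintype F] in
theorem tee (h : Std ω x y φ M) (h2 : (2 : F) = 0) {b : Fin 3 → F} {m : Matrix (Fin 3) (Fin 3) F}
    (hm : In M (qM 0 b m)) : In M (qM 0 (T ω b) (U ω m)) := by
  obtain ⟨g, hg, e⟩ := hm
  refine ⟨φ uu * g * φ uu ^ 6, mul_mem (mul_mem (h.fm _) hg) (pow_mem (h.fm _) _), ?_⟩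
  rw [Units.val_mul, Units.val_mul, Units.val_pow_eq_pow_val, h.weil.hu, e, qM_dq h2 h.om.pow_eq_one,
    mulVec_zero, T, U]

omit [Fintype F] in
theorem dub [CharP F 2] (h : Std ω x y φ M) (h3 : ω ^ 3 = ω + 1) {b : Fin 3 → F}
    {m : Matrix (Fin 3) (Fin 3) F} (hm : In M (qM 0 b m)) :
    In M (qM 0 (w3 ω *ᵥ b) (w3 ω * m * w3 ω + vecMulVec 1 (w3 ω *ᵥ b))) := by
  obtain ⟨g, hg, e⟩ := hm
  obtain ⟨γ, h1, h4⟩ := h.weil.hw
  obtain rfl : γ = 1 := by grind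
  rw [one_smul] at h4
  refine ⟨φ ww * g * (φ ww)⁻¹, mul_mem (mul_mem (h.fm _) hg) (inv_mem (h.fm _)), ?_⟩
  rw [Units.val_mul, Units.val_mul, e, h4, conjW h3, Matrix.mul_assoc, ← h4, Units.mul_inv, Matrix.mul_one]

omit [Fintype F] in
theorem T_ap (b : Fin 3 → F) : T ω b 0 = ω ^ 6 * b 0 ∧ T ω b 1 = ω ^ 3 * b 1 ∧ T ω b 2 = ω ^ 5 * b 2 := by
  simp [T, mulVec_diagonal]

omit [Fintype F] in
theorem U_ap (m : Matrix (Fin 3) (Fin 3) F) (i j : Fin 3) :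
    U ω m i j = ![ω, ω ^ 4, ω ^ 2] i * m i j * ![ω ^ 6, ω ^ 3, ω ^ 5] j := by
  rw [U, mul_diagonal, diagonal_mul]

omit [Fintype F] in
theorem shape [CharP F 2] (h : Std ω x y φ M) (h3 : ω ^ 3 = ω + 1)
    (hE : ∀ m, In M (qM 0 0 m) → m = 0 ∨ m = 1) {b : Fin 3 → F} {m : Matrix (Fin 3) (Fin 3) F}
    (hm : In M (qM 0 b m)) : m 0 1 = 0 ∧ m 1 2 = 0 ∧ m 2 0 = 0 ∧ m 1 1 = m 0 0 ∧ m 2 2 = m 0 0 ∧
      (m 0 0 = 0 ∨ m 0 0 = 1) := by
  have h2 : (2 : F) = 0 := CharTwo.two_eq_zero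
  have k := add h2 (add h2 (tee h h2 (tee h h2 (tee h h2 hm))) (tee h h2 (tee h h2 hm))) hm
  have e : T ω (T ω (T ω b)) + T ω (T ω b) + b = 0 := by
    ext i
    fin_cases i <;> simp [T_ap] <;> grind
  rw [e] at k
  have k1 := fun i j => (hE _ k).imp (fun e => congrFun (congrFun e i) j) fun e => congrFun (congrFun e i) j
  have k2 : ∀ i j i' j', i = j → i' = j' → (U ω (U ω (U ω m)) + U ω (U ω m) + m) i j =
      (U ω (U ω (U ω m)) + U ω (U ω m) + m) i' j' := by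
    rintro i _ i' _ rfl rfl
    rcases hE _ k with e | e <;> rw [e] <;> simp
  have a1 := k1 0 1
  have a2 := k1 1 2
  have a3 := k1 2 0
  have a4 := k1 0 0
  have a5 := k2 1 1 0 0 rfl rfl
  have a6 := k2 2 2 0 0 rfl rfl
  simp [U_ap] at a1 a2 a3 a4 a5 a6
  refine ⟨by grind, by grind, by grind, by grind, by grind, a4.imp (fun e => by grind) fun e => by grind⟩

omit [Fintype F] in
theorem main [CharP F 2] (h : Std ω x y φ M) (h3 : ω ^ 3 = ω + 1)
    (hE : ∀ m, In M (qM 0 0 m) → m = 0 ∨ m = 1) {b : Fin 3 → F} {m : Matrix (Fin 3) (Fin 3) F}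
    (hm : In M (qM 0 b m)) : In M (qM 0 b !![0, 0, b 0; b 1, 0, 0; 0, b 2, 0]) ∧
      (b 0 + b 1 + b 2 = 0 ∨ b 0 + b 1 + b 2 = 1) := by
  have h2 : (2 : F) = 0 := CharTwo.two_eq_zero
  wlog h0 : m 0 0 = 0 generalizing m
  · have k := add h2 hm ⟨φ (-1), h.fm _, h.weil.hz.trans (qM_one h2).2.symm⟩
    rw [add_zero] at k
    refine this k ?_
    rw [Matrix.add_apply, (shape h h3 hE hm).2.2.2.2.2.resolve_left h0, one_apply_eq]
    exact CharTwo.add_self_eq_zero _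
  obtain ⟨a1, a2, a3, a4, a5, -⟩ := shape h h3 hE hm
  obtain ⟨c1, c2, c3, c4, c5, c6⟩ := shape h h3 hE (dub h h3 hm)
  rw [h0] at a4 a5
  simp only [Matrix.add_apply, Matrix.mul_apply, Fin.sum_univ_three, mulVec, dotProduct, vecMulVec_apply, h0, a1,
    a2, a3, a4, a5] at c1 c2 c3 c4 c5 c6
  simp [w3] at c1 c2 c3 c4 c5 c6
  have e1 : m 0 2 = b 0 := by grind
  have e2 : m 1 0 = b 1 := by grind
  have e3 : m 2 1 = b 2 := by grind
  refine ⟨?_, c6.imp (fun e => by grind) fun e => by grind⟩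
  convert hm using 2
  ext i j
  fin_cases i <;> fin_cases j <;> simp [*]

end E8d

open E8d in
theorem Std.e8d (h : Std ω x y φ M) (h8 : Fintype.card F = 8) (h3 : ω ^ 3 = ω + 1)
    (hE : ∀ m, In M (qM 0 0 m) → m = 0 ∨ m = 1) {b : Fin 3 → F} {m : Matrix (Fin 3) (Fin 3) F}
    (hm : In M (qM 0 b m)) (hb : b ≠ 0) : In M (y1M F) := by
  have h2 := two h8
  have : CharP F 2 := CharTwo.of_one_ne_zero_of_two_eq_zero one_ne_zero h2
  let s : (Fin 3 → F) → F := fun b => b 0 + b 1 + b 2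
  let C : F → F → F → Prop := fun c0 c1 c2 => ∀ b m, In M (qM 0 b m) → s b = c0 → s (T ω b) = c1 →
    s (T ω (T ω b)) = c2 → In M (y1M F)
  have step : ∀ c0 c1 c2 c3, c3 = c2 + c0 → C c1 c2 c3 → C c0 c1 c2 := fun c0 c1 c2 c3 e k b m hm e0 e1 e2 =>
    k _ _ (tee h h2 hm) e1 e2 (by
      rw [e, ← e0, ← e2]
      simp only [s, T_ap]
      grind)
  have c111 : C 1 1 1 := fun b m hm e0 e1 e2 => by
    simp only [s, T_ap] at e0 e1 e2
    obtain rfl : b = 1 := by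
      ext i
      fin_cases i <;> simp <;> grind
    exact (main h h3 hE hm).1
  have c011 := step 0 1 1 1 (by grind) c111
  have c001 := step 0 0 1 1 (by grind) c011
  have c100 := step 1 0 0 1 (by grind) c001
  have c010 := step 0 1 0 0 (by grind) c100
  have c101 := step 1 0 1 0 (by grind) c010
  have c110 := step 1 1 0 1 (by grind) c101
  rcases (main h h3 hE hm).2 with e0 | e0 <;> rcases (main h h3 hE (tee h h2 hm)).2 with e1 | e1 <;>
    rcases (main h h3 hE (tee h h2 (tee h h2 hm))).2 with e2 | e2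
  · refine absurd ?_ hb
    simp only [T_ap] at e0 e1 e2
    ext i
    fin_cases i <;> simp <;> grind
  exacts [c001 b m hm e0 e1 e2, c010 b m hm e0 e1 e2, c011 b m hm e0 e1 e2, c100 b m hm e0 e1 e2,
    c101 b m hm e0 e1 e2, c110 b m hm e0 e1 e2, c111 b m hm e0 e1 e2]

end Cfsg.Agent.S7
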