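import Mathlib
import Cfsg.Agent.S7.D6
import Cfsg.Agent.S7.S27
import Cfsg.Agent.S7.Blk2

set_option autoImplicit false
set_option linter.unusedSimpArgs false

namespace Cfsg.Agent.S7

open Matrix Cfsg.Geo Cfsg.Agent.Cl.D5 Module
open scoped MatrixGroups ComplexConjugate commutatorElement

variable {F : Type*} [Field F] [Fintype F]

local notation "M7" => Matrix (Fin 7) (Fin 7) F
local notation "SL7" => specialLinear (Fin 7) F
local notation "Z7" => scalars (Fin 7) F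
local notation "GL7" => GL (Fin 7) F

variable {ω : F} {x y : GL (Fin 7) F} {φ : SL(2, ZMod 7) →* GL (Fin 7) F}
  {M : Subgroup (GL (Fin 7) F)}

/-- The action of the Fourier matrix on the odd vectors. -/
def e8eW (ω : F) : Matrix (Fin 3) (Fin 3) F :=
  !![ω ^ 3, ω ^ 6, ω ^ 5; ω ^ 6, ω ^ 5, ω ^ 3; ω ^ 5, ω ^ 3, ω ^ 6]

theorem e8e_two (h8 : Fintype.card F = 8) : (2 : F) = 0 := by
  have h := Nat.cast_card_eq_zero F
  rw [h8] at h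
  exact pow_eq_zero_iff (n := 3) (by norm_num) |>.1 (by rw [← h]; norm_num)

omit [Fintype F] in
theorem e8e_wM (h7 : ω ^ 7 = 1) : wM ω = !![1, 1, 1, 1, 1, 1, 1;
    1, ω ^ 2, ω ^ 4, ω ^ 6, ω, ω ^ 3, ω ^ 5; 1, ω ^ 4, ω, ω ^ 5, ω ^ 2, ω ^ 6, ω ^ 3;
    1, ω ^ 6, ω ^ 5, ω ^ 4, ω ^ 3, ω ^ 2, ω; 1, ω, ω ^ 2, ω ^ 3, ω ^ 4, ω ^ 5, ω ^ 6;
    1, ω ^ 3, ω ^ 6, ω ^ 2, ω ^ 5, ω, ω ^ 4; 1, ω ^ 5, ω ^ 3, ω, ω ^ 6, ω ^ 4, ω ^ 2] := by
  ext i j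
  rw [wM, of_apply, pow_eq_pow_mod _ h7]
  fin_cases i <;> fin_cases j <;> simp

omit [Fintype F] in
theorem e8e_WE (h2 : (2 : F) = 0) (h3 : ω ^ 3 = ω + 1) (h7 : ω ^ 7 = 1) :
    wM ω * E3 F = E3 F * e8eW ω := by
  rw [e8e_wM h7]
  ext i j
  fin_cases i <;> fin_cases j <;> simp [E3, e8eW, Matrix.mul_apply, Fin.sum_univ_succ] <;> grind

omit [Fintype F] in
theorem e8e_EW (h2 : (2 : F) = 0) (h3 : ω ^ 3 = ω + 1) (h7 : ω ^ 7 = 1) :
    (E3 F)ᵀ * wM ω = e8eW ω * (E3 F)ᵀ := by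
  rw [e8e_wM h7]
  ext i j
  fin_cases i <;> fin_cases j <;> simp [E3, e8eW, Matrix.mul_apply, Fin.sum_univ_succ] <;> grind

omit [Fintype F] in
theorem e8e_WW (h2 : (2 : F) = 0) (h3 : ω ^ 3 = ω + 1) : e8eW ω * e8eW ω = 1 := by
  ext i j
  fin_cases i <;> fin_cases j <;> simp [e8eW, Matrix.mul_apply, Fin.sum_univ_succ] <;> grind

omit [Fintype F] in
theorem e8e_row (h2 : (2 : F) = 0) (h3 : ω ^ 3 = ω + 1) (h7 : ω ^ 7 = 1) :
    (1 : Fin 3 → F) ᵥ* (e8eW ω * (E3 F)ᵀ) + Pi.single 0 1 ᵥ* wM ω = Pi.single 0 1 := by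
  rw [e8e_wM h7]
  ext j
  fin_cases j <;> simp [E3, e8eW, Matrix.mul_apply, vecMul, dotProduct, Fin.sum_univ_succ, vecHead, vecTail] <;>
    grind

omit [Fintype F] in
theorem e8e_conj (h2 : (2 : F) = 0) (h3 : ω ^ 3 = ω + 1) (h7 : ω ^ 7 = 1) (a : Fin 3 → F)
    (m : Matrix (Fin 3) (Fin 3) F) : wM ω * qM a 0 m =
      qM (e8eW ω *ᵥ a) 0 (e8eW ω * m * e8eW ω + vecMulVec (e8eW ω *ᵥ a) 1) * wM ω := by
  have h1 : E3 F * (e8eW ω * m * e8eW ω) * (E3 F)ᵀ * wM ω = wM ω * (E3 F * m * (E3 F)ᵀ) := by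
    rw [Matrix.mul_assoc _ _ (wM ω), e8e_EW h2 h3 h7, ← Matrix.mul_assoc (wM ω), ← Matrix.mul_assoc (wM ω),
      e8e_WE h2 h3 h7]
    simp only [Matrix.mul_assoc]
    rw [← Matrix.mul_assoc (e8eW ω) (e8eW ω), e8e_WW h2 h3, Matrix.one_mul]
  have h4 : E3 F * (vecMulVec (e8eW ω *ᵥ a) 1 : Matrix (Fin 3) (Fin 3) F) * (E3 F)ᵀ * wM ω +
      vecMulVec (E3 F *ᵥ (e8eW ω *ᵥ a)) (Pi.single 0 1) * wM ω =
      wM ω * vecMulVec (E3 F *ᵥ a) (Pi.single 0 1) := by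
    rw [Matrix.mul_assoc _ _ (wM ω), e8e_EW h2 h3 h7, mul_vecMulVec, mul_vecMulVec, vecMulVec_mul, vecMulVec_mul,
      ← vecMulVec_add, e8e_row h2 h3 h7, mulVec_mulVec, mulVec_mulVec, e8e_WE h2 h3 h7]
  simp only [qM, mulVec_zero, vecMulVec_zero, add_zero, Matrix.mul_add, Matrix.add_mul, Matrix.mul_one,
    Matrix.one_mul]
  rw [h1, ← h4]
  abel

omit [Fintype F] in
theorem e8e_mul {A B : M7} (hA : In M A) (hB : In M B) : In M (A * B) := by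
  obtain ⟨g, hg, rfl⟩ := hA
  obtain ⟨k, hk, rfl⟩ := hB
  exact ⟨g * k, M.mul_mem hg hk, rfl⟩

section

omit [Fintype F]

variable (h : Std ω x y φ M) (h2 : (2 : F) = 0) (h3 : ω ^ 3 = ω + 1)
  {a a' : Fin 3 → F} {m m' : Matrix (Fin 3) (Fin 3) F}

include h2 in
theorem e8e_add (k : In M (qM a 0 m)) (k' : In M (qM a' 0 m')) : In M (qM (a + a') 0 (m + m')) := by
  have := e8e_mul k k'
  rwa [qM_mul h2, vecMulVec_zero, add_zero, add_zero] at this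

include h h2 in
theorem e8e_z : In M (qM 0 0 1) := ⟨φ (-1), h.fm _, by rw [h.weil.hz, (qM_one h2).2]⟩

include h h2 in
theorem e8e_T (k : In M (qM a 0 m)) : In M (qM (diagonal ![ω, ω ^ 4, ω ^ 2] *ᵥ a) 0
    (diagonal ![ω, ω ^ 4, ω ^ 2] * m * diagonal ![ω ^ 6, ω ^ 3, ω ^ 5])) := by
  have := e8e_mul (e8e_mul ⟨φ uu, h.fm _, h.weil.hu⟩ k)
    (⟨φ uu ^ 6, M.pow_mem (h.fm _) _, by rw [Units.val_pow_eq_pow_val, h.weil.hu]⟩ : In M (dqM ω ^ 6))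
  rwa [qM_dq h2 h.om.pow_eq_one, mulVec_zero] at this

include h h2 h3 in
theorem e8e_W (k : In M (qM a 0 m)) :
    In M (qM (e8eW ω *ᵥ a) 0 (e8eW ω * m * e8eW ω + vecMulVec (e8eW ω *ᵥ a) 1)) := by
  obtain ⟨γ, h1, h4⟩ := h.weil.hw
  have h5 : γ = 1 := by grind
  rw [h5, one_smul] at h4
  obtain ⟨g, hg, e⟩ := k
  refine ⟨φ ww * g * (φ ww)⁻¹, M.mul_mem (M.mul_mem (h.fm _) hg) (M.inv_mem (h.fm _)), ?_⟩
  rw [Units.val_mul, Units.mul_inv_eq_iff_eq_mul, Units.val_mul, h4, e, e8e_conj h2 h3 h.om.pow_eq_one]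

variable (hE : ∀ m, In M (qM 0 0 m) → m = 0 ∨ m = 1)
include h h2 h3 hE

theorem e8e_K (k : In M (qM a 0 m)) : m 1 0 = 0 ∧ m 2 1 = 0 ∧ m 0 2 = 0 ∧ m 1 1 = m 0 0 ∧ m 2 2 = m 0 0 ∧
    (m 0 0 = 0 ∨ m 0 0 = 1) := by
  have k1 := e8e_T h h2 k
  have k4 := e8e_add h2 (e8e_add h2 (e8e_T h h2 (e8e_T h h2 k1)) k1) k
  have e : diagonal ![ω, ω ^ 4, ω ^ 2] *ᵥ (diagonal ![ω, ω ^ 4, ω ^ 2] *ᵥ (diagonal ![ω, ω ^ 4, ω ^ 2] *ᵥ a)) +
      diagonal ![ω, ω ^ 4, ω ^ 2] *ᵥ a + a = 0 := by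
    ext i
    fin_cases i <;> simp [mulVec_diagonal] <;> grind
  rw [e] at k4
  rcases hE _ k4 with e1 | e1 <;>
  · have e10 := congrFun (congrFun e1 1) 0
    have e21 := congrFun (congrFun e1 2) 1
    have e02 := congrFun (congrFun e1 0) 2
    have e00 := congrFun (congrFun e1 0) 0
    have e11 := congrFun (congrFun e1 1) 1
    have e22 := congrFun (congrFun e1 2) 2
    simp only [Matrix.add_apply, mul_diagonal, diagonal_mul, cons_val, Matrix.zero_apply, Matrix.one_apply, Fin.reduceEq, if_true,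
      if_false] at e10 e21 e02 e00 e11 e22
    refine ⟨by grind, by grind, by grind, by grind, by grind, by grind⟩

theorem e8e_L (k : In M (qM a 0 m)) : m 0 1 = a 1 ∧ m 1 2 = a 2 ∧ m 2 0 = a 0 ∧
    (a 0 + a 1 + a 2 = 0 ∨ a 0 + a 1 + a 2 = 1) := by
  obtain ⟨k1, k2, k3, k4, k5, k6⟩ := e8e_K h h2 h3 hE k
  obtain ⟨l1, l2, l3, l4, l5, l6⟩ := e8e_K h h2 h3 hE (e8e_W h h2 h3 k)
  simp only [Matrix.add_apply, Matrix.mul_apply, vecMulVec_apply, mulVec, dotProduct, Fin.sum_univ_three, e8eW, of_apply,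
    cons_val, Pi.one_apply, mul_one, k1, k2, k3, k4, k5] at l1 l2 l3 l4 l5 l6
  refine ⟨by grind, by grind, by grind, ?_⟩
  rcases k6 with k6 | k6 <;> rcases l6 with l6 | l6
  · left; grind
  · right; grind
  · right; grind
  · left; grind

theorem e8e_fin (k : In M (qM 1 0 m)) : In M (y2M F) := by
  obtain ⟨k1, k2, k3, k4, k5, k6⟩ := e8e_K h h2 h3 hE k
  obtain ⟨l1, l2, l3, -⟩ := e8e_L h h2 h3 hE k
  rcases k6 with k6 | k6
  · have : m = !![0, 1, 0; 0, 0, 1; 1, 0, 0] := by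
      ext i j
      fin_cases i <;> fin_cases j <;> simp [k1, k2, k3, k4, k5, k6, l1, l2, l3]
    rwa [this] at k
  · have k' := e8e_add h2 k (e8e_z h h2)
    have : m + 1 = !![0, 1, 0; 0, 0, 1; 1, 0, 0] := by
      ext i j
      fin_cases i <;> fin_cases j <;> simp [k1, k2, k3, k4, k5, k6, l1, l2, l3, one_add_one_eq_two, h2]
    rwa [this, add_zero] at k'

omit h3 hE in
theorem e8e_pow (n : ℕ) (k : In M (qM a 0 m)) :
    ∃ m', In M (qM ![ω ^ n * a 0, (ω ^ 4) ^ n * a 1, (ω ^ 2) ^ n * a 2] 0 m') := by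
  induction n with
  | zero =>
    refine ⟨m, ?_⟩
    convert k using 2
    ext i
    fin_cases i <;> simp
  | succ n ih =>
    obtain ⟨m', k'⟩ := ih
    refine ⟨diagonal ![ω, ω ^ 4, ω ^ 2] * m' * diagonal ![ω ^ 6, ω ^ 3, ω ^ 5], ?_⟩
    convert e8e_T h h2 k' using 2
    ext i
    fin_cases i <;> simp [mulVec_diagonal] <;> ring

theorem e8e_end (n : ℕ) (k : In M (qM a 0 m)) (e0 : ω ^ n * a 0 = 1) (e1 : (ω ^ 4) ^ n * a 1 = 1)
    (e2 : (ω ^ 2) ^ n * a 2 = 1) : In M (y2M F) := by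
  obtain ⟨m', k'⟩ := e8e_pow h h2 n k
  refine e8e_fin h h2 h3 hE (m := m') ?_
  convert k' using 2
  ext i
  fin_cases i <;> simp [e0, e1, e2]

end

theorem Std.e8e (h : Std ω x y φ M) (h8 : Fintype.card F = 8) (h3 : ω ^ 3 = ω + 1)
    (hE : ∀ m, In M (qM 0 0 m) → m = 0 ∨ m = 1) {a : Fin 3 → F} {m : Matrix (Fin 3) (Fin 3) F}
    (hm : In M (qM a 0 m)) (ha : a ≠ 0) : In M (y2M F) := by
  have h2 := e8e_two h8
  have s0 := (e8e_L h h2 h3 hE hm).2.2.2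
  obtain ⟨m1, k1⟩ := e8e_pow h h2 1 hm
  obtain ⟨m2, k2⟩ := e8e_pow h h2 2 hm
  have s1 := (e8e_L h h2 h3 hE k1).2.2.2
  have s2 := (e8e_L h h2 h3 hE k2).2.2.2
  simp only [cons_val] at s1 s2
  rcases s0 with s0 | s0 <;> rcases s1 with s1 | s1 <;> rcases s2 with s2 | s2
  · refine absurd (funext fun i => ?_) ha
    fin_cases i <;> simp <;> grind
  · exact e8e_end h h2 h3 hE 6 hm (by grind) (by grind) (by grind)
  · exact e8e_end h h2 h3 hE 5 hm (by grind) (by grind) (by grind)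
  · exact e8e_end h h2 h3 hE 3 hm (by grind) (by grind) (by grind)
  · exact e8e_end h h2 h3 hE 0 hm (by grind) (by grind) (by grind)
  · exact e8e_end h h2 h3 hE 4 hm (by grind) (by grind) (by grind)
  · exact e8e_end h h2 h3 hE 1 hm (by grind) (by grind) (by grind)
  · exact e8e_end h h2 h3 hE 2 hm (by grind) (by grind) (by grind)

end Cfsg.Agent.S7
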