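import Mathlib
import Cfsg.Agent.S7.D6
import Cfsg.Agent.S7.S27
import Cfsg.Agent.S7.Irr
import Cfsg.Agent.Cl.LinearTransv

set_option autoImplicit false

namespace Cfsg.Agent.S7

open Matrix Cfsg.Geo Cfsg.Agent.Cl.D5 Module
open scoped MatrixGroups ComplexConjugate commutatorElement

variable {F : Type*} [Field F] [Fintype F]

local notation "M7" => Matrix (Fin 7) (Fin 7) F
local notation "SL7" => specialLinear (Fin 7) F
local notation "Z7" => scalars (Fin 7) F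
local notation "GL7" => GL (Fin 7) F

/-- A 2-element of a group of order dividing 2520 is conjugate into every 2-subgroup of order
divisible by eight. -/
theorem End1.conj_mem {G : Type*} [Group G] (hG : Nat.card G ∣ 2520) {P : Subgroup G}
    (hP : IsPGroup 2 P) (h8 : 8 ∣ Nat.card P) {b : G} (hb : b ^ 8 = 1) : ∃ c, c * b * c⁻¹ ∈ P := by
  have : Finite G := Nat.finite_of_card_ne_zero fun h => by simp [h] at hG
  obtain ⟨S, hS⟩ := hP.exists_le_sylow
  have hz : IsPGroup 2 (Subgroup.zpowers b) := by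
    rintro ⟨_, k, rfl⟩
    refine ⟨3, Subtype.ext ?_⟩
    change (b ^ k) ^ (2 ^ 3) = 1
    rw [← zpow_natCast, ← _root_.zpow_mul, mul_comm, _root_.zpow_mul, zpow_natCast]
    norm_num [hb]
  obtain ⟨T, hT⟩ := hz.exists_le_sylow
  obtain ⟨c, rfl⟩ := MulAction.exists_smul_eq G T S
  have e : P = (c • T : Sylow 2 G) := by
    refine Subgroup.eq_of_le_of_card_ge hS ?_
    obtain ⟨k, hk⟩ := (c • T).isPGroup'.exists_card_eq
    have h1 : 2 ^ k ∣ 2520 := hk ▸ (Subgroup.card_subgroup_dvd_card _).trans hG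
    have h2 : k ≤ 3 := by
      by_contra h
      exact absurd ((pow_dvd_pow 2 (show 4 ≤ k by omega)).trans h1) (by norm_num)
    exact (hk.le.trans (Nat.pow_le_pow_right (by norm_num) h2)).trans (Nat.le_of_dvd Nat.card_pos h8)
  refine ⟨c, e ▸ ?_⟩
  rw [Sylow.coe_subgroup_smul]
  exact Subgroup.smul_mem_pointwise_smul b (MulAut.conj c) _ (hT (Subgroup.mem_zpowers b))

theorem end_syl {φ : SL(2, ZMod 7) →* GL (Fin 4) F} (h : Rep φ) {H : Subgroup (GL (Fin 4) F)}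
    (hle : φ.range ≤ H) (h4 : (scalars (Fin 4) F).relIndex H ∣ 2520) {b : GL (Fin 4) F}
    (hb : b ∈ H) (h8 : b ^ 8 = 1) : ∃ c ∈ H, ∃ A : SL(2, ZMod 7), (A ^ 4 = 1 ∨ A ^ 4 = -1) ∧
      c * b * c⁻¹ * (φ A)⁻¹ ∈ scalars (Fin 4) F := by
  obtain ⟨Q, hQ, -, h16⟩ := s27_syl
  let π := QuotientGroup.mk' ((scalars (Fin 4) F).subgroupOf H)
  let ψ := π.comp (φ.codRestrict H fun A => hle ⟨A, rfl⟩)
  have hπ : ∀ x : H, π x = 1 → (x : GL (Fin 4) F) ∈ scalars (Fin 4) F := fun x hx =>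
    Subgroup.mem_subgroupOf.1 ((QuotientGroup.eq_one_iff x).1 hx)
  have hk : ψ.ker ≤ Subgroup.zpowers (-1) := fun A hA => by
    rcases (h.ker A).1 (hπ _ hA) with rfl | rfl
    exacts [one_mem _, Subgroup.mem_zpowers _]
  have h1 : Nat.card (ψ.ker.subgroupOf Q) ∣ 2 := by
    rw [← Subgroup.card_map_of_injective Q.subtype_injective, Subgroup.subgroupOf_map_subtype]
    refine (Subgroup.card_dvd_of_le (inf_le_left.trans hk)).trans ?_
    rw [Nat.card_zpowers]
    exact orderOf_dvd_of_pow_eq_one (by simp)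
  have h2 : 8 ∣ Nat.card (Q.map ψ) := by
    have e := (ψ.ker.subgroupOf Q).card_mul_index
    rw [hQ, ← Subgroup.relIndex, Subgroup.relIndex_ker] at e
    rcases (Nat.dvd_prime Nat.prime_two).1 h1 with k | k <;> rw [k] at e <;> omega
  obtain ⟨c, A, hA, e⟩ := End1.conj_mem h4 ((IsPGroup.of_card (n := 4) hQ).map ψ) h2 (b := π ⟨b, hb⟩)
    (by rw [← map_pow, show (⟨b, hb⟩ : H) ^ 8 = 1 from Subtype.ext h8, map_one])
  obtain ⟨c, rfl⟩ := QuotientGroup.mk'_surjective _ c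
  refine ⟨c, c.2, A, h16 A hA, ?_⟩
  have : π (c * ⟨b, hb⟩ * c⁻¹ * (φ.codRestrict H (fun A => hle ⟨A, rfl⟩) A)⁻¹) = 1 := by
    simp only [map_mul, map_inv]
    exact mul_inv_eq_one.2 e.symm
  exact hπ _ this

theorem end_refl (h2 : (2 : F) ≠ 0) {φ : SL(2, ZMod 7) →* GL (Fin 4) F} (h : Rep φ)
    (h1 : φ (-1) = -1) {H : Subgroup (GL (Fin 4) F)} (hle : φ.range ≤ H)
    (h4 : (scalars (Fin 4) F).relIndex H ∣ 2520) {b : GL (Fin 4) F} (hb : b ∈ H) (hs : b * b = 1) :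
    ((b : Matrix (Fin 4) (Fin 4) F) - 1).rank ≠ 1 := by
  intro hr
  obtain ⟨v, η, hv, hη, e⟩ := Cl.exists_vecMulVec_of_rank_eq_one hr
  have eb : (b : Matrix (Fin 4) (Fin 4) F) = 1 + vecMulVec v η := by rw [← e]; abel
  have hd : (b : Matrix (Fin 4) (Fin 4) F).det = -1 := by
    have k := congrArg Units.val hs
    rw [Units.val_mul, eb, Units.val_one, add_mul, mul_add, mul_add, one_mul, one_mul, mul_one,
      vecMulVec_mul_vecMulVec, add_assoc, add_eq_left] at k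
    obtain ⟨i, hi⟩ := Function.ne_iff.1 hv
    obtain ⟨j, hj⟩ := Function.ne_iff.1 hη
    have k' := congrFun (congrFun k i) j
    simp only [Matrix.add_apply, vecMulVec_apply, Pi.smul_apply, smul_eq_mul, Matrix.zero_apply] at k'
    have : v i * η j * (2 + η ⬝ᵥ v) = 0 := by linear_combination k'
    rw [eb, Cl.det_one_add_vecMulVec]
    linear_combination (mul_eq_zero.1 this).resolve_left (mul_ne_zero hi hj)
  obtain ⟨c, -, A, -, hA⟩ := end_syl h hle h4 hb
    (by rw [show b ^ 8 = (b * b) ^ 4 by rw [← pow_two, ← pow_mul], hs, one_pow])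
  obtain ⟨β, hβ⟩ := (Cl.Max.mem_scalars_iff_sc _).1 hA
  have e1 : c * b * c⁻¹ = Cl.Max.sc (Fin 4) β * φ A := by rw [hβ, inv_mul_cancel_right]
  have e2 : Cl.Max.sc (Fin 4) (β ^ 2) * φ (A ^ 2) = 1 := by
    rw [map_pow, map_pow, ← Commute.mul_pow (Cl.Max.mul_comm_of_mem_scalars (Cl.Max.sc_mem β) _), ← e1,
      conj_pow, pow_two, hs, mul_one, mul_inv_cancel]
  have e3 : Cl.Max.sc (Fin 4) (β ^ 4) = (1 : GL (Fin 4) F) := by
    rw [show β ^ 4 = β ^ 2 * β ^ 2 by group, map_mul]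
    rcases (h.ker (A ^ 2)).1 (eq_inv_of_mul_eq_one_right e2 ▸ inv_mem (Cl.Max.sc_mem _)) with k | k
    · rw [k, map_one, mul_one] at e2
      rw [e2, one_mul]
    · rw [k, h1, mul_neg, mul_one, neg_eq_iff_eq_neg] at e2
      rw [e2, neg_mul_neg, one_mul]
  have e4 : β ^ 4 = 1 := Cl.Max.sc_injective (e3.trans (map_one _).symm)
  have e5 := congrArg (fun g : GL (Fin 4) F => (g : Matrix (Fin 4) (Fin 4) F).det) e1
  have dA := (Cl.Max.mem_specialLinear_iff _).1 ((range_perfect φ).2 ⟨A, rfl⟩)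
  simp only [Units.val_mul] at e5
  rw [Matrix.det_units_conj, hd, det_mul, dA, Cl.Max.coe_sc, det_smul, det_one, Fintype.card_fin,
    ← Units.val_pow_eq_pow_val, e4, Units.val_one] at e5
  exact h2 (by linear_combination -e5)

end Cfsg.Agent.S7
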