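import Mathlib
import Cfsg.Agent.S7.D6
import Cfsg.Agent.S7.S27
import Cfsg.Agent.S7.Irr
import Cfsg.Agent.S7.End1

set_option autoImplicit false

namespace Cfsg.Agent.S7

open Matrix Cfsg.Geo Cfsg.Agent.Cl.D5 Module
open scoped MatrixGroups ComplexConjugate commutatorElement

variable {F : Type*} [Field F] [Fintype F]

local notation "M7" => Matrix (Fin 7) (Fin 7) F
local notation "SL7" => specialLinear (Fin 7) F
local notation "Z7" => scalars (Fin 7) F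
local notation "GL7" => GL (Fin 7) F

namespace End2

omit [Fintype F] in
theorem sc_comm {n : ℕ} {s : GL (Fin n) F} (hs : s ∈ scalars (Fin n) F) (g : GL (Fin n) F) :
    Commute s g := by
  obtain ⟨c, hc⟩ := (mem_scalars_iff s).1 hs
  apply Units.ext
  rw [Units.val_mul, Units.val_mul, hc, Matrix.smul_mul, Matrix.mul_smul, Matrix.one_mul,
    Matrix.mul_one]

omit [Fintype F] in
/-- If `g = s * φ A` with `s` scalar then `g ^ k` is scalar exactly when `A ^ k = ± 1`. -/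
theorem pow_iff {n : ℕ} {φ : SL(2, ZMod 7) →* GL (Fin n) F} (h : Rep φ) {g : GL (Fin n) F}
    {A : SL(2, ZMod 7)} (hs : g * (φ A)⁻¹ ∈ scalars (Fin n) F) (k : ℕ) :
    g ^ k ∈ scalars (Fin n) F ↔ A ^ k = 1 ∨ A ^ k = -1 := by
  have e : g = (g * (φ A)⁻¹) * φ A := by group
  have e2 : g ^ k = (g * (φ A)⁻¹) ^ k * φ (A ^ k) := by
    conv_lhs => rw [e]
    rw [(sc_comm hs _).mul_pow, map_pow]
  rw [e2, ← h.ker, Subgroup.mul_mem_cancel_left _ (Subgroup.pow_mem _ hs k)]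

omit [Fintype F] in
theorem exists_rep {n : ℕ} {φ : SL(2, ZMod 7) →* GL (Fin n) F} {g : GL (Fin n) F}
    (hg : g ∈ φ.range ⊔ scalars (Fin n) F) : ∃ A, g * (φ A)⁻¹ ∈ scalars (Fin n) F := by
  have : g ∈ ((scalars (Fin n) F ⊔ φ.range : Subgroup _) : Set (GL (Fin n) F)) := by
    rw [sup_comm]; exact hg
  rw [Subgroup.normal_mul] at this
  obtain ⟨s, hs, a, ⟨A, rfl⟩, e⟩ := this
  refine ⟨A, ?_⟩
  have : g * (φ A)⁻¹ = s := by rw [← e]; simp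
  rw [this]; exact hs

omit [Fintype F] in
theorem sc_sq {n : ℕ} [NeZero n] {s : GL (Fin n) F} (hs : s ∈ scalars (Fin n) F) (h : s * s = 1) :
    s = 1 ∨ s = -1 := by
  obtain ⟨c, hc⟩ := (mem_scalars_iff s).1 hs
  have h1 : ((s * s : GL (Fin n) F) : Matrix (Fin n) (Fin n) F) 0 0 = 1 := by rw [h]; simp
  rw [Units.val_mul, hc] at h1
  simp at h1
  rcases mul_self_eq_one_iff.1 h1 with h2 | h2
  · left; apply Units.ext; rw [hc, h2]; simp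
  · right; apply Units.ext; rw [hc, h2]; simp

theorem pm_center {A : SL(2, ZMod 7)} (h : A = 1 ∨ A = -1) : A ∈ Subgroup.center SL(2, ZMod 7) := by
  rcases h with rfl | rfl
  · exact Subgroup.one_mem _
  · rw [Subgroup.mem_center_iff]; intro g; simp

theorem exists_cm {j : SL(2, ZMod 7)} (h1 : j ≠ 1) (h2 : j ≠ -1) :
    ∃ i : SL(2, ZMod 7), ⁅j, i⁆ ≠ (1 : SL(2, ZMod 7)) ∧ ⁅j, i⁆ ≠ (-1 : SL(2, ZMod 7)) := by
  by_contra hc
  have hm : j ∈ Subgroup.upperCentralSeries SL(2, ZMod 7) 2 := by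
    rw [Subgroup.mem_upperCentralSeries_succ_iff]
    intro i
    rw [Subgroup.upperCentralSeries_one]
    apply pm_center
    by_contra h
    exact hc ⟨i, fun e => h (Or.inl e), fun e => h (Or.inr e)⟩
  have ht := s27_normal _ hm h1 h2
  have hn : Group.IsNilpotent SL(2, ZMod 7) := ⟨⟨2, ht⟩⟩
  have hs : Group.IsSolvable SL(2, ZMod 7) := IsNilpotent.to_isSolvable
  have : Nontrivial SL(2, ZMod 7) := ⟨⟨j, 1, h1⟩⟩
  have := Group.IsSolvable.commutator_lt_top_of_nontrivial SL(2, ZMod 7)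
  rw [s27_perfect] at this
  exact lt_irrefl _ this

theorem four_of_sq {A : SL(2, ZMod 7)} (h : A ^ 2 = 1 ∨ A ^ 2 = -1) : A ^ 4 = 1 := by
  have : A ^ 4 = (A ^ 2) ^ 2 := by rw [← pow_mul]
  rw [this]
  rcases h with h | h <;> rw [h] <;> simp

end End2

open End2

variable {C : Subgroup (GL (Fin 3) F × GL (Fin 4) F)} {φ₃ : SL(2, ZMod 7) →* GL (Fin 3) F}
  {φ₄ : SL(2, ZMod 7) →* GL (Fin 4) F}

omit [Fintype F] in
theorem End2.range_le (hC : ∀ A, (φ₃ A, φ₄ A) ∈ C) :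
    φ₄.range ≤ C.map (MonoidHom.snd _ _) := by
  rintro _ ⟨A, rfl⟩
  exact ⟨_, hC A, rfl⟩

theorem end_four (h3 : Rep φ₃) (h4 : Rep φ₄) (hC : ∀ A, (φ₃ A, φ₄ A) ∈ C)
    (hd : ∀ c ∈ C, (c.1 : Matrix (Fin 3) (Fin 3) F).det * (c.2 : Matrix (Fin 4) (Fin 4) F).det = 1)
    (s3 : C.map (MonoidHom.fst _ _) ≤ φ₃.range ⊔ scalars (Fin 3) F)
    (s4 : (scalars (Fin 4) F).relIndex (C.map (MonoidHom.snd _ _)) ∣ 2520)
    {c : GL (Fin 3) F × GL (Fin 4) F} (hc : c ∈ C) (h8 : c ^ 8 = 1) :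
    c ^ 4 = 1 ∨ c ^ 4 = (1, -1) := by
  have h81 : c.1 ^ 8 = 1 := congrArg Prod.fst h8
  have h82 : c.2 ^ 8 = 1 := congrArg Prod.snd h8
  obtain ⟨A, hA⟩ := exists_rep (s3 ⟨c, hc, rfl⟩ : c.1 ∈ _)
  have a8 := (pow_iff h3 hA 8).1 (by rw [h81]; exact Subgroup.one_mem _)
  have a4 : c.1 ^ 4 ∈ scalars (Fin 3) F := (pow_iff h3 hA 4).2 (s27_eight A a8)
  obtain ⟨g, -, B, hB, hs⟩ := end_syl h4 (End2.range_le hC) s4 (b := c.2) ⟨c, hc, rfl⟩ h82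
  have b4 : c.2 ^ 4 ∈ scalars (Fin 4) F := by
    have h1 := (pow_iff h4 hs 4).2 hB
    rw [conj_pow] at h1
    have h2 := (scalars_normal (ι := Fin 4) (F := F)).conj_mem _ h1 g⁻¹
    have e : g⁻¹ * (g * c.2 ^ 4 * g⁻¹) * g⁻¹⁻¹ = c.2 ^ 4 := by group
    rwa [e] at h2
  have q1 := sc_sq a4 (by rw [← pow_add, h81])
  have q2 := sc_sq b4 (by rw [← pow_add, h82])
  have hdet := hd (c ^ 4) (C.pow_mem hc 4)
  have e1 : (c ^ 4).1 = c.1 ^ 4 := rfl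
  have e2 : (c ^ 4).2 = c.2 ^ 4 := rfl
  have d2 : (((c ^ 4).2 : GL (Fin 4) F) : Matrix (Fin 4) (Fin 4) F).det = 1 := by
    rw [e2]
    rcases q2 with q | q <;> rw [q]
    · simp
    · rw [Units.val_neg, Matrix.det_neg]; simp; norm_num
  rw [d2, mul_one, e1] at hdet
  have f1 : c.1 ^ 4 = 1 := by
    rcases q1 with q | q
    · exact q
    · rw [q, Units.val_neg, Matrix.det_neg] at hdet
      have h : (-1 : F) = 1 := by
        have : (-1 : F) ^ 3 = 1 := by simpa using hdet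
        rwa [(by decide : Odd 3).neg_one_pow] at this
      rw [q]
      apply Units.ext
      rw [Units.val_neg, Units.val_one, ← neg_one_smul F, h, one_smul]
  rcases q2 with q | q
  · left; exact Prod.ext f1 q
  · right; exact Prod.ext f1 q

omit [Fintype F] in
theorem End2.one_mem (hC : ∀ A, (φ₃ A, φ₄ A) ∈ C) {k : GL (Fin 3) F × GL (Fin 4) F} (hk : k ∈ C)
    (k1 : k.1 ∈ scalars (Fin 3) F) {j : SL(2, ZMod 7)} (k2 : k.2 * (φ₄ j)⁻¹ ∈ scalars (Fin 4) F)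
    (h1 : j ≠ 1) (h2 : j ≠ -1) (y : SL(2, ZMod 7)) : ((1, φ₄ y) : _ × _) ∈ C := by
  let N : Subgroup SL(2, ZMod 7) := C.comap ((MonoidHom.inr _ _).comp φ₄)
  have hN : ∀ y, y ∈ N ↔ ((1, φ₄ y) : _ × _) ∈ C := fun _ => Iff.rfl
  have : N.Normal := by
    refine ⟨fun a ha g => ?_⟩
    rw [hN] at ha ⊢
    have := C.mul_mem (C.mul_mem (hC g) ha) (C.inv_mem (hC g))
    convert this using 1
    ext1 <;> simp
  obtain ⟨i, i1, i2⟩ := exists_cm h1 h2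
  have hm : ⁅j, i⁆ ∈ N := by
    rw [hN]
    have := C.mul_mem (C.mul_mem (C.mul_mem hk (hC i)) (C.inv_mem hk)) (C.inv_mem (hC i))
    convert this using 1
    refine Prod.ext ?_ ?_
    · show 1 = k.1 * φ₃ i * k.1⁻¹ * (φ₃ i)⁻¹
      rw [(sc_comm k1 _).eq]; group
    · show φ₄ ⁅j, i⁆ = k.2 * φ₄ i * k.2⁻¹ * (φ₄ i)⁻¹
      obtain ⟨s, hs, e⟩ : ∃ s ∈ scalars (Fin 4) F, k.2 = s * φ₄ j := ⟨_, k2, by group⟩
      rw [e, map_commutatorElement, commutatorElement_def, _root_.mul_inv_rev]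
      have := (sc_comm hs (φ₄ j * φ₄ i * (φ₄ j)⁻¹)).eq
      calc φ₄ j * φ₄ i * (φ₄ j)⁻¹ * (φ₄ i)⁻¹
          = (φ₄ j * φ₄ i * (φ₄ j)⁻¹ * s) * s⁻¹ * (φ₄ i)⁻¹ := by group
        _ = _ := by rw [← this]; group
  rw [← hN, s27_normal N hm i1 i2]
  trivial

omit [Fintype F] in
theorem End2.comm_of {n : ℕ} {φ : SL(2, ZMod 7) →* GL (Fin n) F} {g : GL (Fin n) F}
    {A y : SL(2, ZMod 7)} (hs : g * (φ A)⁻¹ ∈ scalars (Fin n) F) (h : y * A = A * y) :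
    φ y * g = g * φ y := by
  obtain ⟨s, hs', rfl⟩ : ∃ s ∈ scalars (Fin n) F, g = s * φ A := ⟨_, hs, by group⟩
  rw [← mul_assoc, ← (sc_comm hs' _).eq, mul_assoc, mul_assoc, ← map_mul, ← map_mul, h]

omit [Fintype F] in
theorem End2.root (h4 : Rep φ₄) (e3 : φ₃ (-1) = 1) (e4 : φ₄ (-1) = -1)
    (hC : ∀ A, (φ₃ A, φ₄ A) ∈ C)
    (s3 : C.map (MonoidHom.fst _ _) ≤ φ₃.range ⊔ scalars (Fin 3) F)
    {t : GL (Fin 3) F × GL (Fin 4) F} (ht : t ∈ C) (h2 : t * t = 1) {B : SL(2, ZMod 7)}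
    (hB : t.2 * (φ₄ B)⁻¹ ∈ scalars (Fin 4) F) :
    ∃ c ∈ C, c * t = t * c ∧ c ^ 4 = (1, -1) := by
  obtain ⟨A, hA⟩ := exists_rep (s3 ⟨t, ht, rfl⟩ : t.1 ∈ _)
  have t2 : t.2 ^ 2 = 1 := by rw [sq]; exact congrArg Prod.snd h2
  have b2 := (pow_iff h4 hB 2).1 (by rw [t2]; exact Subgroup.one_mem _)
  obtain ⟨y, hy, y4⟩ := s27_root B (four_of_sq b2)
  have f4 : φ₄ y ^ 4 = -1 := by rw [← map_pow, y4, e4]
  by_cases hj : B * A⁻¹ = 1 ∨ B * A⁻¹ = -1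
  · have hyA : y * A = A * y := by
      rcases hj with h | h
      · rw [mul_inv_eq_one] at h; rw [← h]; exact hy
      · rw [mul_inv_eq_iff_eq_mul] at h
        rw [h] at hy
        simpa using hy
    refine ⟨_, hC y, Prod.ext (End2.comm_of hA hyA) (End2.comm_of hB hy), Prod.ext ?_ f4⟩
    show φ₃ y ^ 4 = 1
    rw [← map_pow, y4, e3]
  · rw [not_or] at hj
    have hm := End2.one_mem hC (C.mul_mem ht (C.inv_mem (hC A))) hA (j := B * A⁻¹)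
      (by
        show t.2 * (φ₄ A)⁻¹ * (φ₄ (B * A⁻¹))⁻¹ ∈ _
        have : t.2 * (φ₄ A)⁻¹ * (φ₄ (B * A⁻¹))⁻¹ = t.2 * (φ₄ (B * A⁻¹ * A))⁻¹ := by
          simp only [map_mul, map_inv]; group
        rw [this]; simpa using hB) hj.1 hj.2 y
    refine ⟨_, hm, Prod.ext ?_ (End2.comm_of hB hy), Prod.ext ?_ f4⟩
    · show 1 * t.1 = t.1 * 1
      simp
    · show (1 : GL (Fin 3) F) ^ 4 = 1
      simp

theorem end_root (h3 : Rep φ₃) (h4 : Rep φ₄) (e3 : φ₃ (-1) = 1) (e4 : φ₄ (-1) = -1)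
    (hC : ∀ A, (φ₃ A, φ₄ A) ∈ C)
    (s3 : C.map (MonoidHom.fst _ _) ≤ φ₃.range ⊔ scalars (Fin 3) F)
    (s4 : (scalars (Fin 4) F).relIndex (C.map (MonoidHom.snd _ _)) ∣ 2520)
    {t : GL (Fin 3) F × GL (Fin 4) F} (ht : t ∈ C) (h2 : t * t = 1) :
    ∃ c ∈ C, c * t = t * c ∧ c ^ 4 = (1, -1) := by
  have _ := h3
  have t2 : t.2 ^ 2 = 1 := by rw [sq]; exact congrArg Prod.snd h2
  have t8 : t.2 ^ 8 = 1 := by
    rw [show 8 = 2 * 4 from rfl, pow_mul, t2, one_pow]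
  obtain ⟨_, ⟨g, hg, rfl⟩, B, -, hs⟩ :=
    end_syl h4 (End2.range_le hC) s4 (b := t.2) ⟨t, ht, rfl⟩ t8
  obtain ⟨c, hc, e1, e2⟩ := End2.root h4 e3 e4 hC s3 (t := g * t * g⁻¹)
    (C.mul_mem (C.mul_mem hg ht) (C.inv_mem hg))
    (by calc g * t * g⁻¹ * (g * t * g⁻¹) = g * (t * t) * g⁻¹ := by group
          _ = 1 := by rw [h2]; group) hs
  refine ⟨g⁻¹ * c * g, C.mul_mem (C.mul_mem (C.inv_mem hg) hc) hg, ?_, ?_⟩
  · calc g⁻¹ * c * g * t = g⁻¹ * (c * (g * t * g⁻¹)) * g := by group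
      _ = _ := by rw [e1]; group
  · have : (g⁻¹ * c * g) ^ 4 = g⁻¹ * c ^ 4 * g := by
      have := conj_pow (a := g⁻¹) (b := c) (i := 4)
      simpa using this
    rw [this, e2]
    ext1 <;> simp

end Cfsg.Agent.S7
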