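import Mathlib
import Cfsg.Agent.S7.Defs
import Cfsg.Agent.GT.FrobeniusBasic

set_option autoImplicit false

namespace Cfsg.Agent.S7

open Matrix Cfsg.Geo Cfsg.Agent.Cl.D5 Module
open scoped MatrixGroups ComplexConjugate commutatorElement

theorem frob_isCompl {G : Type*} [Group G] {S : Subgroup G}
    (comm : ∀ a ∈ S, ∀ b ∈ S, a * b = b * a)
    (cent : ∀ s ∈ S, s ≠ 1 → ∀ g : G, g * s = s * g → g ∈ S)
    (hN : Subgroup.normalizer (S : Set G) = S) (h0 : S ≠ ⊥) (h1 : S ≠ ⊤) :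
    IsFrobeniusComplement S := by
  refine ⟨h0, h1, fun g hg => ?_⟩
  rw [eq_bot_iff]
  rintro x ⟨hx, hx'⟩
  by_contra hne
  have hx1 : x ≠ 1 := by simpa using hne
  have hs : g⁻¹ * x * g ∈ S := by
    have := (Subgroup.mem_pointwise_smul_iff_inv_smul_mem).1 hx'
    simpa using this
  have hs1 : g⁻¹ * x * g ≠ 1 := fun e => hx1 (by
    calc x = g * (g⁻¹ * x * g) * g⁻¹ := by group
      _ = 1 := by rw [e]; group)
  apply hg
  rw [← hN, Subgroup.mem_normalizer_iff]
  intro h
  constructor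
  · intro hh
    refine cent x hx hx1 _ ?_
    have := comm h hh _ hs
    calc g * h * g⁻¹ * x = g * (h * (g⁻¹ * x * g)) * g⁻¹ := by group
      _ = g * ((g⁻¹ * x * g) * h) * g⁻¹ := by rw [this]
      _ = x * (g * h * g⁻¹) := by group
  · intro hh
    refine cent _ hs hs1 _ ?_
    have := comm _ hh x hx
    calc h * (g⁻¹ * x * g) = g⁻¹ * (g * h * g⁻¹ * x) * g := by group
      _ = g⁻¹ * (x * (g * h * g⁻¹)) * g := by rw [this]
      _ = g⁻¹ * x * g * h := by group

theorem frob_burnside {G Ω : Type*} [Group G] [Fintype G] [Finite Ω] [Nonempty Ω]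
    [MulAction G Ω] : Nat.card G ≤ ∑ g : G, Nat.card (MulAction.fixedBy Ω g) := by
  classical
  have := Fintype.ofFinite Ω
  have : ∀ g : G, Fintype (MulAction.fixedBy Ω g) := fun g => Fintype.ofFinite _
  have : Fintype (Quotient (MulAction.orbitRel G Ω)) := Fintype.ofFinite _
  have h := MulAction.sum_card_fixedBy_eq_card_orbits_mul_card_group G Ω
  have : Nonempty (Quotient (MulAction.orbitRel G Ω)) :=
    ⟨Quotient.mk _ (Classical.arbitrary Ω)⟩
  have h2 : 0 < Fintype.card (Quotient (MulAction.orbitRel G Ω)) := Fintype.card_pos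
  simp only [Nat.card_eq_fintype_card]
  rw [h]
  exact Nat.le_mul_of_pos_left _ h2

theorem frob_count {G Ω : Type*} [Group G] [Finite G] [Finite Ω] [Nonempty Ω] [MulAction G Ω]
    {S : Subgroup G} {m B : ℕ} (comm : ∀ a ∈ S, ∀ b ∈ S, a * b = b * a) (hc : Nat.card S = m)
    (cent : ∀ s ∈ S, s ≠ 1 → ∀ g : G, g * s = s * g → g ∈ S)
    (hN : Subgroup.normalizer (S : Set G) = S) (hs : ∀ s ∈ S, s ≠ 1 → ∀ x : Ω, s • x ≠ x)
    (hd : Nat.card Ω ≤ 7 * m) (hB : ∀ g : G, g ≠ 1 → Nat.card (MulAction.fixedBy Ω g) ≤ B)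
    (hm : B + 8 ≤ m) : S = ⊤ := by
  classical
  by_contra h1
  have := Fintype.ofFinite G
  have h0 : S ≠ ⊥ := by
    rintro rfl
    rw [Subgroup.card_bot] at hc
    omega
  have hF := frob_isCompl comm cent hN h0 h1
  have hlt := hF.card_lt_index
  have hk := hF.card_kernel
  have hG := S.card_mul_index
  have hb := frob_burnside (G := G) (Ω := Ω)
  set K : Finset G := Finset.univ.filter (· ∈ frobeniusKernel S) with hK
  have hKc : K.card = S.index := by
    rw [← hk, Nat.card_eq_fintype_card, Fintype.card_subtype]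
  have h1K : (1 : G) ∈ K := by simp [hK, GT.Frob.one_mem_frobeniusKernel]
  have hz : ∀ g, g ∉ K → Nat.card (MulAction.fixedBy Ω g) = 0 := by
    intro g hg
    have hg' : g ∉ frobeniusKernel S := by simpa [hK] using hg
    obtain ⟨g1, a, ha⟩ := GT.Frob.notMem_frobeniusKernel_iff.1 hg'
    have ha1 : a * g * a⁻¹ ≠ 1 := fun e => g1 (by
      calc g = a⁻¹ * (a * g * a⁻¹) * a := by group
        _ = 1 := by rw [e]; group)
    have : IsEmpty (MulAction.fixedBy Ω g) := ⟨fun ⟨x, hx⟩ => hs _ ha ha1 (a • x) (by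
      have hx' : g • x = x := hx
      rw [mul_smul, mul_smul, inv_smul_smul, hx'])⟩
    exact Nat.card_of_isEmpty
  have e1 : ∑ g : G, Nat.card (MulAction.fixedBy Ω g) = ∑ g ∈ K, Nat.card (MulAction.fixedBy Ω g) :=
    (Finset.sum_subset (Finset.subset_univ K) fun g _ hg => hz g hg).symm
  have e2 := Finset.add_sum_erase K (fun g => Nat.card (MulAction.fixedBy Ω g)) h1K
  have e3 : ∑ g ∈ K.erase 1, Nat.card (MulAction.fixedBy Ω g) ≤ (K.erase 1).card • B :=
    Finset.sum_le_card_nsmul _ _ _ fun g hg => hB g (Finset.ne_of_mem_erase hg)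
  have e4 : Nat.card (MulAction.fixedBy Ω (1 : G)) ≤ 7 * m :=
    (Finite.card_subtype_le _).trans hd
  rw [Finset.card_erase_of_mem h1K, hKc, smul_eq_mul] at e3
  rw [hc] at hlt hG
  obtain ⟨n, hn⟩ : ∃ n, S.index = n + 1 := ⟨S.index - 1, by omega⟩
  rw [hn] at hlt hG e3
  simp only [Nat.add_sub_cancel] at e3
  have e5 : m * (n + 1) ≤ 7 * m + n * B := by omega
  nlinarith

end Cfsg.Agent.S7
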