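import Mathlib
import Cfsg.Agent.S7.D6
import Cfsg.Agent.Cl.MxQS
import Cfsg.Agent.Cl.MxSL
import Cfsg.Agent.Cl.MxSp2
import Cfsg.Agent.Cl.MaxAschL

/-! The extraspecial group of order `7 ^ 3` in `GL₇` is conjugate to the group of the clock and the shift. -/

set_option autoImplicit false

namespace Cfsg.Agent.S7

open Matrix Cfsg.Geo Cfsg.Agent.Cl.D5 Module
open scoped MatrixGroups ComplexConjugate commutatorElement

variable {F : Type*} [Field F] [Fintype F]

local notation "M7" => Matrix (Fin 7) (Fin 7) F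
local notation "SL7" => specialLinear (Fin 7) F
local notation "Z7" => scalars (Fin 7) F
local notation "GL7" => GL (Fin 7) F

namespace Mdl

open Cfsg.Agent.Cl.Max Cfsg.Agent.Cl.Mx

omit [Fintype F] in
theorem sc_cm (c : Fˣ) (g : GL7) : Commute (sc (Fin 7) c) g := mul_comm_of_mem_scalars (sc_mem c) g

omit [Fintype F] in
theorem pow_rel {a b : GL7} {c : Fˣ} (h : b * a = sc (Fin 7) c * (a * b)) (k : ℕ) :
    b * a ^ k = sc (Fin 7) (c ^ k) * (a ^ k * b) := by
  have h1 : b * a ^ k * b⁻¹ = sc (Fin 7) (c ^ k) * a ^ k := by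
    rw [← conj_pow, h, ← mul_assoc, mul_inv_cancel_right, Commute.mul_pow (sc_cm c a), map_pow]
  rw [← mul_assoc, ← h1, inv_mul_cancel_right]

omit [Fintype F] in
theorem model {a b : GL7} {c : Fˣ} {ω : F} (hω : IsPrimitiveRoot ω 7) (hc : (c : F) = ω⁻¹) (ha : a ^ 7 = 1)
    (hb : b ^ 7 = 1) (h : b * a = sc (Fin 7) c * (a * b)) :
    ∃ P : GL7, ((P⁻¹ * a * P : GL7) : M7) = ckM ω ∧ ((P⁻¹ * b * P : GL7) : M7) = shM F := by
  have ha7 : (a : M7) ^ 7 = 1 := by rw [← Units.val_pow_eq_pow_val, ha, Units.val_one]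
  have hb7 : (b : M7) ^ 7 = 1 := by rw [← Units.val_pow_eq_pow_val, hb, Units.val_one]
  have h0 : ω ≠ 0 := hω.ne_zero (by norm_num)
  have tr : ∀ k : ℕ, 0 < k → k < 7 → ((a : M7) ^ k).trace = 0 := fun k k0 k7 => by
    have h2 := trace_cj b ((a ^ k : GL7) : M7)
    rw [cj_coe, pow_rel h, ← mul_assoc, mul_inv_cancel_right, Units.val_mul, coe_sc, smul_mul_assoc, one_mul,
      trace_smul, smul_eq_mul, Units.val_pow_eq_pow_val a, Units.val_pow_eq_pow_val, hc] at h2
    by_contra h3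
    exact hω.inv.pow_ne_one_of_pos_of_lt k0.ne' k7 ((mul_eq_right₀ h3).1 h2)
  obtain ⟨v, hv0, hv⟩ : ∃ v, v ≠ 0 ∧ (a : M7) *ᵥ v = v := by
    have h5 : (∑ k ∈ Finset.range 7, (a : M7) ^ k) ≠ 0 := fun e => by
      have h6 := congrArg trace e
      rw [trace_sum, Finset.sum_eq_single 0 (fun k hk k0 => tr k (by omega) (Finset.mem_range.1 hk)) (by simp),
        pow_zero, trace_one, trace_zero, Fintype.card_fin] at h6
      exact hω.neZero'.1 h6
    obtain ⟨u, hu⟩ : ∃ u, (∑ k ∈ Finset.range 7, (a : M7) ^ k) *ᵥ u ≠ 0 := by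
      by_contra! h6
      exact h5 (Matrix.ext_iff_mulVec.2 fun u => by rw [h6, zero_mulVec])
    refine ⟨_, hu, ?_⟩
    have := mul_geom_sum (a : M7) 7
    rw [ha7, sub_self, sub_mul, one_mul, sub_eq_zero] at this
    rw [mulVec_mulVec, this]
  have h4 : ∀ u, (a : M7) *ᵥ (b : M7) *ᵥ u = ω • (b : M7) *ᵥ (a : M7) *ᵥ u := fun u => by
    rw [← mul_mulVec b, h, mul_mulVec, sc_mulVec, mul_mulVec, smul_smul, hc, mul_inv_cancel₀ h0, one_smul]
  have h5 : ∀ k : ℕ, (a : M7) *ᵥ ((b : M7) ^ k *ᵥ v) = ω ^ k • ((b : M7) ^ k *ᵥ v) := fun k => by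
    induction k with
    | zero => simp [hv]
    | succ k ih => rw [pow_succ', ← mulVec_mulVec, h4, ih, mulVec_smul, smul_smul, pow_succ']
  have h6 : Function.Injective fun i : Fin 7 => ω ^ (i : ℕ) := fun i j e => Fin.ext (hω.pow_inj i.2 j.2 e)
  obtain ⟨e, P, hP⟩ := exists_trV_of_li (ι := Fin 7) (κ := Fin 7) rfl
    (fun i => (b : M7) ^ (i : ℕ) *ᵥ v) fun x hx => funext
      (Fintype.linearIndependent_iff.1 (Module.End.eigenvectors_linearIndependent'
        (toLin' (a : M7)) _ h6 _ fun i => ⟨Module.End.mem_eigenspace_iff.2 (h5 i), by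
          rw [← Units.val_pow_eq_pow_val]; exact mulVec_ne_zero _ hv0⟩) x hx)
  have h7 := fun x => (ofLin_mulVec _ x).trans (hP x)
  generalize ofLin (trV e P) = P' at h7
  have key : ∀ (g : GL7) (A : M7), (∀ x, (g : M7) *ᵥ (P' : M7) *ᵥ x = (P' : M7) *ᵥ A *ᵥ x) →
      ((P'⁻¹ * g * P' : GL7) : M7) = A := fun g A e => Matrix.ext_iff_mulVec.2 fun x => by
    rw [mul_mulVec, mul_mulVec, e, inv_mulVec_mulVec]
  refine ⟨P', key _ _ fun x => ?_, key _ _ fun x => ?_⟩
  · simp only [h7, mulVec_sum, mulVec_smul, h5, smul_smul, ckM, mulVec_diagonal, mul_comm]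
  · have h8 : ∀ i, (shM F *ᵥ x) (i + 1) = x i := fun i => by
      simp [mulVec, dotProduct, shM]
    rw [h7, h7, ← Equiv.sum_comp (Equiv.addRight 1) fun i => (shM F *ᵥ x) i • _]
    simp only [Equiv.coe_addRight, h8, mulVec_sum, mulVec_smul, mulVec_mulVec, ← pow_succ']
    simp [Fin.sum_univ_seven, hb7]

theorem gen {R : Subgroup GL7} (hR : Nat.card R = 7 ^ 3) {a b : GL7} (ha : a ∈ R) (hb : b ∈ R)
    (h : b * a ≠ a * b) : Subgroup.closure {a, b} = R := by
  have := Fact.mk (by norm_num : Nat.Prime 7)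
  have hle : Subgroup.closure {a, b} ≤ R := (Subgroup.closure_le _).2 (by
    rintro _ (rfl | rfl)
    exacts [ha, hb])
  have ma : a ∈ Subgroup.closure {a, b} := Subgroup.subset_closure (.inl rfl)
  have mb : b ∈ Subgroup.closure {a, b} := Subgroup.subset_closure (.inr rfl)
  generalize Subgroup.closure {a, b} = K at hle ma mb
  have hd := Subgroup.card_dvd_of_le hle
  rw [hR] at hd
  obtain ⟨k, hk, e⟩ := (Nat.dvd_prime_pow this.1).1 hd
  by_cases k3 : k = 3
  · exact Subgroup.eq_of_le_of_card_ge hle (by rw [hR, e, k3])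
  refine absurd (congrArg Subtype.val (show (⟨b, mb⟩ : K) * ⟨a, ma⟩ = ⟨a, ma⟩ * ⟨b, mb⟩ from ?_)) h
  by_cases k2 : k = 2
  · exact (IsPGroup.isMulCommutative_of_card_eq_prime_sq (k2 ▸ e)).is_comm.comm _ _
  · have : IsCyclic K := isCyclic_of_card_dvd_prime (p := 7) (by
      rw [e]
      exact (pow_dvd_pow 7 (by omega : k ≤ 1)).trans (by norm_num))
    exact (IsCyclic.isMulCommutative (α := K)).is_comm.comm _ _

end Mdl

open Cfsg.Agent.Cl.Max Cfsg.Agent.Cl.Mx in
theorem exists_model {R : Subgroup GL7} (hR : IsLinearSymplecticTypeData 7 R) {ω : F}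
    (hω : IsPrimitiveRoot ω 7) : ∃ P x y : GL7, (x : M7) = ckM ω ∧ (y : M7) = shM F ∧
      ∀ g, g ∈ R0 x y ↔ P * g * P⁻¹ ∈ R := by
  have := Fact.mk (by norm_num : Nat.Prime 7)
  have ext : ExtraData R R 7 := extraData_of_sympl hR.symplecticType (spans_of_acts hR.absIrred)
  have sev : ∀ x ∈ R, x ^ 7 = 1 := fun x hx => by
    have := Monoid.pow_exponent_eq_one (⟨x, hx⟩ : R)
    rw [hR.symplecticType.exponent_eq] at this
    exact congrArg Subtype.val this
  have hc : Nat.card R = 7 ^ 3 := by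
    rw [ext.card_eq, Fintype.card_fin, ext.card_scOf_of_odd (by simp) fun c hc =>
      sc_injective (ι := Fin 7) (by rw [map_pow, sev _ hc, map_one])]
    norm_num
  obtain ⟨a, ha, hs⟩ := SetLike.not_le_iff_exists.1 (ext.spans.not_le_scalars (by simp))
  obtain ⟨b, hb, c, c1, c7, rel⟩ := ext.exists_comm_ne ha hs
  have h4 : IsPrimitiveRoot (c : F) 7 := IsPrimitiveRoot.coe_units_iff.2
    (orderOf_eq_prime c7 c1 ▸ IsPrimitiveRoot.orderOf c)
  obtain ⟨k, -, hk⟩ := h4.eq_pow_of_pow_eq_one hω.inv.pow_eq_one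
  have rel' := Mdl.pow_rel rel k
  rw [← Units.val_pow_eq_pow_val] at hk
  obtain ⟨P, h1, h2⟩ := Mdl.model hω hk (sev _ (pow_mem ha k)) (sev b hb) rel'
  have e := Mdl.gen hc (pow_mem ha k) hb fun e => hω.inv.ne_one (by norm_num) (by
    rw [rel', mul_eq_right, map_eq_one_iff _ sc_injective] at e
    rw [← hk, e, Units.val_one])
  refine ⟨P, _, _, h1, h2, fun g => ?_⟩
  rw [← e, ← Subgroup.mem_map_iff_mem (f := (MulAut.conj P).toMonoidHom) (MulAut.conj P).injective,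
    MonoidHom.map_closure, Set.image_pair]
  simp [mul_assoc]

end Cfsg.Agent.S7
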