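import Mathlib
import Cfsg.Agent.S7.D6
import Cfsg.Agent.S7.S27

set_option autoImplicit false

namespace Cfsg.Agent.S7

open Matrix Cfsg.Geo Cfsg.Agent.Cl.D5 Module
open scoped MatrixGroups ComplexConjugate commutatorElement

variable {F : Type*} [Field F] [Fintype F]

local notation "M7" => Matrix (Fin 7) (Fin 7) F
local notation "SL7" => specialLinear (Fin 7) F
local notation "Z7" => scalars (Fin 7) F
local notation "GL7" => GL (Fin 7) F

omit [Fintype F] in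
theorem nrm_trace {n : ℕ} {a b : GL (Fin n) F} (h : IsConj a b) :
    (a : Matrix (Fin n) (Fin n) F).trace = (b : Matrix (Fin n) (Fin n) F).trace := by
  obtain ⟨c, rfl⟩ := isConj_iff.1 h
  rw [Units.val_mul, Units.val_mul, Matrix.trace_mul_cycle, Units.inv_mul, one_mul]

omit [Fintype F] in
theorem Rep.nrm_ker {n : ℕ} {φ : SL(2, ZMod 7) →* GL (Fin n) F} (h : Rep φ) {A : SL(2, ZMod 7)}
    (e : φ A = 1) : A = 1 ∨ A = -1 := (h.ker A).1 (e ▸ one_mem _)

omit [Fintype F] in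
theorem Rep.nrm_lift {n : ℕ} {φ : SL(2, ZMod 7) →* GL (Fin n) F} (h : Rep φ) {g : GL (Fin n) F}
    (hg : g ∈ Subgroup.normalizer (φ.range : Set (GL (Fin n) F))) {B : SL(2, ZMod 7)} (hB : IsConj uu B) :
    ∃ A, IsConj uu A ∧ φ A = g * φ B * g⁻¹ := by
  obtain ⟨u7, u1, u2, -⟩ := s27_uu
  obtain ⟨A, hA⟩ : g * φ B * g⁻¹ ∈ φ.range := (Subgroup.mem_normalizer_iff.1 hg _).1 ⟨B, rfl⟩
  obtain ⟨c, hc⟩ := isConj_iff.1 hB
  have h7 : φ (A ^ 7) = 1 := by
    rw [map_pow, hA, conj_pow, ← map_pow, ← hc, conj_pow, u7]; simp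
  have h8 : φ (A ^ 8) = g * φ B * g⁻¹ := by rw [pow_succ, map_mul, h7, one_mul, hA]
  have h9 : (A ^ 8) ^ 7 = 1 := by
    rw [← pow_mul, mul_comm, pow_mul]
    rcases h.nrm_ker h7 with e | e <;> rw [e]
    · exact one_pow _
    · exact Even.neg_one_pow (by decide)
  have h1 : A ^ 8 ≠ 1 := fun e => by
    rw [e, map_one, eq_comm, conj_eq_one_iff] at h8
    rcases h.nrm_ker h8 with e | e
    · exact u1 (conj_eq_one_iff.1 (hc.trans e))
    · rw [e, mul_inv_eq_iff_eq_mul, neg_one_mul, ← mul_neg_one, mul_right_inj] at hc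
      exact u2 hc
  rcases s27_seven _ h9 h1 with k | k
  · exact ⟨_, k, h8⟩
  · refine absurd ?_ h.nr
    rw [nrm_trace (φ.map_isConj k), nrm_trace (φ.map_isConj hB), h8]
    exact nrm_trace (isConj_iff.2 ⟨g, rfl⟩)

theorem nrm_dec : uu * ul * (ul * uu)⁻¹ ≠ 1 ∧ uu * ul * (ul * uu)⁻¹ ≠ -1 := by
  constructor <;> intro e <;> rw [mul_inv_eq_iff_eq_mul] at e <;> revert e <;> decide

theorem Rep.nrm {n : ℕ} {φ : SL(2, ZMod 7) →* GL (Fin n) F} (h : Rep φ) {g : GL (Fin n) F}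
    (hg : g ∈ Subgroup.normalizer (φ.range : Set (GL (Fin n) F))) :
    g ∈ φ.range ⊔ scalars (Fin n) F := by
  have hN : ∀ A, φ A ∈ Subgroup.normalizer (φ.range : Set (GL (Fin n) F)) := fun A =>
    Subgroup.le_normalizer ⟨A, rfl⟩
  obtain ⟨A, k, e⟩ := h.nrm_lift hg (IsConj.refl uu)
  obtain ⟨c, rfl⟩ := isConj_iff.1 k
  have hg1 := mul_mem (inv_mem (hN c)) hg
  have e1 : (φ c)⁻¹ * g * φ uu * ((φ c)⁻¹ * g)⁻¹ = φ uu := by
    rw [map_mul, map_mul, map_inv] at e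
    calc _ = (φ c)⁻¹ * (g * φ uu * g⁻¹) * φ c := by group
      _ = _ := by rw [← e]; group
  suffices H : (φ c)⁻¹ * g ∈ φ.range ⊔ scalars (Fin n) F by
    simpa using mul_mem (Subgroup.mem_sup_left (T := scalars (Fin n) F) (⟨c, rfl⟩ : φ c ∈ φ.range)) H
  generalize (φ c)⁻¹ * g = d at hg1 e1
  obtain ⟨A, k, e⟩ := h.nrm_lift hg1 (B := ul) (isConj_iff.2 ⟨ww, rfl⟩)
  have hz : d * φ (-1) * d⁻¹ = φ (-1) := by
    obtain ⟨t, ht⟩ := (mem_scalars_iff _).1 ((h.ker _).2 (.inr rfl))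
    rw [mul_inv_eq_iff_eq_mul]
    ext1
    rw [Units.val_mul, Units.val_mul, ht, Matrix.mul_smul, Matrix.smul_mul, mul_one, one_mul]
  have h1 : A * uu ≠ uu * A := fun e' => by
    have e2 := congrArg φ e'
    rw [map_mul, map_mul, e, ← e1, conj_mul, conj_mul, mul_left_inj, mul_right_inj, ← map_mul, ← map_mul] at e2
    have : φ (uu * ul * (ul * uu)⁻¹) = 1 := by rw [map_mul, map_inv, e2, mul_inv_cancel]
    exact (h.nrm_ker this).elim nrm_dec.1 nrm_dec.2
  have h3 : (uu * A) ^ 3 = 1 ∨ (uu * A) ^ 3 = -1 := by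
    have e2 : φ ((uu * A) ^ 3) = φ (-1) := by
      rw [map_pow, map_mul, e, ← e1, conj_mul, conj_pow, ← map_mul, ← map_pow, s27_uu.2.2.2.2.2.1, hz]
    have : φ ((uu * A) ^ 3 * (-1)⁻¹) = 1 := by rw [map_mul, map_inv, e2, mul_inv_cancel]
    rcases h.nrm_ker this with e3 | e3 <;> rw [mul_inv_eq_iff_eq_mul] at e3
    · exact .inr (by rw [e3, one_mul])
    · exact .inl (by rw [e3, neg_mul_neg, one_mul])
  obtain ⟨m, rfl⟩ := s27_pos A k h1 h3
  have hs : (φ uu ^ m)⁻¹ * d ∈ scalars (Fin n) F := by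
    refine h.spans.mem_scalars ?_
    rintro _ ⟨B, rfl⟩
    have hB : B ∈ Subgroup.closure {uu, ul} := s27_gen.2 ▸ Subgroup.mem_top B
    refine (show Commute _ (φ B) from ?_).eq
    induction hB using Subgroup.closure_induction with
    | mem x hx =>
      rcases hx with rfl | rfl
      · exact ((Commute.refl _).pow_left m).inv_left.mul_left (mul_inv_eq_iff_eq_mul.1 e1)
      · rw [map_mul, map_mul, map_inv, map_pow] at e
        change _ = _
        calc _ = (φ uu ^ m)⁻¹ * (d * φ ul * d⁻¹) * d := by group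
          _ = _ := by rw [← e]; group
    | one => rw [map_one]; exact Commute.one_right _
    | mul x y _ _ hx hy => rw [map_mul]; exact hx.mul_right hy
    | inv x _ hx => rw [map_inv]; exact hx.inv_right
  have hm : φ uu ^ m ∈ φ.range := ⟨uu ^ m, map_pow _ _ _⟩
  simpa using mul_mem (Subgroup.mem_sup_left hm) (Subgroup.mem_sup_right hs)

end Cfsg.Agent.S7
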