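/-
The Weil representation normalises the Heisenberg group.
-/
import Mathlib
import Cfsg.Agent.S7.D6
import Cfsg.Agent.S7.RTa
import Cfsg.Agent.S7.S27

set_option autoImplicit false

namespace Cfsg.Agent.S7

open Matrix Cfsg.Geo Cfsg.Agent.Cl.D5 Module
open scoped MatrixGroups ComplexConjugate commutatorElement

variable {F : Type*} [Field F] [Fintype F]

local notation "M7" => Matrix (Fin 7) (Fin 7) F
local notation "SL7" => specialLinear (Fin 7) F
local notation "Z7" => scalars (Fin 7) F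
local notation "GL7" => GL (Fin 7) F

variable {ω : F} {x y : GL (Fin 7) F} {φ : SL(2, ZMod 7) →* GL (Fin 7) F}
  {M : Subgroup (GL (Fin 7) F)}

omit [Fintype F] in
theorem rtb_pw (hω : IsPrimitiveRoot ω 7) {a b : ℕ} (h : a % 7 = b % 7) : ω ^ a = ω ^ b := by
  rw [pow_eq_pow_mod a hω.pow_eq_one, pow_eq_pow_mod b hω.pow_eq_one, h]

omit [Fintype F] in
theorem rtb_mul_sh (A : M7) (i j : Fin 7) : (A * shM F) i j = A i (j + 1) := by
  simp [Matrix.mul_apply, shM]

omit [Fintype F] in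
theorem rtb_sh_mul (A : M7) (i j : Fin 7) : (shM F * A) i j = A (i - 1) j := by
  have : ∀ k : Fin 7, (i = k + 1) = (k = i - 1) := fun k => by
    rw [eq_sub_iff_add_eq]
    exact propext eq_comm
  simp [Matrix.mul_apply, shM, this]

omit [Fintype F] in
theorem rtb_dq (hω : IsPrimitiveRoot ω 7) : dqM ω = diagonal fun i : Fin 7 => ω ^ ((i : ℕ) ^ 2) := by
  unfold dqM
  congr 1
  funext i
  have h1 : ω = ω ^ 1 := (pow_one ω).symm
  fin_cases i
  · simp
  · simp
  · simp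
  · exact rtb_pw hω (a := 2) (b := 3 ^ 2) (by norm_num)
  · exact rtb_pw hω (a := 2) (b := 4 ^ 2) (by norm_num)
  · exact rtb_pw hω (a := 4) (b := 5 ^ 2) (by norm_num)
  · exact h1.trans (rtb_pw hω (a := 1) (b := 6 ^ 2) (by norm_num))

omit [Fintype F] in
theorem rtb_wx (hω : IsPrimitiveRoot ω 7) : wM ω * ckM ω = shM F ^ 3 * wM ω := by
  ext i j
  rw [pow_three, Matrix.mul_assoc, Matrix.mul_assoc, rtb_sh_mul, rtb_sh_mul, rtb_sh_mul, ckM,
    mul_diagonal]
  simp only [wM, of_apply, ← pow_add]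
  refine rtb_pw hω ?_
  revert i j
  decide

omit [Fintype F] in
theorem rtb_wy (hω : IsPrimitiveRoot ω 7) : wM ω * shM F = ckM ω ^ 2 * wM ω := by
  ext i j
  rw [rtb_mul_sh, ckM, diagonal_pow, diagonal_mul]
  simp only [wM, of_apply, Pi.pow_apply, ← pow_add, ← pow_mul]
  refine rtb_pw hω ?_
  revert i j
  decide

omit [Fintype F] in
theorem rtb_dy (hω : IsPrimitiveRoot ω 7) :
    dqM ω * shM F = ω ^ 6 • (ckM ω ^ 2 * shM F) * dqM ω := by
  ext i j
  rw [rtb_dq hω, ckM, diagonal_pow, mul_diagonal, Matrix.smul_apply, diagonal_mul,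
    diagonal_mul]
  by_cases h : i = j + 1
  · simp only [shM, of_apply, if_pos h, Pi.pow_apply, smul_eq_mul, mul_one, ← pow_add, ← pow_mul]
    refine rtb_pw hω ?_
    revert i j
    decide
  · simp [shM, h]

theorem rt_conj (hω : IsPrimitiveRoot ω 7) (hx : (x : M7) = ckM ω) (hy : (y : M7) = shM F)
    (h : Weil ω φ) : φ ww * x * (φ ww)⁻¹ = y ^ 3 ∧ φ ww * y * (φ ww)⁻¹ = x ^ 2 ∧
      φ uu * x * (φ uu)⁻¹ = x ∧
      ((φ uu * y * (φ uu)⁻¹ : GL7) : M7) = ω ^ 6 • (ckM ω ^ 2 * shM F) := by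
  obtain ⟨γ, -, hw⟩ := h.hw
  refine ⟨?_, ?_, ?_, ?_⟩
  · rw [mul_inv_eq_iff_eq_mul]
    apply Units.ext
    rw [Units.val_mul, Units.val_mul, Units.val_pow_eq_pow_val, hw, hx, hy, smul_mul_assoc,
      mul_smul_comm, rtb_wx hω]
  · rw [mul_inv_eq_iff_eq_mul]
    apply Units.ext
    rw [Units.val_mul, Units.val_mul, Units.val_pow_eq_pow_val, hw, hx, hy, smul_mul_assoc,
      mul_smul_comm, rtb_wy hω]
  · rw [mul_inv_eq_iff_eq_mul]
    apply Units.ext
    rw [Units.val_mul, Units.val_mul, h.hu, hx, dqM, ckM, diagonal_mul_diagonal,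
      diagonal_mul_diagonal]
    congr 1
    funext i
    exact mul_comm _ _
  · rw [Units.val_mul, Units.val_mul, hy, h.hu, rtb_dy hω, ← h.hu, Matrix.mul_assoc,
      Units.mul_inv, Matrix.mul_one]

theorem rtb_norm_of {g : GL7} (h1 : g * x * g⁻¹ ∈ R0 x y) (h2 : g * y * g⁻¹ ∈ R0 x y) :
    g ∈ Subgroup.normalizer (R0 x y : Set GL7) := by
  refine Subgroup.mem_normalizer_fintype fun n hn => ?_
  have : R0 x y ≤ (R0 x y).comap (MulAut.conj g).toMonoidHom := by
    refine (Subgroup.closure_le _).2 ?_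
    rintro _ (rfl | rfl)
    · exact h1
    · exact h2
  exact this hn

theorem rt_norm (hω : IsPrimitiveRoot ω 7) (hx : (x : M7) = ckM ω) (hy : (y : M7) = shM F)
    (h : Weil ω φ) (A : SL(2, ZMod 7)) :
    φ A ∈ Subgroup.normalizer (R0 x y : Set GL7) ∧ φ A ∈ SL7 := by
  obtain ⟨c1, c2, c3, c4⟩ := rt_conj hω hx hy h
  have hxm : x ∈ R0 x y := Subgroup.subset_closure (by simp)
  have hym : y ∈ R0 x y := Subgroup.subset_closure (by simp)
  constructor
  · have : (⊤ : Subgroup SL(2, ZMod 7)) ≤ (Subgroup.normalizer (R0 x y : Set GL7)).comap φ := by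
      rw [← s27_gen.1]
      refine (Subgroup.closure_le _).2 ?_
      rintro _ (rfl | rfl)
      · exact rtb_norm_of (by rw [c3]; exact hxm) ((rt_form hω hx hy _).2 ⟨2, 1, 6, by rw [c4, pow_one]⟩)
      · exact rtb_norm_of (by rw [c1]; exact pow_mem hym 3) (by rw [c2]; exact pow_mem hxm 2)
    exact this (Subgroup.mem_top A)
  · have := Abelianization.commutator_subset_ker
      ((Matrix.GeneralLinearGroup.det : GL7 →* Fˣ).comp φ)
    rw [s27_perfect] at this
    exact this (Subgroup.mem_top A)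

theorem rtb_reach (T : ZMod 7 → ZMod 7 → Prop) (h0 : T 1 0) (hu : ∀ i j, T (i + 2 * j) j → T i j)
    (hw : ∀ i j, T (2 * j) (3 * i) → T i j) (i j : ZMod 7) (h : ¬ (i = 0 ∧ j = 0)) : T i j := by
  have h1 : ∀ (n : ℕ) (i j : ZMod 7), T (i + 2 * j * n) j → T i j := by
    intro n
    induction n with
    | zero => intro i j h; simpa using h
    | succ n ih =>
      intro i j h
      refine hu _ _ (ih _ _ ?_)
      have : i + 2 * j + 2 * j * (n : ZMod 7) = i + 2 * j * ((n + 1 : ℕ) : ZMod 7) := by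
        push_cast; ring
      rwa [this]
  have h2 : ∀ i i' j : ZMod 7, j ≠ 0 → T i' j → T i j := by
    intro i i' j hj h
    obtain ⟨k, hk⟩ : ∃ k : ZMod 7, i + 2 * j * k = i' :=
      (by decide : ∀ i i' j : ZMod 7, j ≠ 0 → ∃ k : ZMod 7, i + 2 * j * k = i') i i' j hj
    refine h1 k.val _ _ ?_
    rwa [ZMod.natCast_zmod_val, hk]
  have h3 : T 0 4 := hw _ _ h0
  have h4 : ∀ j, T 6 j := fun j => hw _ _ (h2 _ 0 _ (by decide) h3)
  have h5 : ∀ i j : ZMod 7, j ≠ 0 → T i j := fun i j hj => h2 _ _ _ hj (h4 j)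
  by_cases hj : j = 0
  · refine hw _ _ (h5 _ _ ?_)
    have hi : i ≠ 0 := fun hi => h ⟨hi, hj⟩
    revert hi
    generalize i = a
    revert a
    decide
  · exact h5 _ _ hj

omit [Fintype F] in
theorem rtb_mk_eq (hω : IsPrimitiveRoot ω 7) {a b : GL7} {k : ℕ} (h : (a : M7) = ω ^ k • (b : M7)) :
    (QuotientGroup.mk' Z7 a) = QuotientGroup.mk' Z7 b := by
  have h0 : ω ^ k ≠ 0 := pow_ne_zero _ (hω.ne_zero (by norm_num))
  rw [← mul_inv_eq_one, ← map_inv, ← map_mul, ← MonoidHom.mem_ker, QuotientGroup.ker_mk',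
    mem_scalars_iff]
  exact ⟨Units.mk0 _ h0, by rw [Units.val_mul, h, smul_mul_assoc, Units.mul_inv]; rfl⟩

theorem rt_trans (hω : IsPrimitiveRoot ω 7) (hx : (x : M7) = ckM ω) (hy : (y : M7) = shM F)
    (h : Weil ω φ) {r : GL7} (hr : r ∈ R0 x y) (hs : r ∉ Z7) :
    ∃ A, φ A * r * (φ A)⁻¹ * x⁻¹ ∈ Z7 := by
  obtain ⟨c1, c2, c3, c4⟩ := rt_conj hω hx hy h
  obtain ⟨r1, r2, r3, -⟩ := rt_rel hω
  let π := QuotientGroup.mk' Z7
  have hc : Commute (π x) (π y) := by
    change π x * π y = π y * π x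
    rw [← map_mul, ← map_mul]
    exact rtb_mk_eq hω (k := 1) (by rw [Units.val_mul, Units.val_mul, hx, hy, r1, pow_one])
  have hx7 : π x ^ 7 = 1 := by
    rw [← map_pow, show x ^ 7 = 1 from Units.ext (by rw [Units.val_pow_eq_pow_val, hx, r2]; rfl),
      map_one]
  have hy7 : π y ^ 7 = 1 := by
    rw [← map_pow, show y ^ 7 = 1 from Units.ext (by rw [Units.val_pow_eq_pow_val, hy, r3]; rfl),
      map_one]
  have px : ∀ a b : ℕ, a % 7 = b % 7 → π x ^ a = π x ^ b := fun a b e => by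
    rw [pow_eq_pow_mod a hx7, pow_eq_pow_mod b hx7, e]
  have py : ∀ a b : ℕ, a % 7 = b % 7 → π y ^ a = π y ^ b := fun a b e => by
    rw [pow_eq_pow_mod a hy7, pow_eq_pow_mod b hy7, e]
  let ψ : SL(2, ZMod 7) →* MulAut (GL7 ⧸ Z7) := MulAut.conj.comp (π.comp φ)
  have hψ : ∀ A g, ψ A (π g) = π (φ A * g * (φ A)⁻¹) := fun A g => by
    simp [ψ, map_mul, map_inv]
  have d1 : ψ ww (π x) = π y ^ 3 := by rw [hψ, c1, map_pow]
  have d2 : ψ ww (π y) = π x ^ 2 := by rw [hψ, c2, map_pow]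
  have d3 : ψ uu (π x) = π x := by rw [hψ, c3]
  have d4 : ψ uu (π y) = π x ^ 2 * π y := by
    rw [hψ, ← map_pow, ← map_mul]
    exact rtb_mk_eq hω (k := 6) (by rw [c4, Units.val_mul, Units.val_pow_eq_pow_val, hx, hy])
  have key := rtb_reach (fun i j => ∃ A, ψ A (π x ^ i.val * π y ^ j.val) = π x)
    ⟨1, by simp [show (1 : ZMod 7).val = 1 from rfl]⟩
    (fun i j ⟨A, hA⟩ => ⟨A * uu, by
      rw [map_mul ψ, MulAut.mul_apply, map_mul (ψ uu), map_pow (ψ uu), map_pow (ψ uu), d3, d4,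
        (hc.pow_left 2).mul_pow, ← mul_assoc, ← pow_mul, ← pow_add, px _ (i + 2 * j).val
        ((by decide : ∀ i j : ZMod 7, (i.val + 2 * j.val) % 7 = (i + 2 * j).val % 7) i j), hA]⟩)
    (fun i j ⟨A, hA⟩ => ⟨A * ww, by
      rw [map_mul ψ, MulAut.mul_apply, map_mul (ψ ww), map_pow (ψ ww), map_pow (ψ ww), d1, d2,
        ← pow_mul, ← pow_mul, (hc.pow_pow _ _).symm.eq,
        px _ (2 * j).val ((by decide : ∀ j : ZMod 7, (2 * j.val) % 7 = (2 * j).val % 7) j),
        py (3 * i.val) (3 * i).val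
          ((by decide : ∀ j : ZMod 7, (3 * j.val) % 7 = (3 * j).val % 7) i), hA]⟩)
  obtain ⟨i, j, k, e⟩ := (rt_form hω hx hy r).1 hr
  have e1 : π r = π x ^ (i : ZMod 7).val * π y ^ (j : ZMod 7).val := by
    rw [px _ i (by simp [ZMod.val_natCast]), py _ j (by simp [ZMod.val_natCast]), ← map_pow,
      ← map_pow, ← map_mul]
    exact rtb_mk_eq hω (k := k) (by
      rw [e, Units.val_mul, Units.val_pow_eq_pow_val, Units.val_pow_eq_pow_val, hx, hy])
  obtain ⟨A, hA⟩ := key i j (by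
    rintro ⟨hi, hj⟩
    rw [hi, hj, ZMod.val_zero, pow_zero, pow_zero, mul_one, ← MonoidHom.mem_ker,
      QuotientGroup.ker_mk'] at e1
    exact hs e1)
  refine ⟨A, ?_⟩
  rw [← e1, hψ, ← mul_inv_eq_one, ← map_inv π, ← map_mul π, ← MonoidHom.mem_ker,
    QuotientGroup.ker_mk'] at hA
  exact hA

variable (F) in
/-- The reflections `e j ↦ - e (c - j)`. -/
def rtbZ (c : Fin 7) : Matrix (Fin 7) (Fin 7) F := of fun i j => if j = c - i then -1 else 0

omit [Fintype F] in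
theorem rtb_zc (n : ℕ) : shM F ^ n * zM F = rtbZ F (n • 2) * shM F ^ n := by
  induction n with
  | zero =>
    ext i j
    have : (i = -j) = (j = -i) := by
      revert i j
      decide
    simp [zM, rtbZ, this]
  | succ n ih =>
    rw [pow_succ', Matrix.mul_assoc, ih, ← Matrix.mul_assoc, ← Matrix.mul_assoc]
    congr 1
    ext i j
    rw [rtb_sh_mul, rtb_mul_sh, succ_nsmul]
    generalize n • (2 : Fin 7) = c
    have : (j = c - (i - 1)) = (j + 1 = c + 2 - i) := by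
      revert i j c
      decide
    simp only [rtbZ, of_apply, this]

theorem rt_span (hω : IsPrimitiveRoot ω 7) (hx : (x : M7) = ckM ω) (hy : (y : M7) = shM F)
    {u η : Fin 7 → F} (hu : u ≠ 0) (hη : η ≠ 0) :
    ∃ r ∈ R0 x y, η ⬝ᵥ ((r : M7) * zM F * ((r⁻¹ : GL7) : M7)) *ᵥ u ≠ 0 := by
  by_contra hc
  push Not at hc
  obtain ⟨i0, hi⟩ := Function.ne_iff.1 hη
  obtain ⟨j0, hj⟩ := Function.ne_iff.1 hu
  obtain ⟨n, hn⟩ : ∃ n : Fin 7, (n : ℕ) • (2 : Fin 7) = i0 + j0 := by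
    generalize i0 + j0 = c
    revert c
    decide
  have hxm : x ∈ R0 x y := Subgroup.subset_closure (by simp)
  have hym : y ∈ R0 x y := Subgroup.subset_closure (by simp)
  have hx7 : x⁻¹ = x ^ 6 := by
    rw [inv_eq_iff_mul_eq_one, ← pow_succ']
    exact Units.ext (by rw [Units.val_pow_eq_pow_val, hx, (rt_rel hω).2.1]; rfl)
  have hinj : Function.Injective fun i : Fin 7 => ω ^ ((i : ℕ) + ((i0 + j0 - i : Fin 7) : ℕ) * 6) := by
    intro i j e
    simp only at e
    rw [pow_eq_pow_mod _ hω.pow_eq_one, pow_eq_pow_mod (_ + ((i0 + j0 - j : Fin 7) : ℕ) * 6) hω.pow_eq_one] at e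
    have := hω.pow_inj (Nat.mod_lt _ (by norm_num)) (Nat.mod_lt _ (by norm_num)) e
    revert this
    generalize i0 + j0 = c
    clear * -
    revert i j c
    decide
  have h0 := Matrix.eq_zero_of_forall_pow_sum_mul_pow_eq_zero
    (v := fun i => -(η i * u (i0 + j0 - i))) hinj fun a => by
      have h1 := hc (x ^ (a : ℕ) * y ^ (n : ℕ)) (mul_mem (pow_mem hxm _) (pow_mem hym _))
      have h2 : ((y ^ (n : ℕ) : GL7) : M7) * zM F * (((y ^ (n : ℕ))⁻¹ : GL7) : M7) =
          rtbZ F (i0 + j0) := by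
        rw [← hn, Units.val_pow_eq_pow_val, hy, rtb_zc, ← hy, ← Units.val_pow_eq_pow_val,
          Matrix.mul_assoc, Units.mul_inv, Matrix.mul_one]
      rw [_root_.mul_inv_rev, Units.val_mul, Units.val_mul, Matrix.mul_assoc, Matrix.mul_assoc,
        ← Matrix.mul_assoc (zM F), ← Matrix.mul_assoc (y ^ (n : ℕ) : GL7).val,
        ← Matrix.mul_assoc (y ^ (n : ℕ) : GL7).val, h2, ← inv_pow, hx7, Units.val_pow_eq_pow_val,
        Units.val_pow_eq_pow_val, Units.val_pow_eq_pow_val, hx, ckM, diagonal_pow, diagonal_pow,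
        diagonal_pow] at h1
      rw [← h1]
      simp only [dotProduct, mulVec, diagonal_mul, mul_diagonal, rtbZ, of_apply, Pi.pow_apply]
      refine Finset.sum_congr rfl fun i _ => ?_
      rw [Finset.sum_eq_single (i0 + j0 - i) (fun b _ hb => by simp [hb]) (by simp)]
      simp only [if_true]
      ring
  have h3 := congrFun h0 i0
  simp only [add_sub_cancel_left, Pi.zero_apply, neg_eq_zero, mul_eq_zero] at h3
  exact h3.elim hi hj

theorem rt_inj (hω : IsPrimitiveRoot ω 7) (h : Weil ω φ) (A : SL(2, ZMod 7)) :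
    φ A ∈ Z7 ↔ A = 1 := by
  refine ⟨fun hA => ?_, fun e => by rw [e, map_one]; exact one_mem _⟩
  have _ := hω
  have h1 : φ (-1) ∉ Z7 := by
    rw [mem_scalars_iff, h.hz]
    rintro ⟨c, hc⟩
    have := congrFun (congrFun hc 1) 1
    have e : ¬ (1 : Fin 7) = -1 := by decide
    simp [zM, e] at this
    exact c.ne_zero this.symm
  by_contra h2
  by_cases h3 : A = -1
  · exact h1 (h3 ▸ hA)
  · have := s27_normal ((Z7).comap φ) hA h2 h3
    exact h1 (show -1 ∈ (Z7).comap φ from this ▸ Subgroup.mem_top _)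

end Cfsg.Agent.S7
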