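import Mathlib
import Cfsg.Agent.S7.D6
import Cfsg.Agent.S7.RTa
import Cfsg.Agent.S7.RTb
import Cfsg.Agent.Cl.LinearTransv

/-! A transvection gives an involution that is a reflection on the even vectors -/

set_option autoImplicit false

namespace Cfsg.Agent.S7

open Matrix Cfsg.Geo Cfsg.Agent.Cl.D5 Module
open scoped MatrixGroups ComplexConjugate commutatorElement

variable {F : Type*} [Field F] [Fintype F]

local notation "M7" => Matrix (Fin 7) (Fin 7) F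
local notation "SL7" => specialLinear (Fin 7) F
local notation "Z7" => scalars (Fin 7) F
local notation "GL7" => GL (Fin 7) F

variable {ω : F} {x y : GL (Fin 7) F} {φ : SL(2, ZMod 7) →* GL (Fin 7) F}
  {M : Subgroup (GL (Fin 7) F)}

namespace ReflX

omit [Fintype F] in
theorem e43 : (E4 F)ᵀ * E3 F = 0 := by
  ext i j
  fin_cases i <;> fin_cases j <;> simp [E3, E4, Matrix.mul_apply, Fin.sum_univ_succ]

omit [Fintype F] in
theorem e44 : (E4 F)ᵀ * E4 F = diagonal ![1, 2, 2, 2] := by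
  ext i j
  fin_cases i <;> fin_cases j <;> simp [E4, Matrix.mul_apply, Fin.sum_univ_succ, one_add_one_eq_two]

omit [Fintype F] in
theorem p43 : P4 F * E3 F = 0 := by rw [P4, Matrix.mul_assoc, e43, Matrix.mul_zero]

omit [Fintype F] in
theorem p34 : P3 F * E4 F = 0 := by
  have := congrArg transpose (e43 (F := F))
  rw [transpose_mul, transpose_transpose, transpose_zero] at this
  rw [P3, Matrix.smul_mul, this, smul_zero]

omit [Fintype F] in
theorem p44 (h2 : (2 : F) ≠ 0) : P4 F * E4 F = 1 := by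
  rw [P4, Matrix.mul_assoc, e44, diagonal_mul_diagonal, ← diagonal_one]
  congr 1
  ext i
  fin_cases i <;> simp [h2]

theorem four_le (hp : 11 ≤ ringChar F) {v η : Fin 7 → F} (ht : MT M v η) :
    4 ≤ (tvA M v η).ncard := by
  have hi : Set.InjOn (Nat.cast : ℕ → F) (Set.Iio 4) :=
    (CharP.natCast_injOn_Iio F (ringChar F)).mono (Set.Iio_subset_Iio (by omega))
  have h1 : ((Nat.cast : ℕ → F) '' Set.Iio 4).ncard = 4 := by rw [hi.ncard_image, Set.ncard_Iio_nat]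
  rw [← h1]
  refine Set.ncard_le_ncard ?_
  rintro _ ⟨n, -, rfl⟩
  exact ht.nsmul n

/-- The element inverting the plane of two opposite transvections. -/
theorem exists_inv (hp : 11 ≤ ringChar F) {v η w ψ : Fin 7 → F} {μ : F} (h1 : MT M v η)
    (h2 : MT M w ψ) (hμ : μ ≠ 0) (e1 : η ⬝ᵥ w = μ) (e2 : ψ ⬝ᵥ v = μ) :
    ∃ g ∈ M, ∀ u, (g : M7) *ᵥ u = u - (2 * μ⁻¹) • ((ψ ⬝ᵥ u) • v + (η ⬝ᵥ u) • w) := by
  obtain ⟨k, k1, k2⟩ := pair_field h1.1 h2.1 (e1 ▸ hμ) (e2 ▸ hμ) h2 (.inl (four_le hp h1))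
  obtain ⟨-, s, hs, es⟩ := (k1 (μ⁻¹ * μ⁻¹)).2 (by
    rw [e1, e2, show μ⁻¹ * μ⁻¹ * (μ * μ) = 1 by field_simp]; exact k.one_mem)
  obtain ⟨-, t, ht, et⟩ := (k2 (-1)).2 (k.neg_mem k.one_mem)
  have hn : ∀ u, ((s * t * s : GL7) : M7) *ᵥ u =
      u + (μ⁻¹ * μ⁻¹ * η ⬝ᵥ u - μ⁻¹ * ψ ⬝ᵥ u) • v - (ψ ⬝ᵥ u + μ⁻¹ * η ⬝ᵥ u) • w := fun u => by
    simp only [Units.val_mul, ← mulVec_mulVec, es, et, smul_dotProduct, dotProduct_add,
      dotProduct_smul, smul_eq_mul, h1.1, h2.1, e1, e2]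
    match_scalars <;> field_simp <;> ring
  refine ⟨s * t * s * (s * t * s), mul_mem (mul_mem (mul_mem hs ht) hs) (mul_mem (mul_mem hs ht) hs),
    fun u => ?_⟩
  rw [Units.val_mul, ← mulVec_mulVec, hn, hn]
  simp only [dotProduct_add, dotProduct_sub, dotProduct_smul, smul_eq_mul, h1.1, h2.1, e1, e2]
  match_scalars <;> field_simp <;> ring

theorem main (h : Std ω x y φ M) {ι : GL (Fin 3) F × GL (Fin 4) F →* GL7} (hι : Blk ι)
    (hp : 11 ≤ ringChar F) {v η : Fin 7 → F} (ht : MT M v η) (hμ : η ⬝ᵥ zM F *ᵥ v ≠ 0) :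
    ∃ a b, ι (a, b) ∈ M ∧ b * b = 1 ∧ ((b : Matrix (Fin 4) (Fin 4) F) - 1).rank = 1 := by
  have h2 : (2 : F) ≠ 0 := fun e => by
    have := Nat.le_of_dvd two_pos ((CharP.cast_eq_zero_iff F (ringChar F) 2).1 (by exact_mod_cast e))
    omega
  have zz : zM F * zM F = 1 := (rt_rel h.om).2.2.2.2.2.1
  have hz := h.weil.hz
  have hz' : (((φ (-1))⁻¹ : GL7) : M7) = zM F := by
    rw [← map_inv, inv_neg, inv_one, hz]
  have ht' := ht.conj (h.fm (-1))
  rw [hz, hz'] at ht'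
  have d1 : ∀ u, (η ᵥ* zM F) ⬝ᵥ u = η ⬝ᵥ zM F *ᵥ u := fun u => (dotProduct_mulVec _ _ _).symm
  have d2 : ∀ u, zM F *ᵥ zM F *ᵥ u = u := fun u => by rw [mulVec_mulVec, zz, one_mulVec]
  obtain ⟨g, hg, e⟩ := exists_inv hp ht ht' hμ rfl (d1 v)
  generalize hm : η ⬝ᵥ zM F *ᵥ v = μ at hμ e
  have gz : (g : M7) * zM F = zM F * g := toLin'.injective (LinearMap.ext fun u => by
    simp only [toLin'_apply, ← mulVec_mulVec, e, d1, d2, mulVec_sub, mulVec_smul, mulVec_add]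
    rw [add_comm])
  have gg : g * g = 1 := Units.ext (toLin'.injective (LinearMap.ext fun u => by
    simp only [Units.val_mul, Units.val_one, toLin'_apply, ← mulVec_mulVec, e, d1, d2, mulVec_sub,
      mulVec_smul, mulVec_add, one_mulVec, dotProduct_sub, dotProduct_add, dotProduct_smul,
      smul_eq_mul, ht.1, hm]
    match_scalars <;> field_simp <;> ring))
  obtain ⟨⟨a, b⟩, rfl⟩ := hι.surj g gz
  refine ⟨a, b, hg, congrArg Prod.snd (hι.inj (by rw [map_mul, gg, map_one]) : (a, b) * (a, b) = 1), ?_⟩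
  have z1 : zM F = E3 F * P3 F - E4 F * P4 F := by
    rw [← hι.hz, hι.coe]
    simp [sub_eq_add_neg]
  have z2 : (1 : M7) = E3 F * P3 F + E4 F * P4 F := by
    have := hι.coe 1 1
    rw [show ((1, 1) : GL (Fin 3) F × GL (Fin 4) F) = 1 from rfl, map_one] at this
    simpa using this
  have pz : P4 F * zM F = -P4 F := by
    rw [z1, Matrix.mul_sub, ← Matrix.mul_assoc, ← Matrix.mul_assoc, p43, p44 h2]
    simp
  have ze : zM F * E4 F = -E4 F := by
    rw [z1, Matrix.sub_mul, Matrix.mul_assoc, Matrix.mul_assoc, p34, p44 h2]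
    simp
  have hb : P4 F * (ι (a, b) : M7) * E4 F = b := by
    rw [hι.coe, Matrix.mul_add, Matrix.add_mul]
    simp only [← Matrix.mul_assoc, p43, p44 h2, Matrix.zero_mul, Matrix.one_mul, zero_add]
    rw [Matrix.mul_assoc, p44 h2, Matrix.mul_one]
  have hb' : (b : Matrix (Fin 4) (Fin 4) F) - 1 =
      vecMulVec ((4 * μ⁻¹) • P4 F *ᵥ v) (η ᵥ* E4 F) := toLin'.injective (LinearMap.ext fun u => by
    have k1 : zM F *ᵥ E4 F *ᵥ u = -(E4 F *ᵥ u) := by rw [mulVec_mulVec, ze, neg_mulVec]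
    have k2 : P4 F *ᵥ zM F *ᵥ v = -(P4 F *ᵥ v) := by rw [mulVec_mulVec, pz, neg_mulVec]
    have k3 : P4 F *ᵥ E4 F *ᵥ u = u := by rw [mulVec_mulVec, p44 h2, one_mulVec]
    rw [toLin'_apply, toLin'_apply, sub_mulVec, ← hb, ← mulVec_mulVec, ← mulVec_mulVec, e,
      vecMulVec_mulVec, ← dotProduct_mulVec η (E4 F) u]
    simp only [d1, k1, k2, k3, mulVec_sub, mulVec_smul, mulVec_add, one_mulVec, dotProduct_neg,
      op_smul_eq_smul]
    match_scalars <;> ring)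
  have hd : (η ᵥ* E4 F) ⬝ᵥ P4 F *ᵥ v ≠ 0 := fun k => by
    rw [← dotProduct_mulVec, mulVec_mulVec] at k
    have k1 := congrArg (fun A : M7 => η ⬝ᵥ A *ᵥ v) z1
    have k2 := congrArg (fun A : M7 => η ⬝ᵥ A *ᵥ v) z2
    simp only [sub_mulVec, add_mulVec, dotProduct_sub, dotProduct_add, one_mulVec, ht.1, hm, k] at k1 k2
    exact hμ (by linear_combination k1 - k2)
  rw [hb']
  refine Cl.rank_vecMulVec_eq_one (smul_ne_zero (mul_ne_zero ?_ (inv_ne_zero hμ)) fun k => ?_) fun k => ?_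
  · rw [show (4 : F) = 2 * 2 by norm_num]
    exact mul_ne_zero h2 h2
  · exact hd (by rw [k, dotProduct_zero])
  · exact hd (by rw [k, zero_dotProduct])

end ReflX

theorem Std.refl (h : Std ω x y φ M) {ι : GL (Fin 3) F × GL (Fin 4) F →* GL7} (hι : Blk ι)
    (hp : 11 ≤ ringChar F) {v η : Fin 7 → F} (hv : v ≠ 0) (hη : η ≠ 0) (ht : MT M v η) :
    ∃ a b, ι (a, b) ∈ M ∧ b * b = 1 ∧ ((b : Matrix (Fin 4) (Fin 4) F) - 1).rank = 1 := by
  obtain ⟨r, hr, h1⟩ := rt_span h.om h.hx h.hy hv hη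
  have hrM : r ∈ M := (Subgroup.closure_le M).2 (Set.pair_subset h.xm h.ym) hr
  refine ReflX.main h hι hp (ht.conj (inv_mem hrM)) ?_
  rwa [inv_inv, ← dotProduct_mulVec, mulVec_mulVec, mulVec_mulVec]

end Cfsg.Agent.S7
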