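import Mathlib
import Cfsg.Agent.S7.D6
import Cfsg.Agent.S7.RTa
import Cfsg.Agent.S7.RTb
import Cfsg.Agent.GT.CoprimeGen
import Cfsg.Agent.GT.PGroupChain

set_option autoImplicit false

namespace Cfsg.Agent.S7

open Matrix Cfsg.Geo Cfsg.Agent.Cl.D5 Module
open scoped MatrixGroups ComplexConjugate commutatorElement

namespace Solv

open Subgroup

variable {G : Type*} [Group G]

theorem dich [Finite G] {Q R : Subgroup G} (hQ : ∀ a ∈ Q, ∀ b ∈ Q, Commute a b)
    (hn : ∀ r ∈ R, ∀ q ∈ Q, r * q * r⁻¹ ∈ Q) (h7 : ∀ r ∈ R, r ^ 7 = 1) (hc : ∀ a ∈ R, ∀ b ∈ R, Commute a b)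
    (hcy : ¬ IsCyclic R) (hb : Q ≠ ⊥) :
    (∃ c ∈ Q, c ≠ 1 ∧ ∀ r ∈ R, Commute r c) ∨
      (¬ 7 ∣ Nat.card Q ∧ ∃ r ∈ R, r ≠ 1 ∧ ∃ b ∈ Q, b ≠ 1 ∧ Commute r b) := by
  have : Fact (Nat.Prime 7) := ⟨by norm_num⟩
  have pR : IsPGroup 7 R := fun r => ⟨1, Subtype.ext (by simpa using h7 r r.2)⟩
  by_cases h : 7 ∣ Nat.card Q
  · let O : Subgroup G :=
      { carrier := {a | a ∈ Q ∧ a ^ 7 = 1}
        one_mem' := ⟨one_mem _, one_pow _⟩
        mul_mem' := fun {a b} ha hb => ⟨mul_mem ha.1 hb.1, by rw [(hQ a ha.1 b hb.1).mul_pow, ha.2, hb.2, one_mul]⟩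
        inv_mem' := fun {a} ha => ⟨inv_mem ha.1, by rw [inv_pow, ha.2, inv_one]⟩ }
    obtain ⟨a, ha⟩ := exists_prime_orderOf_dvd_card' 7 h
    have h1 := GT.PG.inf_centralizer_ne_bot_of_isPGroup (p := 7) (M := O) (H := R)
      (fun r => ⟨1, Subtype.ext (by simpa using r.2.2)⟩) pR
      (fun r hr => mem_normalizer_fintype fun q hq => ⟨hn r hr q hq.1, by rw [conj_pow, hq.2]; simp⟩)
      fun e => by
        have : (a : G) ∈ O := ⟨a.2, by rw [← ha, ← orderOf_coe, pow_orderOf_eq_one]⟩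
        rw [e, mem_bot] at this
        rw [← orderOf_coe, this, orderOf_one] at ha
        omega
    obtain ⟨⟨c, hc⟩, c1⟩ := ne_bot_iff_exists_ne_one.1 h1
    exact .inl ⟨c, hc.1.1, fun e => c1 (Subtype.ext e), fun r hr => mem_centralizer_iff.1 hc.2 r hr⟩
  · obtain ⟨n, hn'⟩ := pR.exists_card_eq
    obtain ⟨r, hr, r1, h1⟩ := GT.CopAct.exists_inf_centralizer_ne_bot (A := R) (K := Q)
      ⟨⟨fun a b => Subtype.ext (hc a a.2 b b.2).eq⟩⟩ hcy (fun r hr => mem_normalizer_fintype (hn r hr))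
      (hn' ▸ ((Nat.Prime.coprime_iff_not_dvd this.out).2 h).pow_left n) hb
    obtain ⟨⟨c, hc⟩, c1⟩ := ne_bot_iff_exists_ne_one.1 h1
    exact .inr ⟨h, r, hr, r1, c, hc.1, fun e => c1 (Subtype.ext e),
      (mem_centralizer_singleton_iff.1 hc.2).symm⟩

theorem cq {Z : Subgroup G} [Z.Normal] {a b : G} :
    Commute (QuotientGroup.mk' Z a) (QuotientGroup.mk' Z b) ↔ a * b * a⁻¹ * b⁻¹ ∈ Z := by
  rw [← commutatorElement_eq_one_iff_commute, ← map_commutatorElement, QuotientGroup.mk'_apply,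
    QuotientGroup.eq_one_iff, commutatorElement_def]

theorem com {g a : G} {n : ℕ} (hn : ¬ 7 ∣ n) (h1 : Commute g (a ^ n)) (h2 : Commute (g * a * g⁻¹ * a⁻¹) a)
    (h3 : (g * a * g⁻¹ * a⁻¹) ^ 7 = 1) : Commute g a := by
  have e := h2.mul_pow n
  rw [inv_mul_cancel_right, conj_pow, h1.eq, mul_inv_cancel_right, right_eq_mul] at e
  rw [← commutatorElement_eq_one_iff_commute, commutatorElement_def, ← orderOf_eq_one_iff]
  exact Nat.eq_one_of_dvd_coprimes ((Nat.Prime.coprime_iff_not_dvd (by norm_num)).2 hn)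
    (orderOf_dvd_of_pow_eq_one h3) (orderOf_dvd_of_pow_eq_one e)

theorem shift {F : Type*} [Field F] (d : Fin 7 → F) :
    diagonal d * shM F = shM F * diagonal fun i => d (i + 1) := by
  ext i j
  simp only [shM, diagonal_mul, mul_diagonal, of_apply]
  split_ifs with h
  · rw [h, mul_one, one_mul]
  · rw [mul_zero, zero_mul]

end Solv

variable {F : Type*} [Field F] [Fintype F]

local notation "M7" => Matrix (Fin 7) (Fin 7) F
local notation "SL7" => specialLinear (Fin 7) F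
local notation "Z7" => scalars (Fin 7) F
local notation "GL7" => GL (Fin 7) F

variable {ω : F} {x y : GL (Fin 7) F} {φ : SL(2, ZMod 7) →* GL (Fin 7) F}
  {M : Subgroup (GL (Fin 7) F)}

namespace Solv

open Subgroup

theorem scal (h : Std ω x y φ M) {g : GL7} (h1 : Commute g x) (h2 : Commute g y) : g ∈ Z7 := by
  obtain ⟨c, hc⟩ := rt_scalar h.om (A := (g : M7)) (by rw [← h.hx]; exact congrArg Units.val h1.eq)
    (by rw [← h.hy]; exact congrArg Units.val h2.eq)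
  exact Cl.Max.mem_scalars_of_eq_smul hc

theorem y15 (h : Std ω x y φ M) : (y ^ 3) ^ 5 = y := by
  have := (rt_sc h.om h.hx h.hy).2.2.2.2.1 y (subset_closure (by simp))
  rw [← pow_mul, show 3 * 5 = 7 * 2 + 1 from rfl, pow_succ, pow_mul, this, one_pow, one_mul]

theorem abel (h : Std ω x y φ M) {A : Subgroup GL7} (h2 : Cl.Max.NormsG M A)
    (hA : ∀ a ∈ A, ∀ b ∈ A, Commute a b) {b : GL7} (hb : b ∈ A) (hs : b ∉ Z7) (hc : Commute b x) : A ≤ Z7 := by
  obtain ⟨d, hd⟩ := rt_diag h.om (k := 1) (by norm_num) (A := (b : M7))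
    (by rw [pow_one, ← h.hx]; exact congrArg Units.val hc.eq)
  have h0 : ∃ i j, d i ≠ d j := by
    by_contra! k
    refine hs (Cl.Max.mem_scalars_of_eq_smul (c := d 0) ?_)
    rw [hd, smul_one_eq_diagonal]
    exact congrArg _ (funext fun i => k i 0)
  have h1 : ∀ n : ℕ, ∃ g ∈ A, (g : M7) = diagonal fun i => d (i + n • (1 : Fin 7)) := fun n => by
    induction n with
    | zero => exact ⟨b, hb, by simpa using hd⟩
    | succ n ih =>
      obtain ⟨g, hg, e⟩ := ih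
      refine ⟨_, h2 y⁻¹ (inv_mem h.ym) g hg, ?_⟩
      rw [inv_inv, Units.val_mul, Units.val_mul, mul_assoc, Units.inv_mul_eq_iff_eq_mul, e, h.hy, shift]
      simp only [succ_nsmul', add_assoc]
  have h3 : ∀ a ∈ A, Commute a x := fun a ha => by
    obtain ⟨e, he⟩ := rt_sep h0 (A := (a : M7)) fun k => by
      obtain ⟨g, hg, e⟩ := h1 k
      rw [(by decide : ∀ k : Fin 7, (k : ℕ) • (1 : Fin 7) = k)] at e
      rw [← e]
      exact congrArg Units.val (hA a ha g hg).eq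
    refine Units.ext ?_
    rw [Units.val_mul, Units.val_mul, he, h.hx, ckM, diagonal_mul_diagonal, diagonal_mul_diagonal]
    simp only [mul_comm]
  intro a ha
  refine scal h (h3 a ha) ?_
  have := (h3 _ (h2 _ (inv_mem (h.fm ww)) a ha)).map (MulAut.conj (φ ww))
  rw [MulAut.conj_apply, MulAut.conj_apply, (rt_conj h.om h.hx h.hy h.weil).1,
    show φ ww * ((φ ww)⁻¹ * a * (φ ww)⁻¹⁻¹) * (φ ww)⁻¹ = a by group] at this
  exact y15 h ▸ this.pow_right 5

end Solv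

open Solv Subgroup in
theorem Std.solv (h : Std ω x y φ M) {A : Subgroup GL7} (h1 : A ≤ M) (h2 : Cl.Max.NormsG M A)
    (h3 : ⁅A, A⁆ ≤ Z7) (h4 : ¬ A ≤ Z7) : M ≤ Subgroup.normalizer (R0 x y : Set GL7) := by
  classical
  obtain ⟨-, s2, s3, s4, s5, s6⟩ := rt_sc h.om h.hx h.hy
  have xR : x ∈ R0 x y := subset_closure (by simp)
  have yR : y ∈ R0 x y := subset_closure (by simp)
  have RM : R0 x y ≤ M := (closure_le _).2 (by rintro _ (rfl | rfl); exacts [h.xm, h.ym])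
  set π := QuotientGroup.mk' Z7
  have ab : ∀ {B : Subgroup GL7}, ⁅B, B⁆ ≤ Z7 → ∀ a ∈ B.map π, ∀ b ∈ B.map π, Commute a b := by
    rintro B k _ ⟨a, ha, rfl⟩ _ ⟨b, hb, rfl⟩
    exact cq.2 (k (commutator_mem_commutator ha hb))
  have nQ : ∀ m ∈ M, ∀ q ∈ A.map π, π m * q * (π m)⁻¹ ∈ A.map π := by
    rintro m hm _ ⟨a, ha, rfl⟩
    exact ⟨_, h2 m hm a ha, by rw [map_mul, map_mul, map_inv]⟩
  have one : ∀ {g : GL7}, π g = 1 ↔ g ∈ Z7 := QuotientGroup.eq_one_iff _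
  rcases dich (R := (R0 x y).map π) (ab h3) (by rintro _ ⟨r, hr, rfl⟩; exact nQ r (RM hr))
    (by rintro _ ⟨r, hr, rfl⟩; rw [← map_pow, s5 r hr, map_one]) (ab s3) (fun k => s4 (scal h (Commute.refl x)
      (congrArg Subtype.val (((π.subgroupMap (R0 x y)).isMulCommutative_of_isCyclic_of_ker_le_center
        (fun z hz => mem_center_iff.2 fun g => Subtype.ext
          (Cl.Max.mul_comm_of_mem_scalars (one.1 (congrArg Subtype.val hz)) g).symm)).1.1 ⟨x, xR⟩ ⟨y, yR⟩))))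
    (fun e => h4 fun a ha => one.1 (mem_bot.1 (e ▸ mem_map_of_mem π ha))) with
    ⟨_, ⟨c, hc, rfl⟩, c1, k⟩ | ⟨h7, _, ⟨r, hr, rfl⟩, r1, _, ⟨b, hb, rfl⟩, b1, k⟩
  · have cR : c ∈ R0 x y := rt_comm h.om h.hx h.hy (h.sl (h1 hc)) (cq.1 (k _ (mem_map_of_mem π xR)).symm)
      (cq.1 (k _ (mem_map_of_mem π yR)).symm)
    obtain ⟨B, hB⟩ := rt_trans h.om h.hx h.hy h.weil cR fun e => c1 (one.2 e)
    have xQ : π x ∈ A.map π := by
      rw [← one, map_mul, map_inv, mul_inv_eq_one] at hB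
      exact hB ▸ mem_map_of_mem π (h2 _ (h.fm B) c hc)
    have yQ : π y ∈ A.map π := by
      have := nQ _ (h.fm ww) _ xQ
      rw [← map_inv, ← map_mul, ← map_mul, (rt_conj h.om h.hx h.hy h.weil).1] at this
      rw [← y15 h, map_pow]
      exact pow_mem this 5
    have key : ∀ m ∈ M, ∀ g ∈ M, π g ∈ A.map π → m * g * m⁻¹ ∈ R0 x y := fun m hm g hg hq => by
      have := nQ m hm _ hq
      rw [← map_inv, ← map_mul, ← map_mul] at this
      exact rt_comm h.om h.hx h.hy (h.sl (mul_mem (mul_mem hm hg) (inv_mem hm))) (cq.1 (ab h3 _ this _ xQ))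
        (cq.1 (ab h3 _ this _ yQ))
    intro m hm
    refine mem_normalizer_fintype fun g hg => ?_
    have : R0 x y ≤ (R0 x y).comap (MulAut.conj m).toMonoidHom := (closure_le _).2 (by
      rintro _ (rfl | rfl)
      exacts [key m hm _ h.xm xQ, key m hm _ h.ym yQ])
    exact this hg
  · have cm : ∀ g ∈ M, ∀ a ∈ A, g * a * g⁻¹ * a⁻¹ ∈ Z7 → Commute g a := fun g hg a ha hz =>
      com h7 (Cl.Max.mul_comm_of_mem_scalars (one.1 (by
        rw [map_pow]
        exact congrArg Subtype.val (pow_card_eq_one' (x := (⟨π a, mem_map_of_mem π ha⟩ : A.map π))))) g).symm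
        (Cl.Max.mul_comm_of_mem_scalars hz a)
        (s6 _ ⟨hz, h.sl (mul_mem (mul_mem (mul_mem hg (h1 ha)) (inv_mem hg)) (inv_mem (h1 ha)))⟩)
    obtain ⟨B, hB⟩ := rt_trans h.om h.hx h.hy h.weil hr fun e => r1 (one.2 e)
    rw [← one, map_mul, map_inv, mul_inv_eq_one] at hB
    have k1 := k.map (MulAut.conj (π (φ B)))
    rw [MulAut.conj_apply, MulAut.conj_apply, ← map_inv, ← map_mul, ← map_mul, ← map_mul, ← map_mul, hB] at k1
    have hb' := h2 _ (h.fm B) b hb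
    refine absurd (abel h h2 (fun a ha b hb => cm a (h1 ha) b hb (h3 (commutator_mem_commutator ha hb))) hb'
      (fun e => b1 (one.2 ?_)) (cm x h.xm _ hb' (cq.1 k1)).symm) h4
    simpa [mul_assoc] using (inferInstance : (Z7).Normal).conj_mem _ e (φ B)⁻¹

end Cfsg.Agent.S7
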