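import Mathlib
import Cfsg.Agent.S7.D6

set_option autoImplicit false

namespace Cfsg.Agent.S7

open Matrix Cfsg.Geo Cfsg.Agent.Cl.D5 Module
open scoped MatrixGroups ComplexConjugate commutatorElement

variable {F : Type*} [Field F] [Fintype F]

local notation "M7" => Matrix (Fin 7) (Fin 7) F
local notation "SL7" => specialLinear (Fin 7) F
local notation "Z7" => scalars (Fin 7) F
local notation "GL7" => GL (Fin 7) F

omit [Fintype F] in
theorem Sub_mem {ι : Type} [Fintype ι] [DecidableEq ι] {K : Type*} [Field K] (f : K →+* F)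
    (g : GL ι F) : g ∈ (specialLinear ι K).map (GeneralLinearGroup.map f) ↔
      g ∈ specialLinear ι F ∧ ∀ i j, ∃ a, f a = (g : Matrix ι ι F) i j := by
  have hd : ∀ h : GL ι K, ((GeneralLinearGroup.map f h : GL ι F) : Matrix ι ι F).det =
      f (h : Matrix ι ι K).det := fun h => (RingHom.map_det f _).symm
  have hs : ∀ {E : Type _} [Field E] (h : GL ι E), h ∈ specialLinear ι E ↔ (h : Matrix ι ι E).det = 1 :=
    fun h => by rw [specialLinear, MonoidHom.mem_ker, Units.ext_iff]; rfl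
  have hs' : ∀ h : GL ι K, h ∈ specialLinear ι K ↔ (h : Matrix ι ι K).det = 1 :=
    fun h => by rw [specialLinear, MonoidHom.mem_ker, Units.ext_iff]; rfl
  constructor
  · rintro ⟨h, hh, rfl⟩
    exact ⟨(hs _).2 (by rw [hd, (hs' _).1 hh, map_one]), fun i j => ⟨_, rfl⟩⟩
  · rintro ⟨h1, h2⟩
    choose A hA using h2
    have e : (Matrix.of A).map f = (g : Matrix ι ι F) := by ext i j; exact hA i j
    have d : (Matrix.of A).det = 1 := f.injective (by
      rw [RingHom.map_det, RingHom.mapMatrix_apply, e, map_one]; exact (hs _).1 h1)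
    refine ⟨GeneralLinearGroup.mkOfDetNeZero (Matrix.of A) (by rw [d]; exact one_ne_zero),
      (hs' _).2 d, Units.ext e⟩

omit [Fintype F] in
theorem Sub_cen {ι : Type} [Fintype ι] [DecidableEq ι] {s : GL ι F} (hs : s ∈ scalars ι F)
    (g : GL ι F) : g * s = s * g := by
  obtain ⟨c, hc⟩ := (mem_scalars_iff s).1 hs
  apply Units.ext
  simp [hc]

omit [Fintype F] in
theorem exists_desc {n : ℕ} (F₀ : Subfield F) (P : GL (Fin n) F) :
    ∃ e : GL (Fin n) F₀ →* GL (Fin n) F, Function.Injective e ∧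
      (∀ g, (e g : Matrix (Fin n) (Fin n) F).trace = ((g : Matrix (Fin n) (Fin n) F₀).trace : F)) ∧
      (∀ g, e g ∈ scalars (Fin n) F ↔ g ∈ scalars (Fin n) F₀) ∧ e (-1) = -1 ∧
      (specialLinear (Fin n) F₀).map e = SLs F₀ P ∧
      (∀ L ≤ subfieldSubgroup F₀ P, ⁅L, L⁆ = L → L ≤ SLs F₀ P) ∧
      ∀ (F₁ : Subfield F₀) (P₁ : GL (Fin n) F₀), ∃ P₂,
        (SLs F₁ P₁).map e = SLs (F₁.map F₀.subtype) P₂ := by
  let m : GL (Fin n) F₀ →* GL (Fin n) F := GeneralLinearGroup.map (F₀.subtype : F₀ →+* F)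
  let e : GL (Fin n) F₀ →* GL (Fin n) F := (MulAut.conj P).toMonoidHom.comp m
  have he : ∀ g, e g = P * m g * P⁻¹ := fun g => rfl
  have hm : ∀ g i j, (m g : Matrix (Fin n) (Fin n) F) i j = ((g : Matrix (Fin n) (Fin n) F₀) i j : F) :=
    fun g i j => rfl
  have mi : Function.Injective m := fun g h e => by
    ext i j
    rw [← hm, ← hm, e]
  have hsl : (specialLinear (Fin n) F₀).map e = SLs F₀ P := by rw [SLs, Subgroup.map_map]
  refine ⟨e, (MulAut.conj P).injective.comp mi, fun g => ?_, fun g => ?_, ?_, hsl, fun L hL hp => ?_,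
    fun F₁ P₁ => ⟨P * m P₁, ?_⟩⟩
  · rw [he, Units.val_mul, Units.val_mul, Matrix.trace_mul_cycle, ← Units.val_mul, inv_mul_cancel,
      Units.val_one, one_mul]
    simp only [Matrix.trace, Matrix.diag, hm]
    exact (map_sum F₀.subtype _ _).symm
  · have h1 : e g ∈ scalars (Fin n) F ↔ m g ∈ scalars (Fin n) F := by
      constructor
      · intro h
        have : m g = e g := by
          calc m g = P⁻¹ * e g * P := by rw [he]; group
            _ = e g := by rw [Sub_cen h, inv_mul_cancel_right]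
        exact this ▸ h
      · intro h
        rwa [he, Sub_cen h, mul_inv_cancel_right]
    rw [h1, mem_scalars_iff, mem_scalars_iff]
    constructor
    · rintro ⟨c, hc⟩
      rcases n with _ | n
      · exact ⟨1, Subsingleton.elim _ _⟩
      · have h0 : (((g : Matrix (Fin (n + 1)) (Fin (n + 1)) F₀) 0 0 : F₀) : F) = c := by
          rw [← hm, hc]; simp
        refine ⟨Units.mk0 ((g : Matrix (Fin (n + 1)) (Fin (n + 1)) F₀) 0 0) fun h => c.ne_zero (by
          rw [← h0, h]; rfl), ?_⟩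
        ext i j
        rw [← hm, hc]
        by_cases hij : i = j <;> simp [hij, h0]
    · rintro ⟨c, hc⟩
      refine ⟨Units.map (F₀.subtype : F₀ →+* F).toMonoidHom c, ?_⟩
      ext i j
      rw [hm, hc]
      by_cases hij : i = j <;> simp [hij]
  · have : m (-1) = -1 := by
      ext i j
      rw [hm]
      by_cases hij : i = j <;> simp [hij]
    rw [he, this]
    simp
  · have dec : ∀ a ∈ subfieldSubgroup F₀ P, ∃ g, ∃ s ∈ scalars (Fin n) F, a = e g * s := by
      rintro _ ⟨x, hx, rfl⟩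
      rw [Subgroup.mul_normal] at hx
      obtain ⟨_, ⟨g, rfl⟩, s, hs, rfl⟩ := hx
      refine ⟨g, s, hs, ?_⟩
      show P * (m g * s) * P⁻¹ = P * m g * P⁻¹ * s
      rw [mul_assoc _ P⁻¹, Sub_cen hs P⁻¹]
      group
    rw [← hp, Subgroup.commutator_le, ← hsl]
    intro a ha b hb
    obtain ⟨g, s, hs, rfl⟩ := dec a (hL ha)
    obtain ⟨h, t, ht, rfl⟩ := dec b (hL hb)
    refine ⟨⁅g, h⁆, ?_, ?_⟩
    · show GeneralLinearGroup.det ⁅g, h⁆ = 1
      rw [map_commutatorElement, commutatorElement_eq_one_iff_mul_comm, mul_comm]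
    · rw [map_commutatorElement, commutatorElement_def, commutatorElement_def]
      have e1 : s * (e h * t) * s⁻¹ = e h * t := by rw [← Sub_cen hs, mul_inv_cancel_right]
      have e2 : t * (e g)⁻¹ * t⁻¹ = (e g)⁻¹ := by rw [← Sub_cen ht, mul_inv_cancel_right]
      calc _ = e g * e h * (t * (e g)⁻¹ * t⁻¹) * (e h)⁻¹ := by rw [e2]
        _ = e g * (s * (e h * t) * s⁻¹) * (e g)⁻¹ * t⁻¹ * (e h)⁻¹ := by rw [e1]; group
        _ = _ := by group
  · have : ((specialLinear (Fin n) F₁).map (GeneralLinearGroup.map (F₁.subtype : F₁ →+* F₀))).map m =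
        (specialLinear (Fin n) (F₁.map F₀.subtype)).map
          (GeneralLinearGroup.map ((F₁.map F₀.subtype).subtype : F₁.map F₀.subtype →+* F)) := by
      have e1 : m.comp (GeneralLinearGroup.map (F₁.subtype : F₁ →+* F₀)) =
          GeneralLinearGroup.map (F₀.subtype.comp F₁.subtype) := rfl
      rw [Subgroup.map_map, e1]
      ext g
      rw [Sub_mem, Sub_mem]
      refine and_congr_right fun _ => forall₂_congr fun i j => ⟨?_, ?_⟩
      · rintro ⟨a, ha⟩
        exact ⟨⟨_, a, a.2, rfl⟩, ha⟩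
      · rintro ⟨⟨_, a, ha, rfl⟩, h⟩
        exact ⟨⟨a, ha⟩, h⟩
    rw [SLs, SLs, ← this, Subgroup.map_map, Subgroup.map_map, Subgroup.map_map, Subgroup.map_map]
    congr 1
    ext1 g
    simp [he, mul_assoc]

omit [Fintype F] in
theorem sls_top {n : ℕ} (P : GL (Fin n) F) : SLs ⊤ P = specialLinear (Fin n) F := by
  have : (specialLinear (Fin n) (⊤ : Subfield F)).map
      (GeneralLinearGroup.map ((⊤ : Subfield F).subtype : (⊤ : Subfield F) →+* F)) =
      specialLinear (Fin n) F := by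
    ext g
    rw [Sub_mem]
    exact and_iff_left fun i j => ⟨⟨_, Subfield.mem_top _⟩, rfl⟩
  rw [SLs, this]
  have : (specialLinear (Fin n) F).Normal := MonoidHom.normal_ker _
  exact Subgroup.Normal.conj_smul_eq_self P _

omit [Fintype F] in
theorem exists_perf {n : ℕ} {J H : Subgroup (GL (Fin n) F)} (hJ : ⁅J, J⁆ = J) (h : J ≤ H) :
    ∃ L, J ≤ L ∧ L ≤ H ∧ ⁅L, L⁆ = L ∧ Cl.Max.NormsG H L ∧ L ≤ specialLinear (Fin n) F := by
  let L : Subgroup (GL (Fin n) F) := ⨆ g : H, J.map (MulAut.conj (g : GL (Fin n) F)).toMonoidHom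
  have hp : ⁅L, L⁆ = L := by
    refine le_antisymm (Subgroup.commutator_le_self L) (iSup_le fun g => ?_)
    rw [← hJ, Subgroup.map_commutator]
    exact Subgroup.commutator_mono (le_iSup (fun g : H => J.map (MulAut.conj (g : GL (Fin n) F)).toMonoidHom) g)
      (le_iSup (fun g : H => J.map (MulAut.conj (g : GL (Fin n) F)).toMonoidHom) g)
  refine ⟨L, fun j hj => Subgroup.mem_iSup_of_mem (1 : H) ⟨j, hj, by simp⟩, iSup_le fun g => ?_, hp,
    fun g hg => ?_, ?_⟩
  · rintro _ ⟨j, hj, rfl⟩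
    exact H.mul_mem (H.mul_mem g.2 (h hj)) (H.inv_mem g.2)
  · have : L ≤ L.comap (MulAut.conj g).toMonoidHom := iSup_le fun k => by
      rintro _ ⟨j, hj, rfl⟩
      exact Subgroup.mem_iSup_of_mem (⟨g, hg⟩ * k : H) ⟨j, hj, by simp [mul_assoc]⟩
    exact fun x hx => this hx
  · rw [← hp, Subgroup.commutator_le]
    intro a _ b _
    show GeneralLinearGroup.det ⁅a, b⁆ = 1
    rw [map_commutatorElement, commutatorElement_eq_one_iff_mul_comm, mul_comm]

theorem not_square_sub (hq : ¬ IsSquare (Fintype.card F)) {F₀ : Subfield F} [Fintype F₀] {r : ℕ}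
    (hr : r.Prime) (h : Fintype.card F = Nat.card F₀ ^ r) :
    ¬ IsSquare (Fintype.card F₀) ∧ Fintype.card F₀ < Fintype.card F ∧ ringChar F₀ = ringChar F := by
  rw [Nat.card_eq_fintype_card] at h
  refine ⟨fun hs => hq (h ▸ hs.pow r), ?_, ?_⟩
  · rw [h]
    exact lt_self_pow₀ Fintype.one_lt_card hr.one_lt
  · have : CharP F₀ (ringChar F) := Subfield.charP _ _
    exact ringChar.eq F₀ (ringChar F)

end Cfsg.Agent.S7
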