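import Mathlib
import Cfsg.Agent.S7.D6
import Cfsg.Agent.S7.S27

set_option autoImplicit false

namespace Cfsg.Agent.S7

open Matrix Cfsg.Geo Cfsg.Agent.Cl.D5 Module
open scoped MatrixGroups ComplexConjugate commutatorElement

namespace WeilP

theorem fact7 : Fact (Nat.Prime 7) := ⟨by norm_num⟩

attribute [local instance] fact7

variable {F : Type*} [Field F]

/-- The additive character. -/
def E (ω : F) (e : ZMod 7) : F := ω ^ e.val

/-- The quadratic character modulo seven. -/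
def chi (a : ZMod 7) : ℤ := (![0, 1, 1, -1, 1, -1, -1] : Fin 7 → ℤ) a

/-- The Gauss sum. -/
def gs (ω : F) : F := 1 + 2 * (ω + ω ^ 2 + ω ^ 4)

theorem chi_mul : ∀ a b : ZMod 7, chi (a * b) = chi a * chi b := by decide

theorem chi_neg : ∀ a : ZMod 7, chi (-a) = -chi a := by decide

theorem chi_of_mul : ∀ a b : ZMod 7, a * b = 1 → chi a = chi b := by decide

theorem chi_sq : ∀ a : ZMod 7, a ≠ 0 → chi a * chi a = 1 := by decide

theorem chi_cases : ∀ a : ZMod 7, a ≠ 0 →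
    ∃ s : ZMod 7, s ≠ 0 ∧ ((chi a = 1 ∧ a = s ^ 2) ∨ (chi a = -1 ∧ a = -s ^ 2)) := by decide

theorem two_ne : (2 : ZMod 7) ≠ 0 := by decide

variable {ω : F}

theorem E_nat (hω : ω ^ 7 = 1) (n : ℕ) : E ω (n : ZMod 7) = ω ^ n := by
  rw [E, ZMod.val_natCast]
  conv_rhs => rw [← Nat.mod_add_div n 7, pow_add, pow_mul, hω, one_pow, mul_one]

theorem E_add (hω : ω ^ 7 = 1) (a b : ZMod 7) : E ω (a + b) = E ω a * E ω b := by
  have h : a + b = ((a.val + b.val : ℕ) : ZMod 7) := by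
    push_cast
    rw [ZMod.natCast_zmod_val, ZMod.natCast_zmod_val]
  rw [h, E_nat hω, pow_add]
  rfl

theorem E_zero : E ω 0 = 1 := by simp [E]

theorem geom (hω : IsPrimitiveRoot ω 7) :
    1 + ω + ω ^ 2 + ω ^ 3 + ω ^ 4 + ω ^ 5 + ω ^ 6 = 0 := by
  have := hω.geom_sum_eq_zero (by norm_num)
  simpa [Finset.sum_range_succ] using this

theorem sum_seven (f : ZMod 7 → F) :
    ∑ k, f k = f 0 + f 1 + f 2 + f 3 + f 4 + f 5 + f 6 :=
  Fin.sum_univ_seven (f : Fin 7 → F)

theorem sum_lin (hω : IsPrimitiveRoot ω 7) (β : ZMod 7) :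
    ∑ k, E ω (β * k) = if β = 0 then 7 else 0 := by
  split_ifs with h
  · subst h
    rw [sum_seven]
    simp only [zero_mul, E_zero]
    norm_num
  · refine (Equiv.sum_comp (Equiv.mulLeft₀ β h) (E ω)).trans ?_
    rw [sum_seven]
    change ω ^ 0 + ω ^ 1 + ω ^ 2 + ω ^ 3 + ω ^ 4 + ω ^ 5 + ω ^ 6 = 0
    linear_combination geom hω

theorem gauss0 (hω : IsPrimitiveRoot ω 7) {α : ZMod 7} (hα : α ≠ 0) :
    ∑ k, E ω (α * k ^ 2) = (chi α : F) * gs ω := by
  obtain ⟨s, hs, ⟨h1, rfl⟩ | ⟨h1, rfl⟩⟩ := chi_cases α hα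
  · have h : ∀ k : ZMod 7, s ^ 2 * k ^ 2 = (Equiv.mulLeft₀ s hs k) ^ 2 := fun k => by
      simp [mul_pow]
    simp only [h]
    rw [Equiv.sum_comp (Equiv.mulLeft₀ s hs) (fun k => E ω (k ^ 2)), sum_seven, h1]
    change ω ^ 0 + ω ^ 1 + ω ^ 4 + ω ^ 2 + ω ^ 2 + ω ^ 4 + ω ^ 1 = _
    simp only [gs]
    push_cast
    ring
  · have h : ∀ k : ZMod 7, -s ^ 2 * k ^ 2 = -(Equiv.mulLeft₀ s hs k) ^ 2 := fun k => by
      simp [mul_pow]
    simp only [h]
    rw [Equiv.sum_comp (Equiv.mulLeft₀ s hs) (fun k => E ω (-k ^ 2)), sum_seven, h1]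
    change ω ^ 0 + ω ^ 6 + ω ^ 3 + ω ^ 5 + ω ^ 5 + ω ^ 3 + ω ^ 6 = _
    simp only [gs]
    push_cast
    linear_combination 2 * geom hω

theorem gauss (hω : IsPrimitiveRoot ω 7) {α : ZMod 7} (hα : α ≠ 0) (t : ZMod 7) :
    ∑ k, E ω (α * k ^ 2 + 2 * α * t * k) = (chi α : F) * gs ω * E ω (-(α * t ^ 2)) := by
  have h : ∀ k : ZMod 7, α * k ^ 2 + 2 * α * t * k =
      α * (Equiv.addRight t k) ^ 2 + -(α * t ^ 2) := fun k => by
    simp only [Equiv.coe_addRight]
    ring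
  simp only [h, E_add hω.pow_eq_one]
  rw [← Finset.sum_mul, Equiv.sum_comp (Equiv.addRight t) (fun k => E ω (α * k ^ 2)),
    gauss0 hω hα]

theorem gs_sq (hω : IsPrimitiveRoot ω 7) : gs ω * gs ω = -7 := by
  simp only [gs]
  linear_combination 8 * geom hω + 4 * ω * hω.pow_eq_one

theorem gs_ne (hω : IsPrimitiveRoot ω 7) : gs ω ≠ 0 := by
  intro h
  have h7 := gs_sq hω
  have h8 : ((7 : ℕ) : F) ≠ 0 := hω.neZero'.out
  apply h8
  rw [h] at h7
  push_cast
  linear_combination h7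

/-- The entries of the Weil representation. -/
def r (ω γ : F) (a b c d i j : ZMod 7) : F :=
  if c = 0 then (if j = a * i then (chi a : F) * E ω (a * b * i ^ 2) else 0)
  else γ * (chi (-c) : F) * E ω ((a * i ^ 2 - 2 * i * j + d * j ^ 2) * c⁻¹)

variable {γ : F}

theorem r_u (i j : ZMod 7) : r ω γ 1 1 0 1 i j = if j = i then E ω (i ^ 2) else 0 := by
  have : chi 1 = 1 := rfl
  simp [r, this]

theorem r_w (i j : ZMod 7) : r ω γ 0 1 (-1) 0 i j = γ * E ω (2 * i * j) := by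
  have h : chi 1 = 1 := rfl
  have h1 : (-1 : ZMod 7) ≠ 0 := by decide
  rw [r, if_neg h1, neg_neg, h]
  congr 2
  · simp
  · rw [inv_neg, inv_one]
    ring

theorem r_mul_u (hω : ω ^ 7 = 1) (a b c d i j : ZMod 7) :
    r ω γ a (a + b) c (c + d) i j = ∑ k, r ω γ a b c d i k * r ω γ 1 1 0 1 k j := by
  simp only [r_u, mul_ite, mul_zero]
  rw [Finset.sum_ite_eq]
  simp only [Finset.mem_univ, if_true, r]
  by_cases hc : c = 0
  · simp only [hc, if_true]
    split_ifs with h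
    · rw [mul_assoc (chi a : F), ← E_add hω, h]
      congr 2
      ring
    · simp
  · simp only [hc, if_false]
    rw [mul_assoc (γ * _), ← E_add hω]
    congr 2
    field_simp
    ring

theorem r_mul_w (hω : IsPrimitiveRoot ω 7) (hγ : γ * gs ω = -1) (a b c d : ZMod 7)
    (hd : a * d - b * c = 1) (i j : ZMod 7) :
    r ω γ (-b) a (-d) c i j = ∑ k, r ω γ a b c d i k * r ω γ 0 1 (-1) 0 k j := by
  have h7 := hω.pow_eq_one
  simp only [r_w]
  by_cases hc : c = 0
  · subst hc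
    have had : a * d = 1 := by linear_combination hd
    have hd0 : d ≠ 0 := by
      rintro rfl
      simp at had
    simp only [r, if_true, neg_eq_zero, hd0, if_false, ite_mul, zero_mul, neg_neg]
    rw [Finset.sum_ite_eq']
    simp only [Finset.mem_univ, if_true]
    have ha : a = d⁻¹ := eq_inv_of_mul_eq_one_left had
    have he : (-b * i ^ 2 - 2 * i * j + 0) * (-d)⁻¹ = a * b * i ^ 2 + 2 * (a * i) * j := by
      rw [inv_neg, ← ha]
      ring
    rw [he, E_add h7, chi_of_mul a d had]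
    ring
  · by_cases hd0 : d = 0
    · subst hd0
      have hbc : -b * c = 1 := by linear_combination hd
      have hb : -b = c⁻¹ := eq_inv_of_mul_eq_one_left hbc
      have he : ∀ k, γ * (chi (-c) : F) * E ω ((a * i ^ 2 - 2 * i * k + 0 * k ^ 2) * c⁻¹) *
          (γ * E ω (2 * k * j)) = γ * γ * (chi (-c) : F) * E ω (-b * a * i ^ 2) *
            E ω ((2 * (j - -b * i)) * k) := fun k => by
        have e : (a * i ^ 2 - 2 * i * k + 0 * k ^ 2) * c⁻¹ + 2 * k * j =
            -b * a * i ^ 2 + (2 * (j - -b * i)) * k := by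
          rw [← hb]
          ring
        have := E_add h7 ((a * i ^ 2 - 2 * i * k + 0 * k ^ 2) * c⁻¹) (2 * k * j)
        rw [e, E_add h7] at this
        linear_combination (-(γ * γ * (chi (-c) : F))) * this
      simp only [r, hc, if_false, neg_zero, if_true]
      simp only [he]
      rw [← Finset.mul_sum, sum_lin hω]
      have hiff : 2 * (j - -b * i) = 0 ↔ j = -b * i := by
        rw [mul_eq_zero, sub_eq_zero]
        simp [two_ne]
      simp only [hiff]
      split_ifs with h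
      · have hg : γ * γ * 7 = -1 := by
          linear_combination (γ * gs ω - 1) * (-1) * hγ + γ * γ * gs_sq hω
        rw [chi_of_mul (-b) c hbc, chi_neg c]
        push_cast
        linear_combination ((chi c : F) * E ω (-b * a * i ^ 2)) * hg
      · simp
    · have hα : d * c⁻¹ ≠ 0 := mul_ne_zero hd0 (inv_ne_zero hc)
      have he : ∀ k, γ * (chi (-c) : F) * E ω ((a * i ^ 2 - 2 * i * k + d * k ^ 2) * c⁻¹) *
          (γ * E ω (2 * k * j)) = γ * γ * (chi (-c) : F) * E ω (a * i ^ 2 * c⁻¹) *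
            E ω (d * c⁻¹ * k ^ 2 + 2 * (d * c⁻¹) * ((c * j - i) * d⁻¹) * k) := fun k => by
        have e : (a * i ^ 2 - 2 * i * k + d * k ^ 2) * c⁻¹ + 2 * k * j =
            a * i ^ 2 * c⁻¹ + (d * c⁻¹ * k ^ 2 + 2 * (d * c⁻¹) * ((c * j - i) * d⁻¹) * k) := by
          field_simp
          ring
        have := E_add h7 ((a * i ^ 2 - 2 * i * k + d * k ^ 2) * c⁻¹) (2 * k * j)
        rw [e, E_add h7] at this
        linear_combination (-(γ * γ * (chi (-c) : F))) * this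
      simp only [r, hc, if_false, neg_eq_zero, hd0, neg_neg]
      simp only [he]
      rw [← Finset.mul_sum, gauss hω hα]
      have e : (-b * i ^ 2 - 2 * i * j + c * j ^ 2) * (-d)⁻¹ =
          a * i ^ 2 * c⁻¹ + -(d * c⁻¹ * ((c * j - i) * d⁻¹) ^ 2) := by
        field_simp
        linear_combination (-(i ^ 2)) * hd
      have hcc : (chi c : F) * chi c = 1 := by exact_mod_cast congrArg (Int.cast : ℤ → F) (chi_sq c hc)
      rw [e, E_add h7, chi_mul, chi_neg c, ← chi_of_mul c c⁻¹ (mul_inv_cancel₀ hc)]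
      push_cast
      linear_combination
        (γ * (chi c : F) * chi c * chi d * E ω (a * i ^ 2 * c⁻¹) *
          E ω (-(d * c⁻¹ * ((c * j - i) * d⁻¹) ^ 2))) * hγ -
        (γ * (chi d : F) * E ω (a * i ^ 2 * c⁻¹) *
          E ω (-(d * c⁻¹ * ((c * j - i) * d⁻¹) ^ 2))) * hcc

/-- The Weil matrices. -/
def rho (ω γ : F) (A : SL(2, ZMod 7)) : Matrix (Fin 7) (Fin 7) F :=
  of fun i j => r ω γ (A 0 0) (A 0 1) (A 1 0) (A 1 1) i j

theorem r_one (i j : ZMod 7) : r ω γ 1 0 0 1 i j = if i = j then 1 else 0 := by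
  have h : chi 1 = 1 := rfl
  simp [r, h, E_zero, eq_comm]

theorem r_z (i j : ZMod 7) : r ω γ (-1) 0 0 (-1) i j = if i = -j then -1 else 0 := by
  have h : chi (-1) = -1 := rfl
  have hiff : j = -1 * i ↔ i = -j := by
    rw [neg_one_mul]
    exact ⟨fun h => by rw [h, neg_neg], fun h => by rw [h, neg_neg]⟩
  simp only [r, if_true, mul_zero, zero_mul, E_zero, h, hiff]
  simp

theorem rho_one : rho ω γ 1 = 1 := by
  ext i j
  exact r_one (γ := γ) i j

theorem rho_mul_u (hω : ω ^ 7 = 1) (A : SL(2, ZMod 7)) :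
    rho ω γ (A * uu) = rho ω γ A * rho ω γ uu := by
  ext i j
  have e : ((A * uu : SL(2, ZMod 7)) : Matrix (Fin 2) (Fin 2) (ZMod 7)) =
      (A : Matrix (Fin 2) (Fin 2) (ZMod 7)) * !![1, 1; 0, 1] := rfl
  have e0 : (A * uu) 0 0 = A 0 0 := by rw [e]; simp [mul_apply, Fin.sum_univ_two]
  have e1 : (A * uu) 0 1 = A 0 0 + A 0 1 := by rw [e]; simp [mul_apply, Fin.sum_univ_two]
  have e2 : (A * uu) 1 0 = A 1 0 := by rw [e]; simp [mul_apply, Fin.sum_univ_two]
  have e3 : (A * uu) 1 1 = A 1 0 + A 1 1 := by rw [e]; simp [mul_apply, Fin.sum_univ_two]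
  rw [mul_apply]
  simp only [rho, of_apply, e0, e1, e2, e3]
  exact r_mul_u hω _ _ _ _ i j

theorem rho_mul_w (hω : IsPrimitiveRoot ω 7) (hγ : γ * gs ω = -1) (A : SL(2, ZMod 7)) :
    rho ω γ (A * ww) = rho ω γ A * rho ω γ ww := by
  ext i j
  have e : ((A * ww : SL(2, ZMod 7)) : Matrix (Fin 2) (Fin 2) (ZMod 7)) =
      (A : Matrix (Fin 2) (Fin 2) (ZMod 7)) * !![0, 1; -1, 0] := rfl
  have e0 : (A * ww) 0 0 = -A 0 1 := by rw [e]; simp [mul_apply, Fin.sum_univ_two]
  have e1 : (A * ww) 0 1 = A 0 0 := by rw [e]; simp [mul_apply, Fin.sum_univ_two]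
  have e2 : (A * ww) 1 0 = -A 1 1 := by rw [e]; simp [mul_apply, Fin.sum_univ_two]
  have e3 : (A * ww) 1 1 = A 1 0 := by rw [e]; simp [mul_apply, Fin.sum_univ_two]
  have hd : A 0 0 * A 1 1 - A 0 1 * A 1 0 = 1 := by
    have := A.det_coe
    rwa [det_fin_two] at this
  rw [mul_apply]
  simp only [rho, of_apply, e0, e1, e2, e3]
  exact r_mul_w hω hγ _ _ _ _ hd i j

theorem rho_mul (hω : IsPrimitiveRoot ω 7) (hγ : γ * gs ω = -1) (A B : SL(2, ZMod 7)) :
    rho ω γ (A * B) = rho ω γ A * rho ω γ B := by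
  have hB : B ∈ Subgroup.closure {uu, ww} := by
    rw [s27_gen.1]
    trivial
  induction hB using Subgroup.closure_induction generalizing A with
  | mem x hx =>
    rcases hx with rfl | rfl
    · exact rho_mul_u hω.pow_eq_one A
    · exact rho_mul_w hω hγ A
  | one => rw [mul_one, rho_one, mul_one]
  | mul x y _ _ hx hy => rw [← mul_assoc, hy, hx, hy, mul_assoc]
  | inv x _ hx =>
    have h1 : rho ω γ x⁻¹ * rho ω γ x = 1 := by rw [← hx, inv_mul_cancel, rho_one]
    have h2 : rho ω γ x * rho ω γ x⁻¹ = 1 := mul_eq_one_comm.1 h1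
    have h3 := hx (A * x⁻¹)
    rw [inv_mul_cancel_right] at h3
    rw [h3, mul_assoc, h2, mul_one]

theorem rho_u : rho ω γ uu = dqM ω := by
  ext i j
  refine (r_u (γ := γ) i j).trans ?_
  rw [dqM, diagonal_apply]
  by_cases hij : i = j
  · subst hij
    refine (if_pos rfl).trans (Eq.trans ?_ (if_pos rfl).symm)
    fin_cases i
    · exact pow_zero ω
    · exact pow_one ω
    · rfl
    · rfl
    · rfl
    · rfl
    · exact pow_one ω
  · exact (if_neg (fun h' => hij (Eq.symm h'))).trans (if_neg hij).symm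

theorem rho_z : rho ω γ (-1) = zM F := by
  ext i j
  exact r_z (ω := ω) (γ := γ) i j

theorem rho_w (hω : ω ^ 7 = 1) : rho ω γ ww = γ • wM ω := by
  ext i j
  refine (r_w i j).trans ?_
  change _ = γ * ω ^ (2 * (i : ℕ) * (j : ℕ))
  have h : ∀ i j : ZMod 7, 2 * i * j = ((2 * i.val * j.val : ℕ) : ZMod 7) := by decide
  rw [← E_nat hω]
  exact congrArg (fun e => γ * E ω e) (h i j)

end WeilP

variable {F : Type*} [Field F] [Fintype F]

local notation "M7" => Matrix (Fin 7) (Fin 7) F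
local notation "SL7" => specialLinear (Fin 7) F
local notation "Z7" => scalars (Fin 7) F
local notation "GL7" => GL (Fin 7) F

omit [Fintype F] in
theorem exists_weil {ω : F} (hω : IsPrimitiveRoot ω 7) :
    ∃ φ : SL(2, ZMod 7) →* GL7, Weil ω φ := by
  have hγ : -(WeilP.gs ω)⁻¹ * WeilP.gs ω = -1 := by
    rw [neg_mul, inv_mul_cancel₀ (WeilP.gs_ne hω)]
  let ρ : SL(2, ZMod 7) →* M7 :=
    { toFun := WeilP.rho ω (-(WeilP.gs ω)⁻¹)
      map_one' := WeilP.rho_one
      map_mul' := WeilP.rho_mul hω hγ }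
  exact ⟨ρ.toHomUnits, WeilP.rho_u, WeilP.rho_z, _, hγ, WeilP.rho_w hω.pow_eq_one⟩

end Cfsg.Agent.S7
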