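import Mathlib
import Cfsg.Agent.S7.D6
import Cfsg.Agent.S7.Solv
import Cfsg.Agent.Blk.ZStar
import Cfsg.Agent.GT.MinNormal
import Cfsg.Agent.GT.PPrimeCore
import Cfsg.Agent.S0205

set_option autoImplicit false

namespace Cfsg.Agent.S7

open Matrix Cfsg.Geo Cfsg.Agent.Cl.D5 Module
open scoped MatrixGroups ComplexConjugate commutatorElement

variable {F : Type*} [Field F] [Fintype F]

local notation "M7" => Matrix (Fin 7) (Fin 7) F
local notation "SL7" => specialLinear (Fin 7) F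
local notation "Z7" => scalars (Fin 7) F
local notation "GL7" => GL (Fin 7) F

variable {ω : F} {x y : GL (Fin 7) F} {φ : SL(2, ZMod 7) →* GL (Fin 7) F}
  {M : Subgroup (GL (Fin 7) F)}

theorem Std.exists_conj (h : Std ω x y φ M) (hn : ¬ M ≤ Subgroup.normalizer (R0 x y : Set GL7)) :
    ∃ g ∈ M, g * φ (-1) * g⁻¹ ≠ φ (-1) ∧
      g * φ (-1) * g⁻¹ * φ (-1) = φ (-1) * (g * φ (-1) * g⁻¹) := by
  classical
  by_contra! hc
  obtain ⟨-, -, -, -, -, -, hz1, hzx, -⟩ := rt_rel h.om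
  obtain ⟨-, -, -, hxZ, h7, -⟩ := rt_sc h.om h.hx h.hy
  have hx7 : x ^ 7 = 1 := h7 x (Subgroup.subset_closure (by simp))
  have hz2 : φ (-1) * φ (-1) = 1 := by rw [← map_mul]; simp
  have hz1' : φ (-1) ≠ 1 := fun e => hz1 (by rw [← h.weil.hz, e]; rfl)
  have hiso : IsIsolatedInvolution (⟨φ (-1), h.fm _⟩ : M) :=
    ⟨orderOf_eq_prime (Subtype.ext (by rw [sq]; exact hz2))
      fun e => hz1' (congrArg Subtype.val e),
      fun g hg => Subtype.ext (by_contra fun e => hc g g.2 e (congrArg Subtype.val hg.symm.eq))⟩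
  have h5 := hiso.commutator_mem_oddCore ⟨x, h.xm⟩
  have h6 : φ (-1) * x * (φ (-1))⁻¹ = x ^ 6 := by
    rw [← eq_inv_of_mul_eq_one_left hz2]
    exact Units.ext (by
      rw [Units.val_mul, Units.val_mul, Units.val_pow_eq_pow_val, h.weil.hz, h.hx, hzx])
  have : Group.IsSolvable (oddCore M) := S0205.result
    (Nat.coprime_two_right.1 (GT.coprime_card_pPrimeCore (G := M) 2))
  obtain ⟨K, hK1, ⟨hK2, hK3⟩, hK4⟩ := GT.exists_minimal_le
    (P := fun K : Subgroup M => K.Normal ∧ ¬ K.map M.subtype ≤ Z7) (H := oddCore M)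
    ⟨(inferInstance : (pPrimeCore 2 M).Normal), fun e => hxZ (by
      have h1 : φ (-1) * x * (φ (-1))⁻¹ * x⁻¹ ∈ Z7 := e ⟨_, h5, rfl⟩
      have h2 : x = (φ (-1) * x * (φ (-1))⁻¹ * x⁻¹) ^ 3 := by
        rw [h6, show (x ^ 6 * x⁻¹) ^ 3 = (x ^ 7) ^ 2 * x by group, hx7, one_pow, one_mul]
      rw [h2]
      exact pow_mem h1 3)⟩
  have := GT.isSolvable_of_le hK1
  refine hn (h.solv (A := K.map M.subtype) (Subgroup.map_subtype_le K) ?_ ?_ hK3)
  · rintro g hg _ ⟨a, ha, rfl⟩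
    exact ⟨_, hK2.conj_mem a ha ⟨g, hg⟩, rfl⟩
  · rw [← Subgroup.map_commutator]
    by_contra e
    have h1 := GT.commutator_lt_of_isSolvable (N := K) (by rintro rfl; simp at hK3)
    exact h1.ne (hK4 _ ⟨inferInstance, e⟩ h1.le)

end Cfsg.Agent.S7
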